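import Mathlib
import Cfsg.Prelude.Def_Classical
import Cfsg.Agent.Lib.Helper2.WeightForm
import Cfsg.Agent.S0288

set_option autoImplicit false

namespace Cfsg.Agent.Lib.Helper2.O4Minus

open scoped Matrix
open Cfsg.Agent.Lib.Helper2.HeartEmb Cfsg.Agent.Lib.Helper2.WeightForm

/-- The index type of the four-dimensional minus-type form. -/
abbrev I4 : Type := (Fin 1 ⊕ Fin 1) ⊕ Fin 2

/-- The basis vectors: a hyperbolic pair of weight four and an anisotropic pair of weight two. -/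
def bv5 : I4 → Fin 5 → ZMod 2 :=
  Sum.elim (Sum.elim (fun _ => ![1,1,1,1,0]) (fun _ => ![0,1,1,1,1]))
    ![![0,1,1,0,0], ![0,0,1,1,0]]

/-- The dual vectors. -/
def cv5 : I4 → Fin 5 → ZMod 2 :=
  Sum.elim (Sum.elim (fun _ => ![0,1,1,1,1]) (fun _ => ![1,1,1,1,0]))
    ![![0,0,1,1,0], ![0,1,1,0,0]]

/-- The matrix whose columns are the basis vectors. -/
def B5 : Matrix (Fin 5) I4 (ZMod 2) := Matrix.of fun a j => bv5 j a

/-- The matrix of dual coordinates. -/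
def C5 : Matrix I4 (Fin 5) (ZMod 2) := Matrix.of fun j a => cv5 j a

theorem CB5 : C5 * B5 = 1 := by decide

theorem BC5 : B5 * C5 = 1 + Matrix.vecMulVec 1 0 + Matrix.vecMulVec 1 1 := by decide

theorem C15 : C5 *ᵥ 1 = 0 := by decide

theorem oneB5 : 1 ᵥ* B5 = 0 := by decide

theorem Q5 : ∀ v : I4 → ZMod 2,
    Cfsg.quadFormMinus 1 (ZMod 2) 1 1 v = Qw (B5 *ᵥ v) := by decide

theorem o4_5 : ∀ y : Fin 5 → ZMod 2, 1 ⬝ᵥ y = 0 → ∃ c : ZMod 2, (B5 * C5) *ᵥ y = y + c • 1 :=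
  o4_of_BC B5 C5 0 1 BC5

theorem o6_5 : ∀ y : Fin 5 → ZMod 2, 1 ⬝ᵥ y = 0 → Qw (y + 1) = Qw y :=
  Qw_add_one (by rw [Fintype.card_fin]; decide)

/-- The embedding of `S₅` into `O⁻₄(2)`. -/
def emb5 : Equiv.Perm (Fin 5) →*
    ↥(Cfsg.isometryGroup (ZMod 2) (Cfsg.quadFormMinus 1 (ZMod 2) 1 1)) :=
  ohom B5 C5 (Cfsg.quadFormMinus 1 (ZMod 2) 1 1) CB5 oneB5 C15 o4_5 Q5 o6_5

theorem ne5 : C5 * Pm (Equiv.swap (0 : Fin 5) 1 * Equiv.swap 1 2) * B5 ≠ 1 := by decide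

theorem emb5_injective : Function.Injective emb5 :=
  ohom_injective B5 C5 (Cfsg.quadFormMinus 1 (ZMod 2) 1 1) CB5 oneB5 C15 o4_5 Q5 o6_5
    (by rw [Nat.card_eq_fintype_card, Fintype.card_fin])
    (Equiv.swap (0 : Fin 5) 1 * Equiv.swap 1 2)
    (by rw [Equiv.Perm.mem_alternatingGroup]; decide) ne5

theorem qminus_map {F : Type*} [Field F] (e : ZMod 2 ≃+* F) (v : I4 → ZMod 2) :
    Cfsg.quadFormMinus 1 F 1 1 (fun i => e (v i)) = e (Cfsg.quadFormMinus 1 (ZMod 2) 1 1 v) := by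
  simp only [Cfsg.quadFormMinus, map_add, map_mul, map_pow, map_one, map_sum]

/-- The embedding of `S₅` into `O⁻₄(F)` for a field with two elements. -/
noncomputable def emb5F {F : Type*} [Field F] [Fintype F] (hF : Fintype.card F = 2) :
    Equiv.Perm (Fin 5) →* ↥(Cfsg.isometryGroup F (Cfsg.quadFormMinus 1 F 1 1)) :=
  (isoMap (ZMod.ringEquivOfPrime F Nat.prime_two hF) (Cfsg.quadFormMinus 1 (ZMod 2) 1 1)
    (Cfsg.quadFormMinus 1 F 1 1) (qminus_map _)).comp emb5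

theorem aniso2 : ∀ a b : ZMod 2, a ^ 2 + 1 * a * b + 1 * b ^ 2 = 0 → a = 0 ∧ b = 0 := by decide

theorem anisoF {F : Type*} [Field F] [Fintype F] (hF : Fintype.card F = 2) (z₁ z₂ : F)
    (h : z₁ ^ 2 + 1 * z₁ * z₂ + 1 * z₂ ^ 2 = 0) : z₁ = 0 ∧ z₂ = 0 := by
  have e := ZMod.ringEquivOfPrime F Nat.prime_two hF
  have h1 : e (e.symm z₁ ^ 2 + 1 * e.symm z₁ * e.symm z₂ + 1 * e.symm z₂ ^ 2) = e 0 := by
    simp only [map_add, map_mul, map_pow, map_one, map_zero, RingEquiv.apply_symm_apply]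
    exact h
  obtain ⟨h2, h3⟩ := aniso2 _ _ (e.injective h1)
  constructor
  · have := congrArg e h2
    rwa [RingEquiv.apply_symm_apply, map_zero] at this
  · have := congrArg e h3
    rwa [RingEquiv.apply_symm_apply, map_zero] at this

theorem card_O4 {F : Type*} [Field F] [Fintype F] (hF : Fintype.card F = 2) :
    Nat.card ↥(Cfsg.isometryGroup F (Cfsg.quadFormMinus 1 F 1 1)) = 120 := by
  have h := Cfsg.Agent.S0288.result hF 2 (by norm_num) 1 1 (anisoF hF)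
  rw [h]
  decide

theorem emb5F_bijective {F : Type*} [Field F] [Fintype F] (hF : Fintype.card F = 2) :
    Function.Bijective (emb5F hF) := by
  have hinj : Function.Injective (emb5F hF) :=
    (isoMap_injective (ZMod.ringEquivOfPrime F Nat.prime_two hF)
      (Cfsg.quadFormMinus 1 (ZMod 2) 1 1) (Cfsg.quadFormMinus 1 F 1 1) (qminus_map _)).comp
      emb5_injective
  rw [Nat.bijective_iff_injective_and_card]
  refine ⟨hinj, ?_⟩
  rw [card_O4 hF, Nat.card_perm, Nat.card_eq_fintype_card, Fintype.card_fin]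
  decide

end Cfsg.Agent.Lib.Helper2.O4Minus
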