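import Mathlib
import Cfsg.Agent.Lib.Helper2.Unitary2

set_option autoImplicit false

namespace Cfsg.Agent.Lib.Helper2.QuadExt

open Polynomial
open Cfsg.Agent.Lib.Helper2.Unitary Cfsg.Agent.Lib.Helper2.HermCount

/-- An embedding of a finite field in its quadratic extension, with a root of an irreducible
quadratic polynomial and its conjugate. -/
structure Setup (F K : Type*) [Field F] [Field K] (q : ℕ) (a b : F) where
  /-- The embedding. -/
  φ : F →+* K
  /-- The root. -/
  ζ : K
  /-- The conjugate root. -/
  ζ' : K
  add : ζ + ζ' = φ a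
  mul : ζ * ζ' = φ b
  ne : ζ ≠ ζ'
  pow1 : ζ ^ q = ζ'
  pow2 : ζ' ^ q = ζ
  fix : ∀ x : K, x ^ q = x → ∃ f, φ f = x
  fixφ : ∀ f, φ f ^ q = φ f

theorem exists_setup {F K : Type*} [Field F] [Fintype F] [Field K] [Fintype K] {q : ℕ}
    (hF : Fintype.card F = q) (hK : Fintype.card K = q ^ 2) (a b : F)
    (hab : ∀ z₁ z₂ : F, z₁ ^ 2 + a * z₁ * z₂ + b * z₂ ^ 2 = 0 → z₁ = 0 ∧ z₂ = 0) :
    Nonempty (Setup F K q a b) := by
  classical
  have hq1 : 1 < q := by rw [← hF]; exact Fintype.one_lt_card
  let f : F[X] := X ^ 2 - C a * X + C b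
  have hdeg : f.natDegree = 2 := by
    have h1 : f = X ^ 2 + (C (-a) * X + C b) := by
      simp only [f, C_neg]
      ring
    rw [h1]
    compute_degree!
  have hirr : Irreducible f := by
    apply irreducible_of_degree_le_three_of_not_isRoot
    · rw [hdeg]
      decide
    · intro x hx
      have h1 : x ^ 2 - a * x + b = 0 := by
        simpa [f] using hx
      have h2 := hab x (-1) (by linear_combination h1)
      have h3 : (1 : F) = 0 := by linear_combination -h2.2
      exact one_ne_zero h3
  have : Fact (Irreducible f) := ⟨hirr⟩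
  have hf0 : f ≠ 0 := hirr.ne_zero
  let pb := AdjoinRoot.powerBasis hf0
  have : Module.Finite F (AdjoinRoot f) := pb.finite
  have : Finite (AdjoinRoot f) := Module.finite_of_finite F
  haveI : Fintype (AdjoinRoot f) := Fintype.ofFinite _
  have hcard : Fintype.card (AdjoinRoot f) = q ^ 2 := by
    rw [← Nat.card_eq_fintype_card, Module.natCard_eq_pow_finrank (K := F),
      Nat.card_eq_fintype_card, hF, pb.finrank, AdjoinRoot.powerBasis_dim, hdeg]
  let ψ : AdjoinRoot f ≃+* K := FiniteField.ringEquivOfCardEq (hcard.trans hK.symm)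
  let φ : F →+* K := (ψ : AdjoinRoot f →+* K).comp (AdjoinRoot.of f)
  let ζ : K := ψ (AdjoinRoot.root f)
  have hroot : ζ ^ 2 - φ a * ζ + φ b = 0 := by
    have h := AdjoinRoot.eval₂_root f
    simp only [f, eval₂_add, eval₂_sub, eval₂_mul, eval₂_pow, eval₂_X, eval₂_C] at h
    have h' := congrArg ψ h
    simpa [φ, ζ] using h'
  have hfixφ : ∀ x : F, φ x ^ q = φ x := by
    intro x
    rw [← map_pow, ← hF, FiniteField.pow_card]
  have hfix : ∀ x : K, x ^ q = x → ∃ y, φ y = x := by
    let S : Finset K := Finset.univ.filter (fun x => x ^ q = x)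
    let T : Finset K := Finset.univ.image φ
    have hTS : T ⊆ S := by
      intro x hx
      simp only [T, Finset.mem_image, Finset.mem_univ, true_and] at hx
      obtain ⟨y, rfl⟩ := hx
      simp only [S, Finset.mem_filter, Finset.mem_univ, true_and]
      exact hfixφ y
    have hT : T.card = q := by
      rw [Finset.card_image_of_injective _ φ.injective, Finset.card_univ, hF]
    have hS : S.card ≤ q := by
      have hne : (X ^ q - X : K[X]) ≠ 0 := FiniteField.X_pow_card_sub_X_ne_zero K hq1
      have hsub : S ⊆ (X ^ q - X : K[X]).roots.toFinset := by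
        intro x hx
        simp only [S, Finset.mem_filter, Finset.mem_univ, true_and] at hx
        rw [Multiset.mem_toFinset, mem_roots hne, IsRoot.def, eval_sub, eval_pow, eval_X,
          sub_eq_zero]
        exact hx
      calc S.card ≤ (X ^ q - X : K[X]).roots.toFinset.card := Finset.card_le_card hsub
        _ ≤ Multiset.card (X ^ q - X : K[X]).roots := Multiset.toFinset_card_le _
        _ ≤ (X ^ q - X : K[X]).natDegree := card_roots' _
        _ = q := FiniteField.X_pow_card_sub_X_natDegree_eq K hq1
    have hEq : T = S := Finset.eq_of_subset_of_card_le hTS (by rw [hT]; exact hS)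
    intro x hx
    have h1 : x ∈ T := by
      rw [hEq]
      simp only [S, Finset.mem_filter, Finset.mem_univ, true_and]
      exact hx
    simp only [T, Finset.mem_image, Finset.mem_univ, true_and] at h1
    exact h1
  have hroot' : (ζ ^ q) ^ 2 - φ a * ζ ^ q + φ b = 0 := by
    have h := congrArg (frob hK) hroot
    simp only [map_sub, map_add, map_mul, map_pow, map_zero, frob_apply, hfixφ] at h
    exact h
  have hne : ζ ≠ ζ ^ q := by
    intro h
    obtain ⟨r, hr⟩ := hfix ζ h.symm
    rw [← hr] at hroot
    have h1 : φ (r ^ 2 - a * r + b) = 0 := by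
      rw [map_add, map_sub, map_mul, map_pow]
      exact hroot
    have h2 : r ^ 2 - a * r + b = 0 := by
      rw [← map_zero φ] at h1
      exact φ.injective h1
    have h3 := hab r (-1) (by linear_combination h2)
    have h4 : (1 : F) = 0 := by linear_combination -h3.2
    exact one_ne_zero h4
  have hvieta : ζ ^ q = φ a - ζ := by
    have h1 : (ζ ^ q - ζ) * (ζ ^ q - (φ a - ζ)) = 0 := by
      linear_combination hroot' - hroot
    rcases mul_eq_zero.mp h1 with h2 | h2
    · exact absurd (sub_eq_zero.mp h2).symm hne
    · exact sub_eq_zero.mp h2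
  exact ⟨{ φ := φ, ζ := ζ, ζ' := ζ ^ q
           add := by rw [hvieta]; ring
           mul := by rw [hvieta]; linear_combination -hroot
           ne := hne
           pow1 := rfl
           pow2 := pow_q_pow_q hK ζ
           fix := hfix
           fixφ := hfixφ }⟩

end Cfsg.Agent.Lib.Helper2.QuadExt
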