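import Mathlib
import Cfsg.Prelude.Def_Classical
import Cfsg.Agent.Lib.Helper2.SLGen
import Cfsg.Agent.Lib.Helper15.CartanD
import Cfsg.Agent.S0243
import Cfsg.Agent.S0292

set_option autoImplicit false

namespace Cfsg.Agent.Lib.Helper2.Adj3

open scoped Matrix
open Cfsg.Agent.Lib.Helper2.SLGen

variable {F : Type*} [Field F]

/-- The index type of the three-dimensional orthogonal space. -/
abbrev I3 : Type := Unit ⊕ (Fin 1 ⊕ Fin 1)

/-- The adjoint representation on trace-zero matrices. -/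
def ad3 (g : Matrix (Fin 2) (Fin 2) F) : Matrix I3 I3 F :=
  Matrix.of (Sum.elim
    (fun _ => Sum.elim (fun _ => g 0 0 * g 1 1 + g 0 1 * g 1 0)
      (Sum.elim (fun _ => -(g 0 0 * g 1 0)) (fun _ => g 0 1 * g 1 1)))
    (Sum.elim
      (fun _ => Sum.elim (fun _ => -(2 * (g 0 0 * g 0 1)))
        (Sum.elim (fun _ => g 0 0 * g 0 0) (fun _ => -(g 0 1 * g 0 1))))
      (fun _ => Sum.elim (fun _ => 2 * (g 1 0 * g 1 1))
        (Sum.elim (fun _ => -(g 1 0 * g 1 0)) (fun _ => g 1 1 * g 1 1)))))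

theorem ad3_mul (g h : Matrix (Fin 2) (Fin 2) F) : ad3 (g * h) = ad3 g * ad3 h := by
  ext i j
  rcases i with _ | _ | _ <;> rcases j with _ | _ | _ <;>
    simp [ad3, Matrix.mul_apply, Fintype.sum_sum_type, Fin.sum_univ_two] <;> ring

theorem ad3_one : ad3 (1 : Matrix (Fin 2) (Fin 2) F) = 1 := by
  ext i j
  rcases i with _ | _ | _ <;> rcases j with _ | _ | _ <;>
    simp [ad3, Matrix.one_apply] <;> exact Subsingleton.elim _ _

theorem ad3_q (g : Matrix (Fin 2) (Fin 2) F) (v : I3 → F) :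
    Cfsg.quadFormOdd 1 F (ad3 g *ᵥ v) = g.det ^ 2 * Cfsg.quadFormOdd 1 F v := by
  simp [Cfsg.quadFormOdd, ad3, Matrix.mulVec, dotProduct, Fintype.sum_sum_type,
    Matrix.det_fin_two]
  ring

/-- The adjoint representation as a unit. -/
def adU (A : Matrix.SpecialLinearGroup (Fin 2) F) : Matrix.GeneralLinearGroup I3 F :=
  ⟨ad3 A.1, ad3 (A⁻¹).1, by
    rw [← ad3_mul, ← Matrix.SpecialLinearGroup.coe_mul, mul_inv_cancel,
      Matrix.SpecialLinearGroup.coe_one, ad3_one], by
    rw [← ad3_mul, ← Matrix.SpecialLinearGroup.coe_mul, inv_mul_cancel,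
      Matrix.SpecialLinearGroup.coe_one, ad3_one]⟩

theorem adU_mem (A : Matrix.SpecialLinearGroup (Fin 2) F) :
    adU A ∈ Cfsg.isometryGroup F (Cfsg.quadFormOdd 1 F) := by
  intro u _
  show Cfsg.quadFormOdd 1 F (ad3 A.1 *ᵥ u) = Cfsg.quadFormOdd 1 F u
  rw [ad3_q, A.2, one_pow, one_mul]

/-- The adjoint representation as a homomorphism into the orthogonal group. -/
def adO : Matrix.SpecialLinearGroup (Fin 2) F →*
    ↥(Cfsg.isometryGroup F (Cfsg.quadFormOdd 1 F)) where
  toFun A := ⟨adU A, adU_mem A⟩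
  map_one' := Subtype.ext (Units.ext ad3_one)
  map_mul' A B := Subtype.ext (Units.ext (ad3_mul A.1 B.1))

theorem adO_val (A : Matrix.SpecialLinearGroup (Fin 2) F) :
    (((adO A : ↥(Cfsg.isometryGroup F (Cfsg.quadFormOdd 1 F))) :
      Matrix.GeneralLinearGroup I3 F) : Matrix I3 I3 F) = ad3 A.1 := rfl

theorem ad3_eq_one_iff (A : Matrix.SpecialLinearGroup (Fin 2) F) :
    ad3 A.1 = 1 ↔ A ∈ Subgroup.center (Matrix.SpecialLinearGroup (Fin 2) F) := by
  constructor
  · intro h
    have hxx := congrFun (congrFun h (Sum.inr (Sum.inl 0))) (Sum.inr (Sum.inl 0))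
    have hxy := congrFun (congrFun h (Sum.inr (Sum.inl 0))) (Sum.inr (Sum.inr 0))
    have hyx := congrFun (congrFun h (Sum.inr (Sum.inr 0))) (Sum.inr (Sum.inl 0))
    have hzz := congrFun (congrFun h (Sum.inl ())) (Sum.inl ())
    simp [ad3] at hxx hxy hyx hzz
    rw [hxy, hyx] at hzz
    simp at hzz
    have ha : A.1 0 0 ≠ 0 := by
      intro h0
      rw [h0] at hxx
      simp at hxx
    have had : A.1 0 0 = A.1 1 1 := by
      apply mul_left_cancel₀ ha
      rw [hxx, hzz]
    rw [Matrix.SpecialLinearGroup.mem_center_iff]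
    refine ⟨A.1 0 0, ?_, ?_⟩
    · rw [Fintype.card_fin, pow_two, hxx]
    · ext i j
      fin_cases i <;> fin_cases j <;> simp [Matrix.scalar_apply, hxy, hyx, had]
  · intro h
    obtain ⟨r, hr, hA⟩ := Matrix.SpecialLinearGroup.mem_center_iff.mp h
    rw [Fintype.card_fin, pow_two] at hr
    rw [← hA]
    ext i j
    rcases i with _ | _ | _ <;> rcases j with _ | _ | _ <;>
      simp [ad3, Matrix.one_apply, hr] <;> exact Subsingleton.elim _ _

theorem tv_pow {i j : Fin 2} (hij : i ≠ j) (c : F) (n : ℕ) :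
    (Matrix.SpecialLinearGroup.transvection hij c : Matrix.SpecialLinearGroup (Fin 2) F) ^ n
      = Matrix.SpecialLinearGroup.transvection hij (n * c) := by
  induction n with
  | zero =>
    apply Subtype.ext
    rw [pow_zero, Nat.cast_zero, zero_mul, Matrix.SpecialLinearGroup.transvection_coe]
    simp
  | succ n ih =>
    rw [pow_succ, ih]
    apply Subtype.ext
    rw [Matrix.SpecialLinearGroup.coe_mul, Matrix.SpecialLinearGroup.transvection_coe,
      Matrix.SpecialLinearGroup.transvection_coe, Matrix.SpecialLinearGroup.transvection_coe]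
    have h := Matrix.transvection_mul_transvection_same i j hij ((n : F) * c) c
    unfold Matrix.transvection at h
    rw [h]
    congr 2
    push_cast
    ring

section fin

variable [Fintype F]

open Cfsg.Agent.Lib.Helper15.Spinor3 Cfsg.Agent.Lib.Helper15.StdForms in
theorem omega_index3 (hodd : Odd (Fintype.card F)) :
    (Cfsg.Omega F (Cfsg.quadFormOdd 1 F)).index = 4 := by
  classical
  have h2 : (2 : F) ≠ 0 := Cfsg.Agent.Lib.Helper15.Spinor2.two_ne_zero_of_odd_card rfl hodd
  have hQ : (QuadraticMap.polarBilin (oddQF 1 F)).Nondegenerate :=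
    nondeg_of_sep _ (fun x hx => Cfsg.Agent.Lib.Helper15.OrthOrder.odd_sep h2 1 x
      (by rw [← coe_oddQF]; exact hx))
  have hn : 2 ≤ Fintype.card (Unit ⊕ (Fin 1 ⊕ Fin 1)) := by
    rw [Fintype.card_sum, Fintype.card_sum, Fintype.card_fin, Fintype.card_unit]
    omega
  have h := Cfsg.Agent.Lib.Helper15.CartanD.omega_index h2 (oddQF 1 F) hQ hn
  rw [coe_oddQF] at h
  exact h

theorem mem_omega_of_pow (hodd : Odd (Fintype.card F))
    (x : ↥(Cfsg.isometryGroup F (Cfsg.quadFormOdd 1 F))) (hx : x ^ Fintype.card F = 1) :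
    x ∈ Cfsg.Omega F (Cfsg.quadFormOdd 1 F) := by
  have hidx := omega_index3 hodd
  rw [Subgroup.index_eq_card] at hidx
  have h1 : (QuotientGroup.mk x : ↥(Cfsg.isometryGroup F (Cfsg.quadFormOdd 1 F)) ⧸
      Cfsg.Omega F (Cfsg.quadFormOdd 1 F)) ^ Fintype.card F = 1 := by
    rw [← QuotientGroup.mk_pow, hx]
    rfl
  have h2 : (QuotientGroup.mk x : ↥(Cfsg.isometryGroup F (Cfsg.quadFormOdd 1 F)) ⧸
      Cfsg.Omega F (Cfsg.quadFormOdd 1 F)) ^ 4 = 1 := by
    rw [← hidx]
    exact pow_card_eq_one'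
  have h3 := pow_gcd_eq_one.mpr ⟨h1, h2⟩
  have h4 : Nat.gcd (Fintype.card F) 4 = 1 := by
    have h5 : Nat.Coprime (Fintype.card F) (2 ^ 2) :=
      Nat.Coprime.pow_right 2 (Nat.coprime_two_right.2 hodd)
    exact h5
  rw [h4, pow_one] at h3
  exact (QuotientGroup.eq_one_iff x).mp h3

theorem adO_mem (hodd : Odd (Fintype.card F)) (A : Matrix.SpecialLinearGroup (Fin 2) F) :
    adO A ∈ Cfsg.Omega F (Cfsg.quadFormOdd 1 F) := by
  refine transvection_induction (fun A : Matrix.SpecialLinearGroup (Fin 2) F =>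
    adO A ∈ Cfsg.Omega F (Cfsg.quadFormOdd 1 F)) ?_ ?_ A
  · intro i j hij c
    apply mem_omega_of_pow hodd
    rw [← map_pow, tv_pow, Nat.cast_card_eq_zero, zero_mul]
    have h0 : (Matrix.SpecialLinearGroup.transvection hij (0 : F) :
        Matrix.SpecialLinearGroup (Fin 2) F) = 1 := by
      apply Subtype.ext
      rw [Matrix.SpecialLinearGroup.transvection_coe]
      simp
    rw [h0, map_one]
  · intro A B hA hB
    rw [map_mul]
    exact mul_mem hA hB

/-- The adjoint representation as a homomorphism into `Ω`. -/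
def adΩ (hodd : Odd (Fintype.card F)) :
    Matrix.SpecialLinearGroup (Fin 2) F →* ↥(Cfsg.Omega F (Cfsg.quadFormOdd 1 F)) :=
  adO.codRestrict _ (adO_mem hodd)

theorem adΩ_eq_one_iff (hodd : Odd (Fintype.card F)) (A : Matrix.SpecialLinearGroup (Fin 2) F) :
    adΩ hodd A = 1 ↔ A ∈ Subgroup.center (Matrix.SpecialLinearGroup (Fin 2) F) := by
  rw [← ad3_eq_one_iff]
  constructor
  · intro h
    have h1 := congrArg (fun x : ↥(Cfsg.Omega F (Cfsg.quadFormOdd 1 F)) =>
      (x.1.1.1 : Matrix I3 I3 F)) h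
    exact h1
  · intro h
    exact Subtype.ext (Subtype.ext (Units.ext h))

/-- The induced homomorphism on `PSL₂`. -/
def adL (hodd : Odd (Fintype.card F)) : Matrix.ProjectiveSpecialLinearGroup (Fin 2) F →*
    ↥(Cfsg.Omega F (Cfsg.quadFormOdd 1 F)) :=
  QuotientGroup.lift _ (adΩ hodd) (fun A hA => (adΩ_eq_one_iff hodd A).mpr hA)

theorem adL_injective (hodd : Odd (Fintype.card F)) : Function.Injective (adL hodd) := by
  rw [injective_iff_map_eq_one]
  intro x hx
  induction x using QuotientGroup.induction_on with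
  | H A =>
    have h1 : adΩ hodd A = 1 := hx
    exact (QuotientGroup.eq_one_iff A).mpr ((adΩ_eq_one_iff hodd A).mp h1)

theorem ad_card_eq (hodd : Odd (Fintype.card F)) :
    Nat.card (Matrix.ProjectiveSpecialLinearGroup (Fin 2) F)
      = Nat.card ↥(Cfsg.Omega F (Cfsg.quadFormOdd 1 F)) := by
  classical
  obtain ⟨q, hF⟩ : ∃ q, Fintype.card F = q := ⟨_, rfl⟩
  rw [hF] at hodd
  have hq2 : 2 ≤ q := by rw [← hF]; exact Fintype.one_lt_card
  have hO := Cfsg.Agent.S0286.result hF hodd 1
  have hidx := omega_index3 (F := F) (by rw [hF]; exact hodd)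
  have h3 : Nat.card ↥(Cfsg.Omega F (Cfsg.quadFormOdd 1 F)) * 4 = 2 * q * (q ^ 2 - 1) := by
    have h := Subgroup.card_mul_index (Cfsg.Omega F (Cfsg.quadFormOdd 1 F))
    rw [hidx, hO] at h
    rw [h]
    norm_num [Finset.prod_range_succ]
  have hPSL : Nat.gcd 2 (q - 1) * ((q - 1) *
      Nat.card (Matrix.ProjectiveSpecialLinearGroup (Fin 2) F))
      = (q ^ 2 - q ^ 0) * (q ^ 2 - q ^ 1) := by
    have h := Cfsg.Agent.S0243.result hF 2 (by norm_num)
    rw [Fin.prod_univ_two] at h
    exact h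
  have hg : Nat.gcd 2 (q - 1) = 2 := by
    obtain ⟨k, hk⟩ := hodd
    rw [hk, Nat.add_sub_cancel]
    exact Nat.gcd_eq_left (dvd_mul_right 2 k)
  have hA : q ^ 2 - q ^ 1 = q * (q - 1) := by
    rw [Nat.mul_sub, mul_one, pow_one]
    ring_nf
  rw [hg, hA, pow_zero] at hPSL
  have hq1 : 0 < q - 1 := by omega
  have h5 : (2 * (q - 1)) * (2 * Nat.card (Matrix.ProjectiveSpecialLinearGroup (Fin 2) F))
      = (2 * (q - 1)) * (2 * Nat.card ↥(Cfsg.Omega F (Cfsg.quadFormOdd 1 F))) := by
    calc (2 * (q - 1)) * (2 * Nat.card (Matrix.ProjectiveSpecialLinearGroup (Fin 2) F))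
        = 2 * (2 * ((q - 1) * Nat.card (Matrix.ProjectiveSpecialLinearGroup (Fin 2) F))) := by
          ring
      _ = 2 * ((q ^ 2 - 1) * (q * (q - 1))) := by rw [hPSL]
      _ = (q - 1) * (2 * q * (q ^ 2 - 1)) := by ring
      _ = (q - 1) * (Nat.card ↥(Cfsg.Omega F (Cfsg.quadFormOdd 1 F)) * 4) := by rw [h3]
      _ = _ := by ring
  have h6 := Nat.eq_of_mul_eq_mul_left (Nat.mul_pos (by norm_num) hq1) h5
  omega

end fin

theorem center_psl2 (h2 : (2 : F) ≠ 0) :
    Subgroup.center (Matrix.ProjectiveSpecialLinearGroup (Fin 2) F) = ⊥ := by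
  rw [Subgroup.eq_bot_iff_forall]
  intro x hx
  induction x using QuotientGroup.induction_on with
  | H g =>
    rw [Subgroup.mem_center_iff] at hx
    have key : ∀ h : Matrix.SpecialLinearGroup (Fin 2) F,
        ∃ r : F, r * r = 1 ∧ g.1 * h.1 = r • (h.1 * g.1) := by
      intro h
      have h1 := hx (QuotientGroup.mk h)
      rw [← QuotientGroup.mk_mul, ← QuotientGroup.mk_mul, QuotientGroup.eq] at h1
      obtain ⟨r, hr, hz⟩ := Matrix.SpecialLinearGroup.mem_center_iff.mp h1
      rw [Fintype.card_fin, pow_two] at hr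
      refine ⟨r, hr, ?_⟩
      have h3 : g * h = (h * g) * ((h * g)⁻¹ * (g * h)) := by group
      have h4 : g.1 * h.1 = (h.1 * g.1) * ((h * g)⁻¹ * (g * h)).1 := by
        rw [← Matrix.SpecialLinearGroup.coe_mul, ← Matrix.SpecialLinearGroup.coe_mul,
          ← Matrix.SpecialLinearGroup.coe_mul, ← h3]
      rw [h4, ← hz, Matrix.scalar_apply, ← Matrix.smul_one_eq_diagonal, Matrix.mul_smul,
        Matrix.mul_one]
    have hdet : g.1 0 0 * g.1 1 1 - g.1 0 1 * g.1 1 0 = 1 := by
      rw [← Matrix.det_fin_two]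
      exact g.2
    have hr : ∀ r : F, r * r = 1 → r = 1 ∨ r = -1 := by
      intro r hr
      have h5 : (r - 1) * (r + 1) = 0 := by linear_combination hr
      rcases mul_eq_zero.mp h5 with h6 | h6
      · left
        linear_combination h6
      · right
        linear_combination h6
    have half : ∀ y : F, y = -y → y = 0 := by
      intro y hy
      have h5 : (2 : F) * y = 0 := by linear_combination hy
      rcases mul_eq_zero.mp h5 with h6 | h6
      · exact absurd h6 h2
      · exact h6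
    obtain ⟨r1, hr1, hk1⟩ := key (Matrix.SpecialLinearGroup.transvection
      (show (0 : Fin 2) ≠ 1 by decide) (1 : F))
    obtain ⟨r2, hr2, hk2⟩ := key (Matrix.SpecialLinearGroup.transvection
      (show (1 : Fin 2) ≠ 0 by decide) (1 : F))
    rw [Matrix.SpecialLinearGroup.transvection_coe] at hk1 hk2
    have a00 := congrFun (congrFun hk1 0) 0
    have a01 := congrFun (congrFun hk1 0) 1
    have a10 := congrFun (congrFun hk1 1) 0
    have b00 := congrFun (congrFun hk2 0) 0
    have b01 := congrFun (congrFun hk2 0) 1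
    simp [Matrix.mul_apply, Fin.sum_univ_two, Matrix.single_apply, Matrix.one_apply,
      Matrix.add_apply] at a00 a01 a10 b00 b01
    have hc : g.1 1 0 = 0 ∧ g.1 0 0 = g.1 1 1 := by
      rcases hr r1 hr1 with h | h
      · rw [h] at a00 a01
        constructor
        · linear_combination -a00
        · linear_combination a01
      · rw [h] at a00 a10
        have hc0 : g.1 1 0 = 0 := half _ (by linear_combination a10)
        have ha0 : g.1 0 0 = 0 := half _ (by linear_combination a00 - hc0)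
        rw [ha0, hc0] at hdet
        simp at hdet
    have hb : g.1 0 1 = 0 := by
      rcases hr r2 hr2 with h | h
      · rw [h] at b00
        linear_combination b00
      · rw [h] at b00 b01
        have hb0 : g.1 0 1 = 0 := half _ (by linear_combination b01)
        have ha0 : g.1 0 0 = 0 := half _ (by linear_combination b00 - hb0)
        rw [ha0, hb0] at hdet
        simp at hdet
    apply (QuotientGroup.eq_one_iff g).mpr
    rw [Matrix.SpecialLinearGroup.mem_center_iff]
    refine ⟨g.1 0 0, ?_, ?_⟩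
    · rw [Fintype.card_fin, pow_two]
      rw [hb, ← hc.2] at hdet
      linear_combination hdet
    · ext i j
      fin_cases i <;> fin_cases j <;> simp [Matrix.scalar_apply, hb, hc.1, hc.2]

theorem main3 [Fintype F] (hodd : Odd (Fintype.card F)) :
    Nonempty (Cfsg.POmega F (Cfsg.quadFormOdd 1 F) ≃*
      Matrix.ProjectiveSpecialLinearGroup (Fin 2) F) := by
  classical
  have h2 : (2 : F) ≠ 0 := Cfsg.Agent.Lib.Helper15.Spinor2.two_ne_zero_of_odd_card rfl hodd
  have hb : Function.Bijective (adL hodd) :=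
    (Nat.bijective_iff_injective_and_card _).2 ⟨adL_injective hodd, ad_card_eq hodd⟩
  have hcen : Subgroup.center ↥(Cfsg.Omega F (Cfsg.quadFormOdd 1 F)) = ⊥ := by
    rw [Subgroup.eq_bot_iff_forall]
    intro z hz
    obtain ⟨y, rfl⟩ := hb.2 z
    have h3 : y ∈ Subgroup.center (Matrix.ProjectiveSpecialLinearGroup (Fin 2) F) := by
      rw [Subgroup.mem_center_iff]
      intro w
      apply hb.1
      rw [map_mul, map_mul]
      exact Subgroup.mem_center_iff.mp hz (adL hodd w)
    rw [center_psl2 h2, Subgroup.mem_bot] at h3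
    rw [h3, map_one]
  exact ⟨((QuotientGroup.quotientMulEquivOfEq hcen).trans QuotientGroup.quotientBot).trans
    (MulEquiv.ofBijective (adL hodd) hb).symm⟩

end Cfsg.Agent.Lib.Helper2.Adj3
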