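import Mathlib
import Cfsg.Prelude.Def_ClassicalGeometry
import Cfsg.Agent.Lib.Helper5.Symp
import Cfsg.Agent.Lib.Helper5.Symp2
import Cfsg.Agent.S0765
import Cfsg.Agent.S0766
import Cfsg.Agent.S0768

set_option autoImplicit false
open Cfsg
open scoped Matrix

namespace Cfsg.Agent.Lib.Helper2.SympPerf

open Cfsg.Agent.Lib.Helper5.Symp Cfsg.Agent.Lib.Helper5.Symp2

variable {F : Type*} [Field F] (m : ℕ)

theorem ext_mulVec {A B : Matrix.symplecticGroup (Fin m) F}
    (h : ∀ x, (A : Matrix (Fin m ⊕ Fin m) (Fin m ⊕ Fin m) F) *ᵥ x =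
      (B : Matrix (Fin m ⊕ Fin m) (Fin m ⊕ Fin m) F) *ᵥ x) : A = B :=
  Subtype.ext (Matrix.ext_iff_mulVec.mpr h)

theorem coe_mul_mulVec (A B : Matrix.symplecticGroup (Fin m) F) (x : Fin m ⊕ Fin m → F) :
    ((A * B : Matrix.symplecticGroup (Fin m) F) : Matrix (Fin m ⊕ Fin m) (Fin m ⊕ Fin m) F) *ᵥ x
      = (A : Matrix (Fin m ⊕ Fin m) (Fin m ⊕ Fin m) F) *ᵥ
        ((B : Matrix (Fin m ⊕ Fin m) (Fin m ⊕ Fin m) F) *ᵥ x) := by
  rw [Matrix.mulVec_mulVec]; rfl

theorem conj_tv (g : Matrix.symplecticGroup (Fin m) F) (w : Fin m ⊕ Fin m → F) (c : F) :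
    g * tv m w c * g⁻¹ =
      tv m ((g : Matrix (Fin m ⊕ Fin m) (Fin m ⊕ Fin m) F) *ᵥ w) c := by
  rw [mul_inv_eq_iff_eq_mul]
  apply ext_mulVec
  intro x
  rw [coe_mul_mulVec, coe_mul_mulVec, tv_mulVec, tv_mulVec, Matrix.mulVec_add,
    Matrix.mulVec_smul, sympForm_mulVec_of_mem m g.2]

theorem tv_smul (a : F) (w : Fin m ⊕ Fin m → F) (c : F) :
    tv m (a • w) c = tv m w (a * a * c) := by
  apply ext_mulVec
  intro x
  rw [tv_mulVec, tv_mulVec, sympForm_smul_right, smul_smul]
  congr 2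
  ring

theorem tv_add (w : Fin m ⊕ Fin m → F) (c d : F) :
    tv m w c * tv m w d = tv m w (c + d) :=
  Subtype.ext (sympTransvection_mul m w c d)

theorem tv_zero (w : Fin m ⊕ Fin m → F) : tv m w (0 : F) = 1 :=
  Subtype.ext (sympTransvection_zero m w)

theorem tv_zero_left (c : F) : tv m (0 : Fin m ⊕ Fin m → F) c = 1 := by
  apply ext_mulVec
  intro x
  rw [tv_mulVec, smul_zero, add_zero]
  simp

theorem exists_map {u u' : Fin m ⊕ Fin m → F} (hu : u ≠ 0) (hu' : u' ≠ 0) :
    ∃ g : Matrix.symplecticGroup (Fin m) F,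
      (g : Matrix (Fin m ⊕ Fin m) (Fin m ⊕ Fin m) F) *ᵥ u = u' := by
  obtain ⟨v, hv⟩ := Cfsg.Agent.S0768.exists_partner m hu
  obtain ⟨v', hv'⟩ := Cfsg.Agent.S0768.exists_partner m hu'
  obtain ⟨A, -, hA, -⟩ := Cfsg.Agent.S0766.result m u v u' v' hv hv'
  exact ⟨A, hA⟩

theorem ab_conj (g : Matrix.symplecticGroup (Fin m) F) (w : Fin m ⊕ Fin m → F) (c : F) :
    (Abelianization.of (tv m ((g : Matrix (Fin m ⊕ Fin m) (Fin m ⊕ Fin m) F) *ᵥ w) c) :
      Abelianization (Matrix.symplecticGroup (Fin m) F)) = Abelianization.of (tv m w c) := by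
  rw [← conj_tv, map_mul, map_mul, map_inv, mul_comm, inv_mul_cancel_left]

theorem ab_eq {u u' : Fin m ⊕ Fin m → F} (hu : u ≠ 0) (hu' : u' ≠ 0) (c : F) :
    (Abelianization.of (tv m u c) :
      Abelianization (Matrix.symplecticGroup (Fin m) F)) = Abelianization.of (tv m u' c) := by
  obtain ⟨g, hg⟩ := exists_map m hu hu'
  rw [← hg, ab_conj]

theorem commutator_eq_top_of
    (h : ∀ (w : Fin m ⊕ Fin m → F) (c : F),
      (Abelianization.of (tv m w c) :
        Abelianization (Matrix.symplecticGroup (Fin m) F)) = 1) :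
    commutator (Matrix.symplecticGroup (Fin m) F) = ⊤ := by
  rw [eq_top_iff, ← Cfsg.Agent.S0765.result m, Subgroup.closure_le]
  rintro A ⟨w, c, hA⟩
  have hA' : A = tv m w c := Subtype.ext hA
  rw [hA', SetLike.mem_coe, ← Abelianization.ker_of, MonoidHom.mem_ker]
  exact h w c

/-- Case A: some `a ≠ 0` with `a * a ≠ 1`. -/
theorem caseA {a : F} (ha : a ≠ 0) (ha2 : a * a ≠ 1) :
    commutator (Matrix.symplecticGroup (Fin m) F) = ⊤ := by
  apply commutator_eq_top_of
  intro w d
  by_cases hw : w = 0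
  · rw [hw, tv_zero_left, map_one]
  have hne : a * a - 1 ≠ 0 := sub_ne_zero.mpr ha2
  have haw : a • w ≠ 0 := smul_ne_zero ha hw
  have h1 := ab_eq m haw hw (d / (a * a - 1))
  rw [tv_smul] at h1
  have h2 : d = a * a * (d / (a * a - 1)) + -(d / (a * a - 1)) := by
    have h3 : (a * a - 1) * (d / (a * a - 1)) = d := mul_div_cancel₀ d hne
    linear_combination (-1 : F) * h3
  rw [h2, ← tv_add, map_mul, h1, ← map_mul, tv_add, add_neg_cancel, tv_zero, map_one]

theorem rel_two {u v : Fin m ⊕ Fin m → F} (huv : Cfsg.sympForm m F u v = 0) (c : F) :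
    tv m (u + v) c * tv m (u - v) c = tv m u (2 * c) * tv m v (2 * c) := by
  have hvu : Cfsg.sympForm m F v u = 0 := by rw [sympForm_swap, huv, neg_zero]
  apply ext_mulVec
  intro x
  simp only [coe_mul_mulVec, tv_mulVec, sympForm_add_left, sympForm_add_right, sympForm_sub_left,
    sympForm_sub_right, sympForm_smul_left, sympForm_self, huv, hvu]
  module

theorem rel_three {u v w : Fin m ⊕ Fin m → F} (huv : Cfsg.sympForm m F u v = 0)
    (huw : Cfsg.sympForm m F u w = 0) (hvw : Cfsg.sympForm m F v w = 0) (c : F) :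
    tv m (u + v + w) (-c) * tv m (u + w) c * tv m v c =
      tv m (u + v) (-c) * tv m u c * tv m v c * tv m (w + v) (-c) * tv m w c * tv m v c := by
  have hvu : Cfsg.sympForm m F v u = 0 := by rw [sympForm_swap, huv, neg_zero]
  have hwu : Cfsg.sympForm m F w u = 0 := by rw [sympForm_swap, huw, neg_zero]
  have hwv : Cfsg.sympForm m F w v = 0 := by rw [sympForm_swap, hvw, neg_zero]
  apply ext_mulVec
  intro x
  simp only [coe_mul_mulVec, tv_mulVec, sympForm_add_left, sympForm_add_right,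
    sympForm_smul_left, sympForm_self, huv, hvu, huw, hwu, hvw, hwv]
  module

theorem single_ne_zero (i : Fin m ⊕ Fin m) : (Pi.single i (1 : F) : Fin m ⊕ Fin m → F) ≠ 0 := by
  intro h
  have := congrFun h i
  simp at this

theorem caseB {i j : Fin m} (hij : i ≠ j) (h2 : (2 : F) ≠ 0) :
    commutator (Matrix.symplecticGroup (Fin m) F) = ⊤ := by
  apply commutator_eq_top_of
  have huv : Cfsg.sympForm m F (Pi.single (Sum.inl i) 1) (Pi.single (Sum.inl j) 1) = 0 := by
    rw [sympForm_single_inl]; simp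
  have hu0 := single_ne_zero (F := F) m (Sum.inl i)
  have hv0 := single_ne_zero (F := F) m (Sum.inl j)
  have hadd : (Pi.single (Sum.inl i) 1 + Pi.single (Sum.inl j) 1 : Fin m ⊕ Fin m → F) ≠ 0 := by
    intro h
    have := congrFun h (Sum.inl i)
    simp [Pi.single_apply, hij] at this
  have hsub : (Pi.single (Sum.inl i) 1 - Pi.single (Sum.inl j) 1 : Fin m ⊕ Fin m → F) ≠ 0 := by
    intro h
    have := congrFun h (Sum.inl i)
    simp [Pi.single_apply, hij] at this
  have key : ∀ d : F, (Abelianization.of (tv m (Pi.single (Sum.inl i) 1) d) :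
      Abelianization (Matrix.symplecticGroup (Fin m) F)) = 1 := by
    intro d
    have h1 := congrArg (Abelianization.of (G := Matrix.symplecticGroup (Fin m) F))
      (rel_two m huv (d / 2))
    have h3 : 2 * (d / 2) = d := mul_div_cancel₀ d h2
    have h4 : tv m (Pi.single (Sum.inl i) (1 : F)) (d / 2) * tv m (Pi.single (Sum.inl i) 1) (d / 2)
        = tv m (Pi.single (Sum.inl i) 1) d := by
      rw [tv_add]
      congr 1
      rw [← two_mul, h3]
    rw [map_mul, map_mul, ab_eq m hadd hu0, ab_eq m hsub hu0, ab_eq m hv0 hu0 (2 * (d / 2)),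
      h3, ← map_mul, h4] at h1
    exact mul_eq_left.mp h1.symm
  intro w c
  by_cases hw : w = 0
  · rw [hw, tv_zero_left, map_one]
  · rw [ab_eq m hw hu0, key]

theorem caseC {i j k : Fin m} (hij : i ≠ j) (hik : i ≠ k) (hjk : j ≠ k) :
    commutator (Matrix.symplecticGroup (Fin m) F) = ⊤ := by
  apply commutator_eq_top_of
  have huv : Cfsg.sympForm m F (Pi.single (Sum.inl i) 1) (Pi.single (Sum.inl j) 1) = 0 := by
    rw [sympForm_single_inl]; simp
  have huw : Cfsg.sympForm m F (Pi.single (Sum.inl i) 1) (Pi.single (Sum.inl k) 1) = 0 := by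
    rw [sympForm_single_inl]; simp
  have hvw : Cfsg.sympForm m F (Pi.single (Sum.inl j) 1) (Pi.single (Sum.inl k) 1) = 0 := by
    rw [sympForm_single_inl]; simp
  have hu0 := single_ne_zero (F := F) m (Sum.inl i)
  have hv0 := single_ne_zero (F := F) m (Sum.inl j)
  have hw0 := single_ne_zero (F := F) m (Sum.inl k)
  have h1 : (Pi.single (Sum.inl i) 1 + Pi.single (Sum.inl j) 1 + Pi.single (Sum.inl k) 1 :
      Fin m ⊕ Fin m → F) ≠ 0 := by
    intro h
    have := congrFun h (Sum.inl i)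
    simp [Pi.single_apply, hij, hik] at this
  have h2 : (Pi.single (Sum.inl i) 1 + Pi.single (Sum.inl k) 1 : Fin m ⊕ Fin m → F) ≠ 0 := by
    intro h
    have := congrFun h (Sum.inl i)
    simp [Pi.single_apply, hik] at this
  have h3 : (Pi.single (Sum.inl i) 1 + Pi.single (Sum.inl j) 1 : Fin m ⊕ Fin m → F) ≠ 0 := by
    intro h
    have := congrFun h (Sum.inl i)
    simp [Pi.single_apply, hij] at this
  have h4 : (Pi.single (Sum.inl k) 1 + Pi.single (Sum.inl j) 1 : Fin m ⊕ Fin m → F) ≠ 0 := by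
    intro h
    have := congrFun h (Sum.inl k)
    simp [Pi.single_apply, hjk] at this
  have key : ∀ c : F, (Abelianization.of (tv m (Pi.single (Sum.inl i) 1) c) :
      Abelianization (Matrix.symplecticGroup (Fin m) F)) = 1 := by
    intro c
    have hr := congrArg (Abelianization.of (G := Matrix.symplecticGroup (Fin m) F))
      (rel_three m huv huw hvw c)
    have hST : (Abelianization.of (tv m (Pi.single (Sum.inl i) 1) (-c)) :
        Abelianization (Matrix.symplecticGroup (Fin m) F)) *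
        Abelianization.of (tv m (Pi.single (Sum.inl i) 1) c) = 1 := by
      rw [← map_mul, tv_add, neg_add_cancel, tv_zero, map_one]
    simp only [map_mul] at hr
    rw [ab_eq m h1 hu0, ab_eq m h2 hu0, ab_eq m hv0 hu0, ab_eq m h3 hu0, ab_eq m h4 hu0,
      ab_eq m hw0 hu0, hST, one_mul,
      mul_comm (Abelianization.of (tv m (Pi.single (Sum.inl i) 1) c))
        (Abelianization.of (tv m (Pi.single (Sum.inl i) 1) (-c))), hST, one_mul] at hr
    exact mul_eq_left.mp hr.symm
  intro w c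
  by_cases hw : w = 0
  · rw [hw, tv_zero_left, map_one]
  · rw [ab_eq m hw hu0, key]

end Cfsg.Agent.Lib.Helper2.SympPerf
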