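import Mathlib
import Cfsg.Prelude.Def_Classical
import Cfsg.Agent.Lib.Helper2.SLGen
import Cfsg.Agent.Lib.Helper15.CenterOmega
import Cfsg.Agent.S0242
import Cfsg.Agent.S0243
import Cfsg.Agent.S0287
import Cfsg.Agent.S0269
import Cfsg.Agent.Lib.Helper2.Adj3

set_option autoImplicit false

namespace Cfsg.Agent.Lib.Helper2.Tens4

open scoped Matrix
open Cfsg.Agent.Lib.Helper2.SLGen
open scoped commutatorElement

variable {F : Type*} [Field F]

section perfect

open Matrix Matrix.SpecialLinearGroup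

variable {ι : Type*} [DecidableEq ι] [Fintype ι]

theorem tv_conj_diag {i j : ι} (hij : i ≠ j) (a : F) (ha : a ≠ 0) (x : F) :
    (transvection hij (a * a * x) : SpecialLinearGroup ι F) * diag2n hij a ha
      = diag2n hij a ha * transvection hij x := by
  apply Subtype.ext
  rw [Matrix.ext_iff_mulVec]
  intro v
  funext k
  simp only [coe_mul, ← mulVec_mulVec, tv_mulVec_apply, diag2n_mulVec_apply]
  have hji : j ≠ i := hij.symm
  by_cases hki : k = i
  · subst hki
    simp only [if_true, if_neg hij, if_neg hji]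
    field_simp
  · by_cases hkj : k = j
    · subst hkj
      simp only [if_true, if_neg hij, if_neg hji, if_neg hki]
    · simp only [if_neg hki, if_neg hkj]

theorem tv_mem_comm {i j : ι} (hij : i ≠ j) (a : F) (ha : a ≠ 0) (ha2 : a * a ≠ 1) (c : F) :
    (transvection hij c : SpecialLinearGroup ι F) ∈ commutator (SpecialLinearGroup ι F) := by
  have hne : a * a - 1 ≠ 0 := sub_ne_zero.mpr ha2
  obtain ⟨x, hx⟩ : ∃ x, (a * a - 1) * x = c := ⟨c / (a * a - 1), mul_div_cancel₀ c hne⟩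
  have key := tv_conj_diag hij a ha x
  have h1 : (transvection hij c : SpecialLinearGroup ι F)
      = ⁅diag2n hij a ha, transvection hij x⁆ := by
    rw [commutatorElement_def, ← key, mul_inv_cancel_right, transvection_inv]
    apply Subtype.ext
    rw [Matrix.ext_iff_mulVec]
    intro v
    funext k
    simp only [coe_mul, ← mulVec_mulVec, tv_mulVec_apply]
    have hji : j ≠ i := hij.symm
    by_cases hki : k = i
    · subst hki
      simp only [if_true, if_neg hji]
      linear_combination (-(v j)) * hx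
    · simp only [if_neg hki]
  rw [h1]
  exact Subgroup.commutator_mem_commutator (Subgroup.mem_top _) (Subgroup.mem_top _)

theorem sl_perfect [Nontrivial ι] (a : F) (ha : a ≠ 0) (ha2 : a * a ≠ 1) :
    commutator (SpecialLinearGroup ι F) = ⊤ := by
  refine le_antisymm le_top (fun A _ ↦ transvection_induction _ (fun i j hij c => ?_)
    (fun _ _ ↦ mul_mem) A)
  exact tv_mem_comm hij a ha ha2 c

end perfect

/-- The index type of the four-dimensional orthogonal space. -/
abbrev I4 : Type := Fin 2 ⊕ Fin 2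

/-- The row index of a coordinate. -/
def rr : I4 → Fin 2 := Sum.elim (fun _ => 0) (fun _ => 1)

/-- The column index of a coordinate. -/
def cc : I4 → Fin 2 := Sum.elim id (fun i => 1 - i)

/-- The sign of a coordinate. -/
def ss : I4 → F := Sum.elim (fun _ => 1) ![1, -1]

/-- The coordinate with given row and column. -/
def idx : Fin 2 → Fin 2 → I4 := ![fun c => Sum.inl c, fun c => Sum.inr (1 - c)]

theorem rr_idx (k c : Fin 2) : rr (idx k c) = k := by
  fin_cases k <;> fin_cases c <;> rfl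

theorem cc_idx (k c : Fin 2) : cc (idx k c) = c := by
  fin_cases k <;> fin_cases c <;> rfl

theorem ss_sq (i : I4) : (ss i : F) * ss i = 1 := by
  rcases i with i | i <;> fin_cases i <;> simp [ss]

theorem ss_ne (i : I4) : (ss i : F) ≠ 0 := by
  intro h
  have := ss_sq (F := F) i
  rw [h, mul_zero] at this
  exact zero_ne_one this

/-- The tensor product representation on two-by-two matrices. -/
def M4 (g h : Matrix (Fin 2) (Fin 2) F) : Matrix I4 I4 F :=
  Matrix.of fun i j => ss i * ss j * (g (rr i) (rr j) * h (cc i) (cc j))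

theorem M4_apply (g h : Matrix (Fin 2) (Fin 2) F) (i j : I4) :
    M4 g h i j = ss i * ss j * (g (rr i) (rr j) * h (cc i) (cc j)) := rfl

theorem M4_mul (g g' h h' : Matrix (Fin 2) (Fin 2) F) :
    M4 (g * g') (h * h') = M4 g h * M4 g' h' := by
  ext i j
  rcases i with i | i <;> rcases j with j | j <;> fin_cases i <;> fin_cases j <;>
    simp [M4, Matrix.mul_apply, Fintype.sum_sum_type, Fin.sum_univ_two, rr, cc, ss] <;> ring

theorem M4_one : M4 (1 : Matrix (Fin 2) (Fin 2) F) 1 = 1 := by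
  ext i j
  rcases i with i | i <;> rcases j with j | j <;> fin_cases i <;> fin_cases j <;>
    simp [M4, Matrix.one_apply, rr, cc, ss]

theorem M4_smul (r r' : F) (g h : Matrix (Fin 2) (Fin 2) F) :
    M4 (r • g) (r' • h) = (r * r') • M4 g h := by
  ext i j
  simp only [M4_apply, Matrix.smul_apply, smul_eq_mul]
  ring

theorem M4_q (g h : Matrix (Fin 2) (Fin 2) F) (v : I4 → F) :
    Cfsg.quadFormPlus 2 F (M4 g h *ᵥ v) = g.det * h.det * Cfsg.quadFormPlus 2 F v := by
  simp [Cfsg.quadFormPlus, M4, Matrix.mulVec, dotProduct, Fintype.sum_sum_type,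
    Fin.sum_univ_two, Matrix.det_fin_two, rr, cc, ss]
  ring

theorem M4_inj_left {g g' h : Matrix (Fin 2) (Fin 2) F} (hh : h ≠ 0)
    (he : M4 g h = M4 g' h) : g = g' := by
  obtain ⟨c, c', hc⟩ : ∃ c c', h c c' ≠ 0 := by
    by_contra hcon
    push Not at hcon
    apply hh
    ext c c'
    exact hcon c c'
  ext k l
  have h1 := congrFun (congrFun he (idx k c)) (idx l c')
  rw [M4_apply, M4_apply, rr_idx, rr_idx, cc_idx, cc_idx] at h1
  have h2 : (ss (idx k c) : F) * ss (idx l c') ≠ 0 := mul_ne_zero (ss_ne _) (ss_ne _)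
  have h3 := mul_left_cancel₀ h2 h1
  exact mul_right_cancel₀ hc h3

theorem M4_inj_right {g h h' : Matrix (Fin 2) (Fin 2) F} (hg : g ≠ 0)
    (he : M4 g h = M4 g h') : h = h' := by
  obtain ⟨c, c', hc⟩ : ∃ c c', g c c' ≠ 0 := by
    by_contra hcon
    push Not at hcon
    apply hg
    ext c c'
    exact hcon c c'
  ext k l
  have h1 := congrFun (congrFun he (idx c k)) (idx c' l)
  rw [M4_apply, M4_apply, rr_idx, rr_idx, cc_idx, cc_idx] at h1
  have h2 : (ss (idx c k) : F) * ss (idx c' l) ≠ 0 := mul_ne_zero (ss_ne _) (ss_ne _)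
  have h3 := mul_left_cancel₀ h2 h1
  exact mul_left_cancel₀ hc h3

/-- `SL₂(F)`. -/
abbrev SL2 (F : Type*) [Field F] : Type _ := Matrix.SpecialLinearGroup (Fin 2) F

/-- The tensor product representation as a unit. -/
def tU (x : SL2 F × SL2 F) : Matrix.GeneralLinearGroup I4 F :=
  ⟨M4 x.1.1 x.2.1, M4 (x.1⁻¹).1 (x.2⁻¹).1, by
    rw [← M4_mul, ← Matrix.SpecialLinearGroup.coe_mul, ← Matrix.SpecialLinearGroup.coe_mul,
      mul_inv_cancel, mul_inv_cancel, Matrix.SpecialLinearGroup.coe_one, M4_one], by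
    rw [← M4_mul, ← Matrix.SpecialLinearGroup.coe_mul, ← Matrix.SpecialLinearGroup.coe_mul,
      inv_mul_cancel, inv_mul_cancel, Matrix.SpecialLinearGroup.coe_one, M4_one]⟩

theorem tU_mem (x : SL2 F × SL2 F) :
    tU x ∈ Cfsg.isometryGroup F (Cfsg.quadFormPlus 2 F) := by
  intro u _
  show Cfsg.quadFormPlus 2 F (M4 x.1.1 x.2.1 *ᵥ u) = Cfsg.quadFormPlus 2 F u
  rw [M4_q, x.1.2, x.2.2, one_mul, one_mul]

/-- The tensor product representation as a homomorphism into the orthogonal group. -/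
def tO : SL2 F × SL2 F →* ↥(Cfsg.isometryGroup F (Cfsg.quadFormPlus 2 F)) where
  toFun x := ⟨tU x, tU_mem x⟩
  map_one' := Subtype.ext (Units.ext M4_one)
  map_mul' x y := Subtype.ext (Units.ext (M4_mul x.1.1 y.1.1 x.2.1 y.2.1))

theorem tO_val (x : SL2 F × SL2 F) :
    (((tO x : ↥(Cfsg.isometryGroup F (Cfsg.quadFormPlus 2 F))) :
      Matrix.GeneralLinearGroup I4 F) : Matrix I4 I4 F) = M4 x.1.1 x.2.1 := rfl

theorem mem_of_pow_of_index {G : Type*} [Group G] (N : Subgroup G) [N.Normal] {n q : ℕ}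
    (hidx : N.index = n) (hco : Nat.Coprime q n) (x : G) (hx : x ^ q = 1) : x ∈ N := by
  rw [Subgroup.index_eq_card] at hidx
  have h1 : (QuotientGroup.mk x : G ⧸ N) ^ q = 1 := by
    rw [← QuotientGroup.mk_pow, hx]
    rfl
  have h2 : (QuotientGroup.mk x : G ⧸ N) ^ n = 1 := by
    rw [← hidx]
    exact pow_card_eq_one'
  have h3 := pow_gcd_eq_one.mpr ⟨h1, h2⟩
  rw [hco, pow_one] at h3
  exact (QuotientGroup.eq_one_iff x).mp h3

section fin

variable [Fintype F]

open Cfsg.Agent.Lib.Helper15.Spinor Cfsg.Agent.Lib.Helper15.CD2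
  Cfsg.Agent.Lib.Helper15.Parity Cfsg.Agent.Lib.Helper15.Witt Cfsg.Agent.Lib.Helper15.WittInf
  Cfsg.Agent.Lib.Helper15.HypPair Module in
theorem index_char2 [CharP F 2] {ι : Type} [Fintype ι] [DecidableEq ι]
    (Q : QuadraticForm F (ι → F)) (hQ : (QuadraticMap.polarBilin Q).Nondegenerate)
    (hc : Fintype.card F ≠ 2 ∨ Fintype.card ι ≠ 4) (hn : 0 < Fintype.card ι) :
    (commutator ↥(Cfsg.isometryGroup F ⇑Q)).index = 2 := by
  have hnd : ∀ x, (∀ y, QuadraticMap.polar ⇑Q x y = 0) → x = 0 := fun x hx => hQ.1 x hx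
  obtain ⟨w, -, hw⟩ := exists_nonsing_perp Q hQ ⊥ (by rw [finrank_bot]; omega)
  refine Subgroup.index_eq_two_iff.2 ⟨reflO Q w, fun b => ?_⟩
  obtain ⟨vs, hvs, rfl⟩ := Cfsg.Agent.Lib.Helper15.OrthGen.cd_all Q hnd hc b
  have e : prodRefl Q vs * reflO Q w = prodRefl Q (vs ++ [w]) := by
    rw [prodRefl_append, prodRefl_cons, prodRefl_nil, mul_one]
  have hvs' : ∀ v ∈ vs ++ [w], Q v ≠ 0 := by
    intro v hv
    rw [List.mem_append, List.mem_singleton] at hv
    rcases hv with hv | rfl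
    · exact hvs v hv
    · exact hw
  have h1 := Cfsg.Agent.Lib.Helper15.Dickson.prodRefl_mem_commutator_iff Q hnd hc vs hvs
  have h2 := Cfsg.Agent.Lib.Helper15.Dickson.prodRefl_mem_commutator_iff Q hnd hc
    (vs ++ [w]) hvs'
  rw [e, h1, h2, List.length_append, List.length_singleton, Nat.even_add_one]
  unfold Xor
  tauto

theorem card_I4 : Fintype.card I4 = 4 := by
  rw [Fintype.card_sum, Fintype.card_fin]

theorem omega_index4 (hF : 3 ≤ Fintype.card F) :
    (Cfsg.Omega F (Cfsg.quadFormPlus 2 F)).index = 2 * Nat.gcd 2 (Fintype.card F - 1) := by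
  classical
  rcases Cfsg.Agent.Lib.Helper15.CenterOmega.char_cases (F := F) rfl with ⟨hch, hq⟩ | ⟨h2, hodd⟩
  · have h := index_char2 (Cfsg.Agent.Lib.Helper15.StdForms.plusQF 2 F)
      (Cfsg.Agent.Lib.Helper15.StdForms.plus_nondeg 2) (Or.inl (by omega))
      (by rw [card_I4]; norm_num)
    have hg : Nat.gcd 2 (Fintype.card F - 1) = 1 := by
      obtain ⟨k, hk⟩ := hq
      have h1 : Odd (Fintype.card F - 1) := ⟨k - 1, by omega⟩
      exact Nat.coprime_two_left.2 h1
    rw [hg]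
    exact h
  · have h := Cfsg.Agent.Lib.Helper15.CartanD.omega_index h2
      (Cfsg.Agent.Lib.Helper15.StdForms.plusQF 2 F)
      (Cfsg.Agent.Lib.Helper15.StdForms.plus_nondeg 2) (by rw [card_I4]; norm_num)
    have hg : Nat.gcd 2 (Fintype.card F - 1) = 2 := by
      obtain ⟨k, hk⟩ := hodd
      rw [hk, Nat.add_sub_cancel]
      exact Nat.gcd_eq_left (dvd_mul_right 2 k)
    rw [hg]
    exact h

theorem hom_mem_omega (hF : 3 ≤ Fintype.card F)
    (f : SL2 F →* ↥(Cfsg.isometryGroup F (Cfsg.quadFormPlus 2 F))) (A : SL2 F) :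
    f A ∈ Cfsg.Omega F (Cfsg.quadFormPlus 2 F) := by
  classical
  have hidx := omega_index4 hF
  rcases Cfsg.Agent.Lib.Helper15.CenterOmega.char_cases (F := F) rfl with ⟨hch, hq⟩ | ⟨h2, hodd⟩
  · have h4 : 4 ≤ Fintype.card F := by
      obtain ⟨k, hk⟩ := hq
      omega
    obtain ⟨a, ha, ha2⟩ := Cfsg.Agent.S0269.exists_sq_ne_one h4
    have h1 : commutator (SL2 F) = ⊤ := sl_perfect a ha ha2
    have h3 : A ∈ commutator (SL2 F) := by
      rw [h1]
      exact Subgroup.mem_top _
    have h5 : f A ∈ (commutator (SL2 F)).map f := Subgroup.mem_map_of_mem _ h3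
    unfold commutator at h5
    rw [Subgroup.map_commutator] at h5
    exact Subgroup.commutator_mono le_top le_top h5
  · have hg : Nat.gcd 2 (Fintype.card F - 1) = 2 := by
      obtain ⟨k, hk⟩ := hodd
      rw [hk, Nat.add_sub_cancel]
      exact Nat.gcd_eq_left (dvd_mul_right 2 k)
    rw [hg] at hidx
    have hco : Nat.Coprime (Fintype.card F) (2 * 2) := by
      have h5 : Nat.Coprime (Fintype.card F) (2 ^ 2) :=
        Nat.Coprime.pow_right 2 (Nat.coprime_two_right.2 hodd)
      exact h5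
    refine transvection_induction (fun A : SL2 F =>
      f A ∈ Cfsg.Omega F (Cfsg.quadFormPlus 2 F)) ?_ ?_ A
    · intro i j hij c
      apply mem_of_pow_of_index _ hidx hco
      rw [← map_pow, Cfsg.Agent.Lib.Helper2.Adj3.tv_pow, Nat.cast_card_eq_zero, zero_mul]
      have h0 : (Matrix.SpecialLinearGroup.transvection hij (0 : F) :
          Matrix.SpecialLinearGroup (Fin 2) F) = 1 := by
        apply Subtype.ext
        rw [Matrix.SpecialLinearGroup.transvection_coe]
        simp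
      rw [h0, map_one]
    · intro A B hA hB
      rw [map_mul]
      exact mul_mem hA hB

theorem tO_mem (hF : 3 ≤ Fintype.card F) (x : SL2 F × SL2 F) :
    tO x ∈ Cfsg.Omega F (Cfsg.quadFormPlus 2 F) := by
  have h1 : x = MonoidHom.inl (SL2 F) (SL2 F) x.1 * MonoidHom.inr (SL2 F) (SL2 F) x.2 := by
    apply Prod.ext
    · simp
    · simp
  rw [h1, map_mul]
  exact mul_mem (hom_mem_omega hF (tO.comp (MonoidHom.inl (SL2 F) (SL2 F))) x.1)
    (hom_mem_omega hF (tO.comp (MonoidHom.inr (SL2 F) (SL2 F))) x.2)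

/-- The tensor product representation as a homomorphism into `Ω`. -/
def tΩ (hF : 3 ≤ Fintype.card F) :
    SL2 F × SL2 F →* ↥(Cfsg.Omega F (Cfsg.quadFormPlus 2 F)) :=
  tO.codRestrict _ (tO_mem hF)

/-- The tensor product representation as a homomorphism into `PΩ`. -/
def tP (hF : 3 ≤ Fintype.card F) : SL2 F × SL2 F →* Cfsg.POmega F (Cfsg.quadFormPlus 2 F) :=
  (QuotientGroup.mk' _).comp (tΩ hF)

theorem sl_ne_zero (A : SL2 F) : A.1 ≠ 0 := by
  intro h
  have h1 := A.2
  rw [h, Matrix.det_zero] at h1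
  exact zero_ne_one h1

theorem tP_eq_one_iff (hF : 3 ≤ Fintype.card F) (x : SL2 F × SL2 F) :
    tP hF x = 1 ↔ x.1 ∈ Subgroup.center (SL2 F) ∧ x.2 ∈ Subgroup.center (SL2 F) := by
  have hiff : tP hF x = 1 ↔ tΩ hF x ∈ Subgroup.center ↥(Cfsg.Omega F (Cfsg.quadFormPlus 2 F)) :=
    QuotientGroup.eq_one_iff _
  rw [hiff]
  constructor
  · intro h
    rw [Subgroup.mem_center_iff] at h
    constructor
    · rw [Subgroup.mem_center_iff]
      intro A'
      have h1 := h (tΩ hF (A', 1))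
      rw [← map_mul, ← map_mul] at h1
      have h2 := congrArg (fun y : ↥(Cfsg.Omega F (Cfsg.quadFormPlus 2 F)) =>
        (y.1.1.1 : Matrix I4 I4 F)) h1
      have h3 : M4 (A'.1 * x.1.1) ((1 : SL2 F).1 * x.2.1) = M4 (x.1.1 * A'.1) (x.2.1 * (1 : SL2 F).1) :=
        h2
      rw [Matrix.SpecialLinearGroup.coe_one, one_mul, mul_one] at h3
      exact Subtype.ext (M4_inj_left (sl_ne_zero x.2) h3)
    · rw [Subgroup.mem_center_iff]
      intro B'
      have h1 := h (tΩ hF (1, B'))
      rw [← map_mul, ← map_mul] at h1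
      have h2 := congrArg (fun y : ↥(Cfsg.Omega F (Cfsg.quadFormPlus 2 F)) =>
        (y.1.1.1 : Matrix I4 I4 F)) h1
      have h3 : M4 ((1 : SL2 F).1 * x.1.1) (B'.1 * x.2.1) = M4 (x.1.1 * (1 : SL2 F).1) (x.2.1 * B'.1) :=
        h2
      rw [Matrix.SpecialLinearGroup.coe_one, one_mul, mul_one] at h3
      exact Subtype.ext (M4_inj_right (sl_ne_zero x.1) h3)
  · rintro ⟨h1, h2⟩
    obtain ⟨r, -, hr⟩ := Matrix.SpecialLinearGroup.mem_center_iff.mp h1
    obtain ⟨r', -, hr'⟩ := Matrix.SpecialLinearGroup.mem_center_iff.mp h2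
    have h3 : M4 x.1.1 x.2.1 = (r * r') • (1 : Matrix I4 I4 F) := by
      rw [← hr, ← hr', Matrix.scalar_apply, Matrix.scalar_apply, ← Matrix.smul_one_eq_diagonal,
        ← Matrix.smul_one_eq_diagonal, M4_smul, M4_one]
    rw [Subgroup.mem_center_iff]
    intro g
    apply Subtype.ext
    apply Subtype.ext
    apply Units.ext
    show (g.1.1.1 : Matrix I4 I4 F) * M4 x.1.1 x.2.1 = M4 x.1.1 x.2.1 * g.1.1.1
    rw [h3, Matrix.mul_smul, Matrix.smul_mul, mul_one, one_mul]

theorem card_center_sl2 :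
    Nat.card (Subgroup.center (SL2 F)) = Nat.gcd 2 (Fintype.card F - 1) := by
  classical
  have h1 := Cfsg.Agent.S0242.result (F := F) rfl 2 (by norm_num)
  have h2 := Cfsg.Agent.S0243.result (F := F) rfl 2 (by norm_num)
  have h3 : Nat.card (SL2 F) = Nat.card (Matrix.ProjectiveSpecialLinearGroup (Fin 2) F)
      * Nat.card (Subgroup.center (SL2 F)) :=
    Subgroup.card_eq_card_quotient_mul_card_subgroup (Subgroup.center (SL2 F))
  rw [← h1, h3] at h2
  have hq : 0 < Fintype.card F - 1 := by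
    have := Fintype.one_lt_card (α := F)
    omega
  have hP : 0 < Nat.card (Matrix.ProjectiveSpecialLinearGroup (Fin 2) F) := Nat.card_pos
  have h4 : ((Fintype.card F - 1) * Nat.card (Matrix.ProjectiveSpecialLinearGroup (Fin 2) F))
      * Nat.gcd 2 (Fintype.card F - 1)
      = ((Fintype.card F - 1) * Nat.card (Matrix.ProjectiveSpecialLinearGroup (Fin 2) F))
      * Nat.card (Subgroup.center (SL2 F)) := by
    linarith
  exact (Nat.eq_of_mul_eq_mul_left (Nat.mul_pos hq hP) h4).symm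

theorem card_ker_le (hF : 3 ≤ Fintype.card F) :
    Nat.card (tO (F := F)).ker ≤ Nat.gcd 2 (Fintype.card F - 1) := by
  rw [← card_center_sl2]
  have hmem : ∀ x : (tO (F := F)).ker, x.1.1 ∈ Subgroup.center (SL2 F) := by
    intro x
    have h1 : tP hF x.1 = 1 := by
      have h2 : tΩ hF x.1 = 1 := Subtype.ext (MonoidHom.mem_ker.mp x.2)
      show (QuotientGroup.mk (tΩ hF x.1) : Cfsg.POmega F (Cfsg.quadFormPlus 2 F)) = 1
      rw [h2]
      rfl
    exact ((tP_eq_one_iff hF x.1).mp h1).1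
  apply Nat.card_le_card_of_injective (fun x : (tO (F := F)).ker =>
    (⟨x.1.1, hmem x⟩ : Subgroup.center (SL2 F)))
  intro x y hxy
  have h1 : x.1.1 = y.1.1 := congrArg Subtype.val hxy
  have hx := congrArg (fun z : ↥(Cfsg.isometryGroup F (Cfsg.quadFormPlus 2 F)) =>
    (z.1.1 : Matrix I4 I4 F)) (MonoidHom.mem_ker.mp x.2)
  have hy := congrArg (fun z : ↥(Cfsg.isometryGroup F (Cfsg.quadFormPlus 2 F)) =>
    (z.1.1 : Matrix I4 I4 F)) (MonoidHom.mem_ker.mp y.2)
  have h2 : M4 x.1.1.1 x.1.2.1 = M4 x.1.1.1 y.1.2.1 := by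
    have hx' : M4 x.1.1.1 x.1.2.1 = 1 := hx
    have hy' : M4 y.1.1.1 y.1.2.1 = 1 := hy
    rw [hx', h1, hy']
  have h3 : x.1.2 = y.1.2 := Subtype.ext (M4_inj_right (sl_ne_zero x.1.1) h2)
  exact Subtype.ext (Prod.ext h1 h3)

theorem tΩ_surjective (hF : 3 ≤ Fintype.card F) : Function.Surjective (tΩ hF) := by
  classical
  obtain ⟨q, hq⟩ : ∃ q, Fintype.card F = q := ⟨_, rfl⟩
  have hq3 : 3 ≤ q := by rw [← hq]; exact hF
  have hker := card_ker_le hF
  have hidx := omega_index4 hF
  rw [hq] at hker hidx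
  have hO := Cfsg.Agent.S0287.result hq 2 (by norm_num)
  have hSL := Cfsg.Agent.S0242.result hq 2 (by norm_num)
  have hSL' : (q - 1) * Nat.card (SL2 F) = (q ^ 2 - q ^ 0) * (q ^ 2 - q ^ 1) := by
    rw [hSL, Fin.prod_univ_two]
    rfl
  have hA : q ^ 2 - q ^ 1 = q * (q - 1) := by
    rw [Nat.mul_sub, mul_one, pow_one]
    ring_nf
  rw [hA, pow_zero] at hSL'
  have hq1 : 0 < q - 1 := by omega
  have hSL2 : Nat.card (SL2 F) = q * (q ^ 2 - 1) := by
    apply Nat.eq_of_mul_eq_mul_left hq1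
    rw [hSL']
    ring
  have hO' : Nat.card ↥(Cfsg.isometryGroup F (Cfsg.quadFormPlus 2 F))
      = 2 * (q * (q ^ 2 - 1)) ^ 2 := by
    rw [hO]
    norm_num [Finset.prod_range_succ]
    ring
  have h1 := Subgroup.card_mul_index (Cfsg.Omega F (Cfsg.quadFormPlus 2 F))
  rw [hidx, hO'] at h1
  have h2 := Subgroup.card_mul_index (tO (F := F)).ker
  rw [Subgroup.index_ker, Nat.card_prod, hSL2] at h2
  have hd : 0 < Nat.gcd 2 (q - 1) := Nat.gcd_pos_of_pos_left _ (by norm_num)
  have hle : Nat.card ↥(Cfsg.Omega F (Cfsg.quadFormPlus 2 F)) ≤ Nat.card (tO (F := F)).range := by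
    have h3 : Nat.card ↥(Cfsg.Omega F (Cfsg.quadFormPlus 2 F)) * Nat.gcd 2 (q - 1)
        = Nat.card (tO (F := F)).ker * Nat.card (tO (F := F)).range := by
      have h4 : 2 * (Nat.card ↥(Cfsg.Omega F (Cfsg.quadFormPlus 2 F)) * Nat.gcd 2 (q - 1))
          = 2 * (Nat.card (tO (F := F)).ker * Nat.card (tO (F := F)).range) := by
        rw [h2]
        linarith
      exact Nat.eq_of_mul_eq_mul_left (by norm_num) h4
    have h5 : Nat.card ↥(Cfsg.Omega F (Cfsg.quadFormPlus 2 F)) * Nat.gcd 2 (q - 1)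
        ≤ Nat.card (tO (F := F)).range * Nat.gcd 2 (q - 1) := by
      rw [h3, mul_comm]
      exact Nat.mul_le_mul_left _ hker
    exact Nat.le_of_mul_le_mul_right h5 hd
  have hsub : (tO (F := F)).range ≤ Cfsg.Omega F (Cfsg.quadFormPlus 2 F) := by
    rintro _ ⟨x, rfl⟩
    exact tO_mem hF x
  have heq := Subgroup.eq_of_le_of_card_ge hsub hle
  intro y
  have hy : y.1 ∈ (tO (F := F)).range := by
    rw [heq]
    exact y.2
  obtain ⟨x, hx⟩ := hy
  exact ⟨x, Subtype.ext hx⟩

theorem main4 (hF : 3 ≤ Fintype.card F) :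
    Nonempty (Cfsg.POmega F (Cfsg.quadFormPlus 2 F) ≃*
      Matrix.ProjectiveSpecialLinearGroup (Fin 2) F ×
        Matrix.ProjectiveSpecialLinearGroup (Fin 2) F) := by
  have hs1 : Function.Surjective (tP hF) :=
    (QuotientGroup.mk'_surjective _).comp (tΩ_surjective hF)
  let π : SL2 F × SL2 F →* Matrix.ProjectiveSpecialLinearGroup (Fin 2) F ×
      Matrix.ProjectiveSpecialLinearGroup (Fin 2) F :=
    MonoidHom.prodMap (QuotientGroup.mk' (Subgroup.center (SL2 F)))
      (QuotientGroup.mk' (Subgroup.center (SL2 F)))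
  have hs2 : Function.Surjective π :=
    Function.Surjective.prodMap (QuotientGroup.mk'_surjective _) (QuotientGroup.mk'_surjective _)
  have hk : (tP hF).ker = π.ker := by
    ext x
    rw [MonoidHom.mem_ker, MonoidHom.mem_ker, tP_eq_one_iff]
    show _ ↔ ((QuotientGroup.mk x.1 : Matrix.ProjectiveSpecialLinearGroup (Fin 2) F),
      (QuotientGroup.mk x.2 : Matrix.ProjectiveSpecialLinearGroup (Fin 2) F)) = 1
    rw [Prod.ext_iff]
    show _ ↔ (QuotientGroup.mk x.1 : Matrix.ProjectiveSpecialLinearGroup (Fin 2) F) = 1 ∧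
      (QuotientGroup.mk x.2 : Matrix.ProjectiveSpecialLinearGroup (Fin 2) F) = 1
    rw [QuotientGroup.eq_one_iff, QuotientGroup.eq_one_iff]
  exact ⟨((QuotientGroup.quotientKerEquivOfSurjective (tP hF) hs1).symm.trans
    (QuotientGroup.quotientMulEquivOfEq hk)).trans
    (QuotientGroup.quotientKerEquivOfSurjective π hs2)⟩

end fin

end Cfsg.Agent.Lib.Helper2.Tens4
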