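import Mathlib
import Cfsg.Prelude.Def_Classical
import Cfsg.Agent.Lib.Helper2.QuadExt
import Cfsg.Agent.Lib.Helper2.Tens4
import Cfsg.Agent.Lib.Helper2.O4Minus
import Cfsg.Agent.Lib.Helper2.Ext2
import Cfsg.Agent.S0288

set_option autoImplicit false

namespace Cfsg.Agent.Lib.Helper2.Herm4

open scoped Matrix
open Cfsg.Agent.Lib.Helper2.QuadExt Cfsg.Agent.Lib.Helper2.Tens4
open Cfsg.Agent.Lib.Helper2.Unitary Cfsg.Agent.Lib.Helper2.HermCount

variable {F K : Type*} [Field F] [Field K]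

/-- The index type of the four-dimensional minus-type orthogonal space. -/
abbrev J4 : Type := (Fin 1 ⊕ Fin 1) ⊕ Fin 2

/-- The matrix of the basis of Hermitian matrices. -/
def Bm (ζ ζ' : K) : Matrix I4 J4 K :=
  Matrix.of (Sum.elim
    ![Sum.elim (Sum.elim (fun _ => 1) (fun _ => 0)) ![0, 0],
      Sum.elim (Sum.elim (fun _ => 0) (fun _ => 0)) ![1, ζ]]
    ![Sum.elim (Sum.elim (fun _ => 0) (fun _ => -1)) ![0, 0],
      Sum.elim (Sum.elim (fun _ => 0) (fun _ => 0)) ![-1, -ζ']])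

/-- The inverse matrix. -/
def Cm (ζ ζ' : K) : Matrix J4 I4 K :=
  Matrix.of (Sum.elim
    (Sum.elim (fun _ => Sum.elim ![1, 0] ![0, 0]) (fun _ => Sum.elim ![0, 0] ![-1, 0]))
    ![Sum.elim ![0, -ζ' * (ζ - ζ')⁻¹] ![0, -ζ * (ζ - ζ')⁻¹],
      Sum.elim ![0, (ζ - ζ')⁻¹] ![0, (ζ - ζ')⁻¹]])

/-- The matrix of transposition. -/
def Tm : Matrix I4 I4 K :=
  Matrix.of (Sum.elim
    ![Sum.elim ![1, 0] ![0, 0], Sum.elim ![0, 0] ![0, -1]]
    ![Sum.elim ![0, 0] ![1, 0], Sum.elim ![0, -1] ![0, 0]])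

theorem Cm_mul_Bm (ζ ζ' : K) (h : ζ ≠ ζ') : Cm ζ ζ' * Bm ζ ζ' = 1 := by
  have hne : ζ - ζ' ≠ 0 := sub_ne_zero.mpr h
  ext i j
  rcases i with (i | i) | i <;> rcases j with (j | j) | j <;> fin_cases i <;> fin_cases j <;>
    simp [Cm, Bm, Matrix.mul_apply, Fintype.sum_sum_type, Fin.sum_univ_two, Matrix.one_apply] <;>
    field_simp <;> ring

theorem Bm_mul_Cm (ζ ζ' : K) (h : ζ ≠ ζ') : Bm ζ ζ' * Cm ζ ζ' = 1 := by
  have hne : ζ - ζ' ≠ 0 := sub_ne_zero.mpr h
  ext i j
  rcases i with i | i <;> rcases j with j | j <;> fin_cases i <;> fin_cases j <;>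
    simp [Cm, Bm, Matrix.mul_apply, Fintype.sum_sum_type, Fin.sum_univ_two, Matrix.one_apply] <;>
    field_simp <;> ring

theorem Tm_mul_Tm : (Tm : Matrix I4 I4 K) * Tm = 1 := by
  ext i j
  rcases i with i | i <;> rcases j with j | j <;> fin_cases i <;> fin_cases j <;>
    simp [Tm, Matrix.mul_apply, Fintype.sum_sum_type, Fin.sum_univ_two, Matrix.one_apply]

theorem M4_swap (g h : Matrix (Fin 2) (Fin 2) K) : M4 h g = Tm * M4 g h * Tm := by
  ext i j
  rcases i with i | i <;> rcases j with j | j <;> fin_cases i <;> fin_cases j <;>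
    simp [Tm, M4, Matrix.mul_apply, Fintype.sum_sum_type, Fin.sum_univ_two, rr, cc, ss] <;> ring

theorem M4_map (σ : K →+* K) (g h : Matrix (Fin 2) (Fin 2) K) :
    (M4 g h).map σ = M4 (g.map σ) (h.map σ) := by
  ext i j
  rcases i with i | i <;> rcases j with j | j <;> fin_cases i <;> fin_cases j <;>
    simp [M4, rr, cc, ss]

theorem Bm_map (σ : K →+* K) (ζ ζ' : K) (h1 : σ ζ = ζ') (h2 : σ ζ' = ζ) :
    (Bm ζ ζ').map σ = (Tm : Matrix I4 I4 K) * Bm ζ ζ' := by
  ext i j
  show σ (Bm ζ ζ' i j) = ∑ k, (Tm : Matrix I4 I4 K) i k * Bm ζ ζ' k j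
  rcases i with i | i <;> rcases j with (j | j) | j <;> fin_cases i <;> fin_cases j <;>
    simp [Tm, Bm, Fintype.sum_sum_type, Fin.sum_univ_two, h1, h2]

section main

variable [Fintype K] {q : ℕ} (hK : Fintype.card K = q ^ 2) {a b : F} (S : Setup F K q a b)

/-- The twisted tensor matrix. -/
def Nm (g : Matrix (Fin 2) (Fin 2) K) : Matrix I4 I4 K := M4 g (g.map (frob hK))

theorem Nm_mul (g g' : Matrix (Fin 2) (Fin 2) K) : Nm hK (g * g') = Nm hK g * Nm hK g' := by
  rw [Nm, Matrix.map_mul, M4_mul]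
  rfl

theorem Nm_one : Nm hK (1 : Matrix (Fin 2) (Fin 2) K) = 1 := by
  rw [Nm, Matrix.map_one _ (map_zero _) (map_one _), M4_one]

theorem Nm_map (g : Matrix (Fin 2) (Fin 2) K) :
    (Nm hK g).map (frob hK) = Tm * Nm hK g * Tm := by
  have h1 : (g.map (frob hK)).map (frob hK) = g := by
    ext i j
    simp [frob_apply, pow_q_pow_q hK]
  rw [Nm, M4_map, ← M4_swap, h1]

/-- The matrix over the big field. -/
def MK (g : Matrix (Fin 2) (Fin 2) K) : Matrix J4 J4 K :=
  Cm S.ζ S.ζ' * Nm hK g * Bm S.ζ S.ζ'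

theorem MK_mul (g g' : Matrix (Fin 2) (Fin 2) K) :
    MK hK S (g * g') = MK hK S g * MK hK S g' := by
  have hBC := Bm_mul_Cm S.ζ S.ζ' S.ne
  unfold MK
  rw [Nm_mul]
  have h : Cm S.ζ S.ζ' * Nm hK g * Bm S.ζ S.ζ' * (Cm S.ζ S.ζ' * Nm hK g' * Bm S.ζ S.ζ')
      = Cm S.ζ S.ζ' * Nm hK g * (Bm S.ζ S.ζ' * Cm S.ζ S.ζ') * Nm hK g' * Bm S.ζ S.ζ' := by
    simp only [Matrix.mul_assoc]
  rw [h, hBC, Matrix.mul_one]
  simp only [Matrix.mul_assoc]

theorem MK_one : MK hK S 1 = 1 := by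
  rw [MK, Nm_one, Matrix.mul_one, Cm_mul_Bm _ _ S.ne]

theorem Cm_map : (Cm S.ζ S.ζ').map (frob hK) = Cm S.ζ S.ζ' * (Tm : Matrix I4 I4 K) := by
  have hBC := Bm_mul_Cm S.ζ S.ζ' S.ne
  have hTT : (Tm : Matrix I4 I4 K) * Tm = 1 := Tm_mul_Tm
  have h1 : (Cm S.ζ S.ζ').map (frob hK) * (Bm S.ζ S.ζ').map (frob hK)
      = (1 : Matrix J4 J4 K) := by
    rw [← Matrix.map_mul, Cm_mul_Bm _ _ S.ne, Matrix.map_one _ (map_zero _) (map_one _)]
  rw [Bm_map (frob hK) S.ζ S.ζ' S.pow1 S.pow2] at h1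
  have h2 : (Cm S.ζ S.ζ').map (frob hK) * ((Tm : Matrix I4 I4 K) * Bm S.ζ S.ζ')
        * (Cm S.ζ S.ζ' * (Tm : Matrix I4 I4 K))
      = (Cm S.ζ S.ζ').map (frob hK) * ((Tm : Matrix I4 I4 K)
        * ((Bm S.ζ S.ζ' * Cm S.ζ S.ζ') * (Tm : Matrix I4 I4 K))) := by
    simp only [Matrix.mul_assoc]
  rw [h1, Matrix.one_mul, hBC, Matrix.one_mul, hTT, Matrix.mul_one] at h2
  exact h2.symm

theorem MK_map (g : Matrix (Fin 2) (Fin 2) K) : (MK hK S g).map (frob hK) = MK hK S g := by
  have hTT : (Tm : Matrix I4 I4 K) * Tm = 1 := Tm_mul_Tm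
  unfold MK
  rw [Matrix.map_mul, Matrix.map_mul, Cm_map, Nm_map, Bm_map (frob hK) _ _ S.pow1 S.pow2]
  have h : Cm S.ζ S.ζ' * (Tm : Matrix I4 I4 K)
        * ((Tm : Matrix I4 I4 K) * Nm hK g * (Tm : Matrix I4 I4 K))
        * ((Tm : Matrix I4 I4 K) * Bm S.ζ S.ζ')
      = Cm S.ζ S.ζ' * ((Tm : Matrix I4 I4 K) * Tm) * Nm hK g
        * ((Tm : Matrix I4 I4 K) * Tm) * Bm S.ζ S.ζ' := by
    simp only [Matrix.mul_assoc]
  rw [h, hTT, Matrix.mul_one, Matrix.mul_one]

theorem MK_entry (g : Matrix (Fin 2) (Fin 2) K) (i j : J4) : ∃ f : F, S.φ f = MK hK S g i j := by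
  apply S.fix
  exact congrFun (congrFun (MK_map hK S g) i) j

/-- The matrix over the small field. -/
noncomputable def MF (g : Matrix (Fin 2) (Fin 2) K) : Matrix J4 J4 F :=
  Matrix.of fun i j => Classical.choose (MK_entry hK S g i j)

theorem MF_map (g : Matrix (Fin 2) (Fin 2) K) : (MF hK S g).map S.φ = MK hK S g := by
  ext i j
  exact Classical.choose_spec (MK_entry hK S g i j)

theorem MF_mul (g g' : Matrix (Fin 2) (Fin 2) K) :
    MF hK S (g * g') = MF hK S g * MF hK S g' := by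
  apply Matrix.map_injective S.φ.injective
  show (MF hK S (g * g')).map S.φ = (MF hK S g * MF hK S g').map S.φ
  rw [Matrix.map_mul, MF_map, MF_map, MF_map, MK_mul]

theorem MF_one : MF hK S 1 = 1 := by
  apply Matrix.map_injective S.φ.injective
  show (MF hK S 1).map S.φ = (1 : Matrix J4 J4 F).map S.φ
  rw [MF_map, MK_one, Matrix.map_one _ (map_zero _) (map_one _)]

omit [Fintype K] in
theorem Q_rel (v : J4 → F) :
    Cfsg.quadFormPlus 2 K (Bm S.ζ S.ζ' *ᵥ (fun i => S.φ (v i)))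
      = - S.φ (Cfsg.quadFormMinus 1 F a b v) := by
  simp [Cfsg.quadFormPlus, Cfsg.quadFormMinus, Bm, Matrix.mulVec, dotProduct,
    Fintype.sum_sum_type, Fin.sum_univ_two]
  linear_combination (-(S.φ (v (Sum.inr 0)) * S.φ (v (Sum.inr 1)))) * S.add
    + (-(S.φ (v (Sum.inr 1))) ^ 2) * S.mul

theorem MF_iso (g : Matrix (Fin 2) (Fin 2) K) (hg : g.det = 1) (v : J4 → F) :
    Cfsg.quadFormMinus 1 F a b (MF hK S g *ᵥ v) = Cfsg.quadFormMinus 1 F a b v := by
  apply S.φ.injective
  apply neg_injective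
  rw [← Q_rel S, ← Q_rel S]
  have h1 : (fun i => S.φ ((MF hK S g *ᵥ v) i)) = MK hK S g *ᵥ (fun i => S.φ (v i)) := by
    rw [← MF_map]
    ext i
    simp [Matrix.mulVec, dotProduct, map_sum]
  have h2 : Bm S.ζ S.ζ' *ᵥ (MK hK S g *ᵥ (fun i => S.φ (v i)))
      = Nm hK g *ᵥ (Bm S.ζ S.ζ' *ᵥ (fun i => S.φ (v i))) := by
    rw [MK, Matrix.mulVec_mulVec, Matrix.mulVec_mulVec, ← Matrix.mul_assoc, ← Matrix.mul_assoc,
      Bm_mul_Cm _ _ S.ne, Matrix.one_mul]
  have h3 : (g.map (frob hK)).det = 1 := by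
    have h4 := RingHom.map_det (frob hK) g
    rw [hg, map_one] at h4
    exact h4.symm
  rw [h1, h2, Nm, M4_q, hg, h3, one_mul, one_mul]

/-- The representation as a unit. -/
noncomputable def hU (g : SL2 K) : Matrix.GeneralLinearGroup J4 F :=
  ⟨MF hK S g.1, MF hK S (g⁻¹).1, by
    rw [← MF_mul, ← Matrix.SpecialLinearGroup.coe_mul, mul_inv_cancel,
      Matrix.SpecialLinearGroup.coe_one, MF_one], by
    rw [← MF_mul, ← Matrix.SpecialLinearGroup.coe_mul, inv_mul_cancel,
      Matrix.SpecialLinearGroup.coe_one, MF_one]⟩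

theorem hU_mem (g : SL2 K) :
    hU hK S g ∈ Cfsg.isometryGroup F (Cfsg.quadFormMinus 1 F a b) := by
  intro u _
  exact MF_iso hK S g.1 g.2 u

/-- The representation as a homomorphism into the orthogonal group. -/
noncomputable def hO : SL2 K →* ↥(Cfsg.isometryGroup F (Cfsg.quadFormMinus 1 F a b)) where
  toFun g := ⟨hU hK S g, hU_mem hK S g⟩
  map_one' := Subtype.ext (Units.ext (MF_one hK S))
  map_mul' g g' := Subtype.ext (Units.ext (MF_mul hK S g.1 g'.1))

theorem MF_eq_one_iff (g : SL2 K) : MF hK S g.1 = 1 ↔ g ∈ Subgroup.center (SL2 K) := by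
  have hBC := Bm_mul_Cm S.ζ S.ζ' S.ne
  have hCB := Cm_mul_Bm S.ζ S.ζ' S.ne
  have h0 : MF hK S g.1 = 1 ↔ Nm hK g.1 = 1 := by
    constructor
    · intro h
      have h1 : MK hK S g.1 = 1 := by
        rw [← MF_map, h, Matrix.map_one _ (map_zero _) (map_one _)]
      have h2 : Bm S.ζ S.ζ' * MK hK S g.1 * Cm S.ζ S.ζ'
          = (Bm S.ζ S.ζ' * Cm S.ζ S.ζ') * Nm hK g.1 * (Bm S.ζ S.ζ' * Cm S.ζ S.ζ') := by
        unfold MK
        simp only [Matrix.mul_assoc]
      rw [h1, Matrix.mul_one, hBC, Matrix.one_mul, Matrix.mul_one] at h2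
      exact h2.symm
    · intro h
      apply Matrix.map_injective S.φ.injective
      show (MF hK S g.1).map S.φ = (1 : Matrix J4 J4 F).map S.φ
      rw [MF_map, MK, h, Matrix.mul_one, hCB, Matrix.map_one _ (map_zero _) (map_one _)]
  rw [h0]
  constructor
  · intro h
    have e1 := congrFun (congrFun h (Sum.inl 0)) (Sum.inl 0)
    have e2 := congrFun (congrFun h (Sum.inr 1)) (Sum.inr 1)
    have e3 := congrFun (congrFun h (Sum.inl 0)) (Sum.inr 1)
    have e4 := congrFun (congrFun h (Sum.inr 1)) (Sum.inl 0)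
    simp [Nm, M4, rr, cc, ss] at e1 e2 e3 e4
    have hne : (frob hK) (g.1 0 0) ≠ 0 := by
      intro h0
      rw [h0, mul_zero] at e1
      exact zero_ne_one e1
    have hne0 : g.1 0 0 ≠ 0 := by
      intro h0
      rw [h0, zero_mul] at e1
      exact zero_ne_one e1
    have h01 : g.1 0 1 = 0 := by
      rcases e3 with h5 | h5
      · exact h5
      · exact absurd h5 hne0
    have h10 : g.1 1 0 = 0 := by
      rcases e4 with h5 | h5
      · exact h5
      · exact absurd h5 hne0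
    have h11 : g.1 0 0 = g.1 1 1 := by
      apply mul_right_cancel₀ hne
      rw [e1, e2]
    have hdet : g.1 0 0 * g.1 1 1 - g.1 0 1 * g.1 1 0 = 1 := by
      rw [← Matrix.det_fin_two]
      exact g.2
    rw [Matrix.SpecialLinearGroup.mem_center_iff]
    refine ⟨g.1 0 0, ?_, ?_⟩
    · rw [Fintype.card_fin, pow_two]
      rw [h01, ← h11] at hdet
      linear_combination hdet
    · ext i j
      fin_cases i <;> fin_cases j <;> simp [Matrix.scalar_apply, h01, h10, h11]
  · intro h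
    obtain ⟨r, hr, hg⟩ := Matrix.SpecialLinearGroup.mem_center_iff.mp h
    rw [Fintype.card_fin, pow_two] at hr
    have hr2 : r * r ^ q = 1 := by
      have h5 : (r - 1) * (r + 1) = 0 := by linear_combination hr
      rcases mul_eq_zero.mp h5 with h6 | h6
      · have h7 : r = 1 := by linear_combination h6
        rw [h7, one_pow, one_mul]
      · have h7 : r = -1 := by linear_combination h6
        rw [h7]
        exact neg_one_norm hK
    have h8 : g.1.map (frob hK) = (r ^ q) • (1 : Matrix (Fin 2) (Fin 2) K) := by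
      rw [← hg, Matrix.scalar_apply, Matrix.diagonal_map (map_zero _),
        ← Matrix.smul_one_eq_diagonal]
      rfl
    have h9 : g.1 = r • (1 : Matrix (Fin 2) (Fin 2) K) := by
      rw [← hg, Matrix.scalar_apply, ← Matrix.smul_one_eq_diagonal]
    rw [Nm, h8]
    rw [h9, M4_smul, M4_one, hr2, one_smul]

theorem hO_eq_one_iff (g : SL2 K) : hO hK S g = 1 ↔ g ∈ Subgroup.center (SL2 K) := by
  rw [← MF_eq_one_iff hK S]
  constructor
  · intro h
    have h1 := congrArg (fun x : ↥(Cfsg.isometryGroup F (Cfsg.quadFormMinus 1 F a b)) =>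
      (x.1.1 : Matrix J4 J4 F)) h
    exact h1
  · intro h
    exact Subtype.ext (Units.ext h)

theorem hO_mem (g : SL2 K) : hO hK S g ∈ Cfsg.Omega F (Cfsg.quadFormMinus 1 F a b) := by
  have h4 : 4 ≤ Fintype.card K := by
    have := two_le_q hK
    rw [hK]
    nlinarith
  obtain ⟨c, hc, hc2⟩ := Cfsg.Agent.S0269.exists_sq_ne_one h4
  have h1 : commutator (SL2 K) = ⊤ := sl_perfect c hc hc2
  have h3 : g ∈ commutator (SL2 K) := by
    rw [h1]
    exact Subgroup.mem_top _
  have h5 : hO hK S g ∈ (commutator (SL2 K)).map (hO hK S) := Subgroup.mem_map_of_mem _ h3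
  unfold commutator at h5
  rw [Subgroup.map_commutator] at h5
  exact Subgroup.commutator_mono le_top le_top h5

/-- The representation as a homomorphism into `Ω`. -/
noncomputable def hΩ : SL2 K →* ↥(Cfsg.Omega F (Cfsg.quadFormMinus 1 F a b)) :=
  (hO hK S).codRestrict _ (hO_mem hK S)

theorem hΩ_eq_one_iff (g : SL2 K) : hΩ hK S g = 1 ↔ g ∈ Subgroup.center (SL2 K) := by
  rw [← hO_eq_one_iff hK S]
  constructor
  · intro h
    exact congrArg Subtype.val h
  · intro h
    exact Subtype.ext h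

/-- The induced homomorphism on `PSL₂`. -/
noncomputable def hL : Matrix.ProjectiveSpecialLinearGroup (Fin 2) K →*
    ↥(Cfsg.Omega F (Cfsg.quadFormMinus 1 F a b)) :=
  QuotientGroup.lift _ (hΩ hK S) (fun g hg => (hΩ_eq_one_iff hK S g).mpr hg)

theorem hL_injective : Function.Injective (hL hK S) := by
  rw [injective_iff_map_eq_one]
  intro x hx
  induction x using QuotientGroup.induction_on with
  | H g =>
    have h1 : hΩ hK S g = 1 := hx
    exact (QuotientGroup.eq_one_iff g).mpr ((hΩ_eq_one_iff hK S g).mp h1)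

end main

theorem center_psl2' : Subgroup.center (Matrix.ProjectiveSpecialLinearGroup (Fin 2) K) = ⊥ := by
  rw [Subgroup.eq_bot_iff_forall]
  intro x hx
  induction x using QuotientGroup.induction_on with
  | H g =>
    rw [Subgroup.mem_center_iff] at hx
    have key : ∀ h : Matrix.SpecialLinearGroup (Fin 2) K,
        ∃ r : K, r * r = 1 ∧ g.1 * h.1 = r • (h.1 * g.1) := by
      intro h
      have h1 := hx (QuotientGroup.mk h)
      rw [← QuotientGroup.mk_mul, ← QuotientGroup.mk_mul, QuotientGroup.eq] at h1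
      obtain ⟨r, hr, hz⟩ := Matrix.SpecialLinearGroup.mem_center_iff.mp h1
      rw [Fintype.card_fin, pow_two] at hr
      refine ⟨r, hr, ?_⟩
      have h3 : g * h = (h * g) * ((h * g)⁻¹ * (g * h)) := by group
      have h4 : g.1 * h.1 = (h.1 * g.1) * ((h * g)⁻¹ * (g * h)).1 := by
        rw [← Matrix.SpecialLinearGroup.coe_mul, ← Matrix.SpecialLinearGroup.coe_mul,
          ← Matrix.SpecialLinearGroup.coe_mul, ← h3]
      rw [h4, ← hz, Matrix.scalar_apply, ← Matrix.smul_one_eq_diagonal, Matrix.mul_smul,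
        Matrix.mul_one]
    have hdet : g.1 0 0 * g.1 1 1 - g.1 0 1 * g.1 1 0 = 1 := by
      rw [← Matrix.det_fin_two]
      exact g.2
    have hr : ∀ r : K, r * r = 1 → r = 1 ∨ (r = -1 ∧ (2 : K) ≠ 0) := by
      intro r hr
      have h5 : (r - 1) * (r + 1) = 0 := by linear_combination hr
      rcases mul_eq_zero.mp h5 with h6 | h6
      · left
        linear_combination h6
      · by_cases h2 : (2 : K) = 0
        · left
          linear_combination h6 - h2
        · right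
          exact ⟨by linear_combination h6, h2⟩
    have half : (2 : K) ≠ 0 → ∀ y : K, y = -y → y = 0 := by
      intro h2 y hy
      have h5 : (2 : K) * y = 0 := by linear_combination hy
      rcases mul_eq_zero.mp h5 with h6 | h6
      · exact absurd h6 h2
      · exact h6
    obtain ⟨r1, hr1, hk1⟩ := key (Matrix.SpecialLinearGroup.transvection
      (show (0 : Fin 2) ≠ 1 by decide) (1 : K))
    obtain ⟨r2, hr2, hk2⟩ := key (Matrix.SpecialLinearGroup.transvection
      (show (1 : Fin 2) ≠ 0 by decide) (1 : K))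
    rw [Matrix.SpecialLinearGroup.transvection_coe] at hk1 hk2
    have a00 := congrFun (congrFun hk1 0) 0
    have a01 := congrFun (congrFun hk1 0) 1
    have a10 := congrFun (congrFun hk1 1) 0
    have b00 := congrFun (congrFun hk2 0) 0
    have b01 := congrFun (congrFun hk2 0) 1
    simp [Matrix.mul_apply, Fin.sum_univ_two, Matrix.single_apply, Matrix.one_apply,
      Matrix.add_apply] at a00 a01 a10 b00 b01
    have hc : g.1 1 0 = 0 ∧ g.1 0 0 = g.1 1 1 := by
      rcases hr r1 hr1 with h | ⟨h, h2⟩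
      · rw [h] at a00 a01
        constructor
        · linear_combination -a00
        · linear_combination a01
      · rw [h] at a00 a10
        have hc0 : g.1 1 0 = 0 := half h2 _ (by linear_combination a10)
        have ha0 : g.1 0 0 = 0 := half h2 _ (by linear_combination a00 - hc0)
        rw [ha0, hc0] at hdet
        simp at hdet
    have hb : g.1 0 1 = 0 := by
      rcases hr r2 hr2 with h | ⟨h, h2⟩
      · rw [h] at b00
        linear_combination b00
      · rw [h] at b00 b01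
        have hb0 : g.1 0 1 = 0 := half h2 _ (by linear_combination b01)
        have ha0 : g.1 0 0 = 0 := half h2 _ (by linear_combination b00 - hb0)
        rw [ha0, hb0] at hdet
        simp at hdet
    apply (QuotientGroup.eq_one_iff g).mpr
    rw [Matrix.SpecialLinearGroup.mem_center_iff]
    refine ⟨g.1 0 0, ?_, ?_⟩
    · rw [Fintype.card_fin, pow_two]
      rw [hb, ← hc.2] at hdet
      linear_combination hdet
    · ext i j
      fin_cases i <;> fin_cases j <;> simp [Matrix.scalar_apply, hb, hc.1, hc.2]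

section fin

variable [Fintype F] [Fintype K] {q : ℕ} (hF : Fintype.card F = q) (hK : Fintype.card K = q ^ 2)
  (a b : F) (hab : ∀ z₁ z₂ : F, z₁ ^ 2 + a * z₁ * z₂ + b * z₂ ^ 2 = 0 → z₁ = 0 ∧ z₂ = 0)

theorem card_J4 : Fintype.card J4 = 4 := by
  rw [Fintype.card_sum, Fintype.card_sum, Fintype.card_fin, Fintype.card_fin]

include hF hab in
theorem omega_index_minus :
    (Cfsg.Omega F (Cfsg.quadFormMinus 1 F a b)).index = 2 * Nat.gcd 2 (q - 1) := by
  classical
  have hnd := Cfsg.Agent.Lib.Helper15.StdForms.minus_nondeg 1 a b hab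
  have hq1 : 1 < q := by rw [← hF]; exact Fintype.one_lt_card
  rcases Cfsg.Agent.Lib.Helper15.CenterOmega.char_cases hF with ⟨hch, hq⟩ | ⟨h2, hodd⟩
  · have hg : Nat.gcd 2 (q - 1) = 1 := by
      obtain ⟨k, hk⟩ := hq
      have h1 : Odd (q - 1) := ⟨k - 1, by omega⟩
      exact Nat.coprime_two_left.2 h1
    rw [hg]
    by_cases hq2 : q = 2
    · have hF2 : Fintype.card F = 2 := by rw [hF, hq2]
      have h01 := Cfsg.Agent.Lib.Helper2.Ext2.zero_or_one hF2
      have h11 : (1 : F) + 1 = 0 := by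
        rcases h01 (1 + 1) with h | h
        · exact h
        · exfalso
          have h3 : (1 : F) = 0 := by linear_combination h
          exact one_ne_zero h3
      have hb : b = 1 := by
        rcases h01 b with h | h
        · exfalso
          have h3 := hab 0 1 (by rw [h]; ring)
          exact one_ne_zero h3.2
        · exact h
      have ha : a = 1 := by
        rcases h01 a with h | h
        · exfalso
          have h3 := hab 1 1 (by rw [h, hb]; linear_combination h11)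
          exact one_ne_zero h3.1
        · exact h
      subst ha hb
      have hbij := Cfsg.Agent.Lib.Helper2.O4Minus.emb5F_bijective hF2
      exact (Cfsg.Agent.Lib.Helper2.O6Plus.omega_of_equiv (by norm_num)
        (MulEquiv.ofBijective (Cfsg.Agent.Lib.Helper2.O4Minus.emb5F hF2) hbij).symm).1
    · have h := index_char2 (Cfsg.Agent.Lib.Helper15.StdForms.minusQF 1 F a b) hnd
        (Or.inl (by rw [hF]; exact hq2)) (by rw [card_J4]; norm_num)
      rw [Cfsg.Agent.Lib.Helper15.StdForms.coe_minusQF] at h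
      exact h
  · have h := Cfsg.Agent.Lib.Helper15.CartanD.omega_index h2
      (Cfsg.Agent.Lib.Helper15.StdForms.minusQF 1 F a b) hnd (by rw [card_J4]; norm_num)
    have hg : Nat.gcd 2 (q - 1) = 2 := by
      obtain ⟨k, hk⟩ := hodd
      rw [hk, Nat.add_sub_cancel]
      exact Nat.gcd_eq_left (dvd_mul_right 2 k)
    rw [hg]
    rw [Cfsg.Agent.Lib.Helper15.StdForms.coe_minusQF] at h
    exact h

include hF hK hab in
theorem herm_card_eq :
    Nat.card (Matrix.ProjectiveSpecialLinearGroup (Fin 2) K)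
      = Nat.card ↥(Cfsg.Omega F (Cfsg.quadFormMinus 1 F a b)) := by
  classical
  have hq2 : 2 ≤ q := by rw [← hF]; exact Fintype.one_lt_card
  have hidx := omega_index_minus hF a b hab
  have hO : Nat.card ↥(Cfsg.isometryGroup F (Cfsg.quadFormMinus 1 F a b))
      = 2 * q ^ 2 * (q ^ 2 + 1) * (q ^ 2 - 1) := by
    have h := Cfsg.Agent.S0288.result hF 2 (by norm_num) a b hab
    rw [h]
    norm_num [Finset.prod_range_succ]
  have h1 := Subgroup.card_mul_index (Cfsg.Omega F (Cfsg.quadFormMinus 1 F a b))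
  rw [hidx, hO] at h1
  have hPSL : Nat.gcd 2 (q ^ 2 - 1) * ((q ^ 2 - 1) *
      Nat.card (Matrix.ProjectiveSpecialLinearGroup (Fin 2) K))
      = ((q ^ 2) ^ 2 - (q ^ 2) ^ 0) * ((q ^ 2) ^ 2 - (q ^ 2) ^ 1) := by
    have h := Cfsg.Agent.S0243.result hK 2 (by norm_num)
    rw [Fin.prod_univ_two] at h
    exact h
  have hg : Nat.gcd 2 (q ^ 2 - 1) = Nat.gcd 2 (q - 1) := by
    rcases Nat.even_or_odd q with he | ho
    · obtain ⟨k, hk⟩ := he
      have h3 : Odd (q - 1) := ⟨k - 1, by omega⟩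
      have h4 : Odd (q ^ 2 - 1) := by
        have h5 : Even (q ^ 2) := (Nat.even_pow.mpr ⟨⟨k, hk⟩, by norm_num⟩)
        obtain ⟨t, ht⟩ := h5
        have h6 : 1 ≤ q ^ 2 := Nat.one_le_pow _ _ (by omega)
        exact ⟨t - 1, by omega⟩
      rw [Nat.coprime_two_left.2 h3, Nat.coprime_two_left.2 h4]
    · have h3 : Even (q - 1) := by
        obtain ⟨k, hk⟩ := ho
        exact ⟨k, by omega⟩
      have h4 : Even (q ^ 2 - 1) := by
        have h5 : Odd (q ^ 2) := ho.pow
        obtain ⟨t, ht⟩ := h5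
        exact ⟨t, by omega⟩
      rw [Nat.gcd_eq_left (even_iff_two_dvd.mp h3), Nat.gcd_eq_left (even_iff_two_dvd.mp h4)]
  rw [hg] at hPSL
  have hQ1 : 0 < q ^ 2 - 1 := by
    have : 4 ≤ q ^ 2 := by nlinarith
    omega
  have hA : (q ^ 2) ^ 2 - (q ^ 2) ^ 1 = q ^ 2 * (q ^ 2 - 1) := by
    rw [Nat.mul_sub, mul_one, pow_one]
    ring_nf
  have hB : (q ^ 2 + 1) * (q ^ 2 - 1) = (q ^ 2) ^ 2 - 1 := by
    have h5 : 1 ≤ q ^ 2 := by omega
    have h6 : 1 ≤ (q ^ 2) ^ 2 := Nat.one_le_pow _ _ h5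
    zify [h5, h6]
    ring
  rw [hA, pow_zero] at hPSL
  have hd : 0 < Nat.gcd 2 (q - 1) := Nat.gcd_pos_of_pos_left _ (by norm_num)
  have h7 : (2 * (q ^ 2 - 1) * Nat.gcd 2 (q - 1)) *
      Nat.card (Matrix.ProjectiveSpecialLinearGroup (Fin 2) K)
      = (2 * (q ^ 2 - 1) * Nat.gcd 2 (q - 1)) *
      Nat.card ↥(Cfsg.Omega F (Cfsg.quadFormMinus 1 F a b)) := by
    calc (2 * (q ^ 2 - 1) * Nat.gcd 2 (q - 1)) *
        Nat.card (Matrix.ProjectiveSpecialLinearGroup (Fin 2) K)
        = 2 * (Nat.gcd 2 (q - 1) * ((q ^ 2 - 1) *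
          Nat.card (Matrix.ProjectiveSpecialLinearGroup (Fin 2) K))) := by ring
      _ = 2 * (((q ^ 2) ^ 2 - 1) * (q ^ 2 * (q ^ 2 - 1))) := by rw [hPSL]
      _ = (q ^ 2 - 1) * (2 * q ^ 2 * ((q ^ 2 + 1) * (q ^ 2 - 1))) := by rw [hB]; ring
      _ = (q ^ 2 - 1) * (2 * q ^ 2 * (q ^ 2 + 1) * (q ^ 2 - 1)) := by ring
      _ = (q ^ 2 - 1) * (Nat.card ↥(Cfsg.Omega F (Cfsg.quadFormMinus 1 F a b))
          * (2 * Nat.gcd 2 (q - 1))) := by rw [h1]
      _ = _ := by ring
  exact Nat.eq_of_mul_eq_mul_left (Nat.mul_pos (Nat.mul_pos (by norm_num) hQ1) hd) h7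

include hF hK hab in
theorem main_minus : Nonempty (Cfsg.POmega F (Cfsg.quadFormMinus 1 F a b) ≃*
    Matrix.ProjectiveSpecialLinearGroup (Fin 2) K) := by
  classical
  obtain ⟨S⟩ := exists_setup hF hK a b hab
  have hb : Function.Bijective (hL hK S) :=
    (Nat.bijective_iff_injective_and_card _).2 ⟨hL_injective hK S, herm_card_eq hF hK a b hab⟩
  have hcen : Subgroup.center ↥(Cfsg.Omega F (Cfsg.quadFormMinus 1 F a b)) = ⊥ := by
    rw [Subgroup.eq_bot_iff_forall]
    intro z hz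
    obtain ⟨y, rfl⟩ := hb.2 z
    have h3 : y ∈ Subgroup.center (Matrix.ProjectiveSpecialLinearGroup (Fin 2) K) := by
      rw [Subgroup.mem_center_iff]
      intro w
      apply hb.1
      rw [map_mul, map_mul]
      exact Subgroup.mem_center_iff.mp hz (hL hK S w)
    rw [center_psl2', Subgroup.mem_bot] at h3
    rw [h3, map_one]
  exact ⟨((QuotientGroup.quotientMulEquivOfEq hcen).trans QuotientGroup.quotientBot).trans
    (MulEquiv.ofBijective (hL hK S) hb).symm⟩

end fin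

end Cfsg.Agent.Lib.Helper2.Herm4
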