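import Mathlib
import Cfsg.Prelude.Def_Classical
import Cfsg.Agent.Lib.Helper2.Herm4

set_option autoImplicit false

namespace Cfsg.Agent.Lib.Helper2.A6Orth

open scoped Matrix
open Cfsg.Agent.Lib.Helper2.Herm4

/-- The permutation matrix of `σ` over the field with three elements, covariantly. -/
def P3 (σ : Equiv.Perm (Fin 6)) : Matrix (Fin 6) (Fin 6) (ZMod 3) := (σ⁻¹).permMatrix (ZMod 3)

theorem P3_one : P3 (1 : Equiv.Perm (Fin 6)) = 1 := by
  unfold P3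
  rw [inv_one, Matrix.permMatrix_one]

theorem P3_mul (σ τ : Equiv.Perm (Fin 6)) : P3 (σ * τ) = P3 σ * P3 τ := by
  unfold P3
  rw [mul_inv_rev, Matrix.permMatrix_mul]

theorem P3_mulVec_one (σ : Equiv.Perm (Fin 6)) : P3 σ *ᵥ 1 = 1 := by
  unfold P3
  rw [Matrix.permMatrix_mulVec]
  rfl

theorem one_vecMul_P3 (σ : Equiv.Perm (Fin 6)) : 1 ᵥ* P3 σ = 1 := by
  unfold P3
  rw [Matrix.vecMul_permMatrix]
  rfl

/-- The quadratic form on the permutation module. -/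
def q6 (x : Fin 6 → ZMod 3) : ZMod 3 := -(x ⬝ᵥ x)

theorem q6_perm (σ : Equiv.Perm (Fin 6)) (x : Fin 6 → ZMod 3) : q6 (P3 σ *ᵥ x) = q6 x := by
  unfold q6 P3
  rw [Matrix.permMatrix_mulVec]
  congr 1
  exact Equiv.sum_comp (σ⁻¹) (fun i => x i * x i)

theorem one_dot_one : (1 : Fin 6 → ZMod 3) ⬝ᵥ 1 = 0 := by decide

theorem q6_add_smul (y : Fin 6 → ZMod 3) (hy : 1 ⬝ᵥ y = 0) (c : ZMod 3) :
    q6 (y + c • 1) = q6 y := by
  unfold q6
  have hy' : y ⬝ᵥ 1 = 0 := by rw [dotProduct_comm]; exact hy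
  rw [add_dotProduct, dotProduct_add, dotProduct_add, smul_dotProduct, smul_dotProduct,
    dotProduct_smul, dotProduct_smul, hy, hy', one_dot_one]
  simp

/-- The basis vectors. -/
def bv : J4 → Fin 6 → ZMod 3 :=
  Sum.elim (Sum.elim (fun _ => ![1,1,1,0,0,0]) (fun _ => ![1,0,0,1,1,0]))
    ![![0,1,-1,0,0,0], ![0,0,0,1,-1,0]]

/-- The dual vectors. -/
def cv : J4 → Fin 6 → ZMod 3 :=
  Sum.elim (Sum.elim (fun _ => ![1,0,0,1,1,0]) (fun _ => ![1,1,1,0,0,0]))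
    ![![0,-1,1,0,0,0], ![0,0,0,-1,1,0]]

/-- The matrix whose columns are the basis vectors. -/
def B6 : Matrix (Fin 6) J4 (ZMod 3) := Matrix.of fun a j => bv j a

/-- The matrix of dual coordinates. -/
def C6 : Matrix J4 (Fin 6) (ZMod 3) := Matrix.of fun j a => cv j a

theorem CB6 : C6 * B6 = 1 := by decide

theorem BC6 : B6 * C6 = 1 + Matrix.vecMulVec 1 ![0,0,0,0,0,2]
    + Matrix.vecMulVec ![1,1,1,1,1,0] 1 := by decide

theorem C16 : C6 *ᵥ 1 = 0 := by decide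

theorem oneB6 : 1 ᵥ* B6 = 0 := by decide

theorem Q6 : ∀ v : J4 → ZMod 3,
    Cfsg.quadFormMinus 1 (ZMod 3) 0 1 v = q6 (B6 *ᵥ v) := by decide

theorem o4 (y : Fin 6 → ZMod 3) (hy : 1 ⬝ᵥ y = 0) :
    ∃ c : ZMod 3, (B6 * C6) *ᵥ y = y + c • 1 := by
  refine ⟨![0,0,0,0,0,2] ⬝ᵥ y, ?_⟩
  have h1 : Matrix.vecMulVec (1 : Fin 6 → ZMod 3) ![0,0,0,0,0,2] *ᵥ y
      = (![0,0,0,0,0,2] ⬝ᵥ y) • (1 : Fin 6 → ZMod 3) := by
    ext a
    simp [Matrix.vecMulVec_apply, Matrix.mulVec, dotProduct]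
  have h2 : Matrix.vecMulVec ![1,1,1,1,1,0] (1 : Fin 6 → ZMod 3) *ᵥ y = 0 := by
    ext a
    have h3 : ∑ j, y j = 0 := by
      have h4 := hy
      simp only [dotProduct, Pi.one_apply, one_mul] at h4
      exact h4
    simp only [Matrix.mulVec, dotProduct, Matrix.vecMulVec_apply, Pi.one_apply, mul_one,
      ← Finset.mul_sum, h3, mul_zero, Pi.zero_apply]
  rw [BC6, Matrix.add_mulVec, Matrix.add_mulVec, Matrix.one_mulVec, h1, h2, add_zero]

theorem BC_mul' {ι' : Type*} (Y : Matrix (Fin 6) ι' (ZMod 3)) (hY : 1 ᵥ* Y = 0) :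
    ∃ c : ι' → ZMod 3, (B6 * C6) * Y = Y + Matrix.vecMulVec 1 c := by
  have h : ∀ j, ∃ c : ZMod 3, (B6 * C6) *ᵥ (fun a => Y a j) = (fun a => Y a j) + c • 1 := by
    intro j
    apply o4
    exact congrFun hY j
  choose c hc using h
  refine ⟨c, ?_⟩
  ext a j
  have h4 := congrFun (hc j) a
  rw [Matrix.add_apply, Matrix.vecMulVec_apply, Pi.one_apply, one_mul]
  rw [Pi.add_apply, Pi.smul_apply, Pi.one_apply, smul_eq_mul, mul_one] at h4
  exact h4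

theorem key' {ι₁ ι₂ : Type*} (X' : Matrix ι₁ (Fin 6) (ZMod 3)) (Y : Matrix (Fin 6) ι₂ (ZMod 3))
    (hX : X' *ᵥ 1 = 0) (hY : 1 ᵥ* Y = 0) : X' * (B6 * C6) * Y = X' * Y := by
  obtain ⟨c, hc⟩ := BC_mul' Y hY
  rw [Matrix.mul_assoc, hc, Matrix.mul_add, Matrix.mul_vecMulVec, hX]
  have h0 : Matrix.vecMulVec (0 : ι₁ → ZMod 3) c = 0 := by
    ext i j; simp [Matrix.vecMulVec_apply]
  rw [h0, add_zero]

/-- The matrix-valued homomorphism. -/
def mhom6 : Equiv.Perm (Fin 6) →* Matrix J4 J4 (ZMod 3) where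
  toFun σ := C6 * P3 σ * B6
  map_one' := by
    show C6 * P3 1 * B6 = 1
    rw [P3_one, Matrix.mul_one, CB6]
  map_mul' σ τ := by
    show C6 * P3 (σ * τ) * B6 = (C6 * P3 σ * B6) * (C6 * P3 τ * B6)
    have h0 : (C6 * P3 σ) *ᵥ 1 = 0 := by
      rw [← Matrix.mulVec_mulVec, P3_mulVec_one, C16]
    have h1' : 1 ᵥ* (P3 τ * B6) = 0 := by
      rw [← Matrix.vecMul_vecMul, one_vecMul_P3, oneB6]
    have h4 := key' (C6 * P3 σ) (P3 τ * B6) h0 h1'
    rw [P3_mul]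
    simp only [Matrix.mul_assoc] at h4 ⊢
    exact h4.symm

theorem Q_mhom6 (σ : Equiv.Perm (Fin 6)) (u : J4 → ZMod 3) :
    Cfsg.quadFormMinus 1 (ZMod 3) 0 1 ((C6 * P3 σ * B6) *ᵥ u)
      = Cfsg.quadFormMinus 1 (ZMod 3) 0 1 u := by
  have hy : 1 ⬝ᵥ (P3 σ *ᵥ (B6 *ᵥ u)) = 0 := by
    rw [Matrix.dotProduct_mulVec, one_vecMul_P3, Matrix.dotProduct_mulVec, oneB6,
      zero_dotProduct]
  obtain ⟨c, hc⟩ := o4 _ hy
  have e1 : B6 *ᵥ ((C6 * P3 σ * B6) *ᵥ u) = (B6 * C6) *ᵥ (P3 σ *ᵥ (B6 *ᵥ u)) := by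
    simp only [Matrix.mulVec_mulVec, Matrix.mul_assoc]
  rw [Q6, Q6, e1, hc, q6_add_smul _ hy, q6_perm]

/-- The homomorphism into the isometry group. -/
def emb6 : Equiv.Perm (Fin 6) →*
    ↥(Cfsg.isometryGroup (ZMod 3) (Cfsg.quadFormMinus 1 (ZMod 3) 0 1)) :=
  mhom6.toHomUnits.codRestrict _ (fun σ => by
    intro u v
    exact Q_mhom6 σ u)

theorem emb6_val (σ : Equiv.Perm (Fin 6)) :
    (((emb6 σ : ↥(Cfsg.isometryGroup (ZMod 3) (Cfsg.quadFormMinus 1 (ZMod 3) 0 1))) :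
      Matrix.GeneralLinearGroup J4 (ZMod 3)) : Matrix J4 J4 (ZMod 3)) = C6 * P3 σ * B6 := rfl

theorem ne6 : C6 * P3 (Equiv.swap (0 : Fin 6) 1 * Equiv.swap 1 2) * B6 ≠ 1 := by decide

theorem emb6_injective : Function.Injective emb6 := by
  rw [← MonoidHom.ker_eq_bot_iff]
  by_contra h
  have hnt : Nontrivial (emb6.ker) := (Subgroup.nontrivial_iff_ne_bot _).mpr h
  have hX : 5 ≤ Nat.card (Fin 6) := by
    rw [Nat.card_eq_fintype_card, Fintype.card_fin]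
    norm_num
  have hle := Equiv.Perm.alternatingGroup_le_of_normal hX hnt
  have hc : Equiv.swap (0 : Fin 6) 1 * Equiv.swap 1 2 ∈ alternatingGroup (Fin 6) := by
    rw [Equiv.Perm.mem_alternatingGroup]
    decide
  have h1 := MonoidHom.mem_ker.mp (hle hc)
  apply ne6
  rw [← emb6_val, h1]
  rfl

theorem hab3 : ∀ z₁ z₂ : ZMod 3, z₁ ^ 2 + 0 * z₁ * z₂ + 1 * z₂ ^ 2 = 0 → z₁ = 0 ∧ z₂ = 0 := by
  decide

theorem card_omega3 :
    Nat.card ↥(Cfsg.Omega (ZMod 3) (Cfsg.quadFormMinus 1 (ZMod 3) 0 1)) = 360 := by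
  have hidx := omega_index_minus (ZMod.card 3) 0 1 hab3
  have hO := Cfsg.Agent.S0288.result (ZMod.card 3) 2 (by norm_num) 0 1 hab3
  have h1 := Subgroup.card_mul_index (Cfsg.Omega (ZMod 3) (Cfsg.quadFormMinus 1 (ZMod 3) 0 1))
  have e1 : 2 * Nat.gcd 2 (3 - 1) = 4 := by decide
  have e2 : 2 * 3 ^ (2 * (2 - 1)) * (3 ^ 2 + 1)
      * ∏ i ∈ Finset.range (2 - 1), (3 ^ (2 * (i + 1)) - 1) = 1440 := by decide
  rw [hidx, hO, e1, e2] at h1
  omega

/-- The embedding of the alternating group into `Ω`. -/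
def altHom : alternatingGroup (Fin 6) →*
    ↥(Cfsg.Omega (ZMod 3) (Cfsg.quadFormMinus 1 (ZMod 3) 0 1)) :=
  (emb6.comp (alternatingGroup (Fin 6)).subtype).codRestrict _ (fun x => by
    have hX : 5 ≤ Nat.card (Fin 6) := by
      rw [Nat.card_eq_fintype_card, Fintype.card_fin]
      norm_num
    have h1 : x.1 ∈ commutator (Equiv.Perm (Fin 6)) := by
      rw [alternatingGroup.commutator_perm_eq hX]
      exact x.2
    have h2 : emb6 x.1 ∈ (commutator (Equiv.Perm (Fin 6))).map emb6 :=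
      Subgroup.mem_map_of_mem _ h1
    unfold commutator at h2
    rw [Subgroup.map_commutator] at h2
    exact Subgroup.commutator_mono le_top le_top h2)

theorem altHom_bijective : Function.Bijective altHom := by
  rw [Nat.bijective_iff_injective_and_card]
  constructor
  · intro x y hxy
    have h1 : emb6 x.1 = emb6 y.1 := congrArg Subtype.val hxy
    exact Subtype.ext (emb6_injective h1)
  · rw [card_omega3, nat_card_alternatingGroup, Nat.card_eq_fintype_card, Fintype.card_fin]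
    decide

theorem psl29 {F : Type*} [Field F] [Fintype F] (hF : Fintype.card F = 9) :
    Nonempty (Matrix.ProjectiveSpecialLinearGroup (Fin 2) F ≃* alternatingGroup (Fin 6)) := by
  have hK : Fintype.card F = 3 ^ 2 := by
    rw [hF]
    norm_num
  obtain ⟨S⟩ := Cfsg.Agent.Lib.Helper2.QuadExt.exists_setup (ZMod.card 3) hK 0 1 hab3
  have hb : Function.Bijective (hL hK S) :=
    (Nat.bijective_iff_injective_and_card _).2
      ⟨hL_injective hK S, herm_card_eq (ZMod.card 3) hK 0 1 hab3⟩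
  exact ⟨(MulEquiv.ofBijective (hL hK S) hb).trans
    (MulEquiv.ofBijective altHom altHom_bijective).symm⟩

end Cfsg.Agent.Lib.Helper2.A6Orth
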