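import Mathlib
import Cfsg.Agent.Lib.Helper2.E6Tab

set_option autoImplicit false

namespace Cfsg.Agent.Lib.Helper2.E6Tab

open scoped Matrix

open Cfsg.Agent.Lib.Helper15.Spinor Cfsg.Agent.Lib.Helper15.Spinor3 Cfsg.Agent.Lib.Helper15.CD2

/-- The label of a vector. -/
def kap (u : T5 → ZMod 3) : Fin 6 → ZMod 2 := bits (kc u)

/-- The matrix induced on labels. -/
def N6 (g : Matrix T5 T5 (ZMod 3)) : Matrix (Fin 6) (Fin 6) (ZMod 2) :=
  Matrix.of fun i j => kap (g *ᵥ Uv j) i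

/-- Root vectors. -/
def IsRoot (u : T5 → ZMod 3) : Prop := Qv u = 2

/-- The induced map on labels of roots is linear. -/
def AP (g : Matrix T5 T5 (ZMod 3)) : Prop := ∀ u, IsRoot u → kap (g *ᵥ u) = N6 g *ᵥ kap u

theorem q5_eq (u : T5 → ZMod 3) : Cfsg.quadFormOdd 2 (ZMod 3) u = Qv u := by
  unfold Cfsg.quadFormOdd Qv Qc
  rw [Fin.sum_univ_two]
  ring

theorem polar_eq (u v : T5 → ZMod 3) :
    QuadraticMap.polar (Cfsg.quadFormOdd 2 (ZMod 3)) u v = pv u v := by
  rw [polar_odd, Fin.sum_univ_two]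
  unfold pv pc
  ring

theorem pv_eq (u w : T5 → ZMod 3) : pv u w = Qv (u + w) - Qv u - Qv w := by
  unfold pv pc Qv Qc
  simp only [Pi.add_apply]
  ring

theorem pv_smul (s s' : ZMod 3) (u w : T5 → ZMod 3) : pv (s • u) (s' • w) = s * s' * pv u w := by
  unfold pv pc
  simp only [Pi.smul_apply, smul_eq_mul]
  ring

theorem t5_ext (u w : T5 → ZMod 3) (h0 : u (Sum.inl ()) = w (Sum.inl ()))
    (h1 : u (Sum.inr (Sum.inl 0)) = w (Sum.inr (Sum.inl 0)))
    (h2 : u (Sum.inr (Sum.inl 1)) = w (Sum.inr (Sum.inl 1)))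
    (h3 : u (Sum.inr (Sum.inr 0)) = w (Sum.inr (Sum.inr 0)))
    (h4 : u (Sum.inr (Sum.inr 1)) = w (Sum.inr (Sum.inr 1))) : u = w := by
  funext i
  rcases i with ⟨⟩ | i | i
  · exact h0
  · fin_cases i
    · exact h1
    · exact h2
  · fin_cases i
    · exact h3
    · exact h4

theorem kc_refl (v u : T5 → ZMod 3) (hv : Qv v ≠ 0) :
    kc (u - ((Qv v)⁻¹ * pv v u) • v)
      = krc (v (Sum.inl ())) (v (Sum.inr (Sum.inl 0))) (v (Sum.inr (Sum.inl 1)))
          (v (Sum.inr (Sum.inr 0))) (v (Sum.inr (Sum.inr 1)))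
          (u (Sum.inl ())) (u (Sum.inr (Sum.inl 0))) (u (Sum.inr (Sum.inl 1)))
          (u (Sum.inr (Sum.inr 0))) (u (Sum.inr (Sum.inr 1))) := by
  have h1 : (Qv v)⁻¹ = Qv v := inv_eq_of_mul_eq_one_left (z3_sq _ hv)
  rw [h1]
  show kc (u - (Qv v * pv v u) • v)
    = if Qv v * pv v u = 0 then kc u else if Qv v * pv v u = 1 then kc (u - v) else kc (u + v)
  rcases z3_cases (Qv v * pv v u) with h | h | h
  · rw [h, zero_smul, sub_zero, if_pos rfl]
  · rw [h, one_smul, if_neg (by decide), if_pos rfl]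
  · rw [h, if_neg (by decide), if_neg (by decide), z3_two, neg_smul, one_smul, sub_neg_eq_add]

theorem bits_x6 (k : ℕ) (c : Fin 6 → ℕ) (i : Fin 6) :
    bits (x6 k c) i = ∑ j, bits k j * bits (c j) i := by
  have hx : ∀ m n : ℕ, bits (m ^^^ n) i = bits m i + bits n i := by
    intro m n
    unfold bits
    rw [Nat.testBit_xor]
    cases m.testBit i <;> cases n.testBit i <;> simp
    decide
  have hi : ∀ (t : Bool) (n : ℕ), bits (if t then n else 0) i = (if t then 1 else 0) * bits n i := by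
    intro t n
    cases t <;> simp [bits]
  unfold x6
  rw [hx, hx, hx, hx, hx, hi, hi, hi, hi, hi, hi, Fin.sum_univ_six]
  rfl

theorem AP_refl (g : Matrix T5 T5 (ZMod 3)) (v : T5 → ZMod 3) (hv : Qv v ≠ 0)
    (hg : ∀ x, g *ᵥ x = x - ((Qv v)⁻¹ * pv v x) • v) : AP g := by
  intro u hu
  funext i
  have h1 : kc (g *ᵥ u) = x6 (kc u) (fun j => kc (g *ᵥ Uv j)) := by
    rw [hg u, kc_refl v u hv]
    have h2 := d_refl _ _ _ _ _ hv _ _ _ _ _ hu
    rw [h2]
    congr 1
    funext j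
    rw [hg (Uv j), kc_refl v (Uv j) hv]
  show bits (kc (g *ᵥ u)) i = (N6 g *ᵥ kap u) i
  rw [h1, bits_x6]
  simp only [Matrix.mulVec, dotProduct, N6, Matrix.of_apply, kap]
  exact Finset.sum_congr rfl (fun j _ => mul_comm _ _)

theorem N6_one : N6 1 = 1 := by
  ext i j
  show kap ((1 : Matrix T5 T5 (ZMod 3)) *ᵥ Uv j) i = _
  rw [Matrix.one_mulVec, Matrix.one_apply]
  exact d10 i j

theorem AP_one : AP 1 := by
  intro u _
  rw [N6_one, Matrix.one_mulVec, Matrix.one_mulVec]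

theorem AP_mul (g h : Matrix T5 T5 (ZMod 3)) (hh : ∀ u, IsRoot u → IsRoot (h *ᵥ u))
    (hg : AP g) (hA : AP h) : AP (g * h) ∧ N6 (g * h) = N6 g * N6 h := by
  have hN : N6 (g * h) = N6 g * N6 h := by
    ext i j
    show kap ((g * h) *ᵥ Uv j) i = (N6 g * N6 h) i j
    rw [← Matrix.mulVec_mulVec, hg _ (hh _ (d9 j))]
    rfl
  refine ⟨fun u hu => ?_, hN⟩
  rw [hN, ← Matrix.mulVec_mulVec, hg _ (hh u hu), hA u hu, Matrix.mulVec_mulVec]

theorem root_pres (g : ↥(Cfsg.isometryGroup (ZMod 3) (Cfsg.quadFormOdd 2 (ZMod 3))))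
    (u : T5 → ZMod 3) (hu : IsRoot u) : IsRoot (g.1.1 *ᵥ u) := by
  have h1 : Cfsg.quadFormOdd 2 (ZMod 3) (g.1.1 *ᵥ u) = Cfsg.quadFormOdd 2 (ZMod 3) u := g.2 u u
  rw [q5_eq, q5_eq] at h1
  unfold IsRoot
  rw [h1]
  exact hu

theorem AP_all (g : ↥(Cfsg.isometryGroup (ZMod 3) (Cfsg.quadFormOdd 2 (ZMod 3)))) :
    AP g.1.1 := by
  have h2 : (2 : ZMod 3) ≠ 0 := by decide
  have key : ∀ g : ↥(Cfsg.isometryGroup (ZMod 3) ⇑(oddQF 2 (ZMod 3))), AP g.1.1 := by
    intro g
    obtain ⟨vs, hvs, rfl⟩ := Cfsg.Agent.Lib.Helper15.OrthGen.cd_all (oddQF 2 (ZMod 3))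
      (fun x hx => Cfsg.Agent.Lib.Helper15.OrthOrder.odd_sep h2 2 x
        (by rw [← coe_oddQF]; exact hx))
      (Or.inl (by rw [ZMod.card]; decide)) g
    induction vs with
    | nil =>
      rw [prodRefl_nil]
      exact AP_one
    | cons v vs ih =>
      rw [prodRefl_cons]
      have hv : (oddQF 2 (ZMod 3)) v ≠ 0 := hvs v List.mem_cons_self
      have ih' := ih (fun w hw => hvs w (List.mem_cons_of_mem _ hw))
      have hv' : Qv v ≠ 0 := by
        rw [← q5_eq, ← coe_oddQF]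
        exact hv
      have hA : AP (reflO (oddQF 2 (ZMod 3)) v).1.1 := by
        apply AP_refl _ v hv'
        intro x
        have h3 := act_reflO (oddQF 2 (ZMod 3)) v hv x
        rw [act_apply] at h3
        rw [h3, coe_oddQF, q5_eq, polar_eq]
      refine (AP_mul _ _ (fun u hu => ?_) hA ih').1
      have h4 := act_Q (oddQF 2 (ZMod 3)) (prodRefl (oddQF 2 (ZMod 3)) vs) u
      have e := congrFun (coe_oddQF (F := ZMod 3) 2)
      rw [act_apply, e, e, q5_eq, q5_eq] at h4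
      unfold IsRoot
      rw [h4]
      exact hu
  rw [coe_oddQF] at key
  exact key g

theorem N6_mul (g h : ↥(Cfsg.isometryGroup (ZMod 3) (Cfsg.quadFormOdd 2 (ZMod 3)))) :
    N6 (g * h).1.1 = N6 g.1.1 * N6 h.1.1 :=
  (AP_mul _ _ (root_pres h) (AP_all g) (AP_all h)).2


/-- The five-dimensional orthogonal group over the field with three elements. -/
abbrev O5 : Type := ↥(Cfsg.isometryGroup (ZMod 3) (Cfsg.quadFormOdd 2 (ZMod 3)))

/-- The six-dimensional orthogonal group of minus type over the field with two elements. -/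
abbrev O6 : Type := ↥(Cfsg.isometryGroup (ZMod 2) (Cfsg.quadFormMinus 2 (ZMod 2) 1 1))

theorem root_of_ns (x : Fin 6 → ZMod 2) (hx : Q6p x = 1) : ∃ u, IsRoot u ∧ kap u = x := by
  have hx' : x = ![x 0, x 1, x 2, x 3, x 4, x 5] := by
    funext i
    fin_cases i <;> rfl
  rw [hx'] at hx
  obtain ⟨b0, b1, b2, b3, b4, hb, hk⟩ := d3 _ _ _ _ _ _ hx
  refine ⟨Sum.elim (fun _ => b0) (Sum.elim ![b1, b2] ![b3, b4]), hb, ?_⟩
  rw [hx']
  exact hk

theorem ns_of_root (u : T5 → ZMod 3) (hu : IsRoot u) : Q6p (kap u) = 1 :=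
  d2 _ _ _ _ _ hu

theorem Q6_N (g : O5) (x : Fin 6 → ZMod 2) : Q6p (N6 g.1.1 *ᵥ x) = Q6p x := by
  have key1 : ∀ (g : O5) (x : Fin 6 → ZMod 2), Q6p x = 1 → Q6p (N6 g.1.1 *ᵥ x) = 1 := by
    intro g x hx
    obtain ⟨u, hu, rfl⟩ := root_of_ns x hx
    rw [← AP_all g u hu]
    exact ns_of_root _ (root_pres g u hu)
  rcases z2_cases (Q6p x) with h0 | h1
  · rcases z2_cases (Q6p (N6 g.1.1 *ᵥ x)) with h0' | h1'
    · rw [h0, h0']
    · exfalso
      have h3 := key1 g⁻¹ _ h1'
      rw [Matrix.mulVec_mulVec, ← N6_mul g⁻¹ g, inv_mul_cancel] at h3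
      have h4 : N6 (1 : O5).1.1 = 1 := N6_one
      rw [h4, Matrix.one_mulVec, h0] at h3
      exact absurd h3 (by decide)
  · rw [h1, key1 g x h1]

theorem qm_Bm (x : Fin 6 → ZMod 2) :
    Cfsg.quadFormMinus 2 (ZMod 2) 1 1 (Bm *ᵥ x) = Q6p x := by
  have hx' : x = ![x 0, x 1, x 2, x 3, x 4, x 5] := by
    funext i
    fin_cases i <;> rfl
  rw [hx']
  exact d5 _ _ _ _ _ _

/-- The matrix-valued homomorphism. -/
def hN : O5 →* Matrix T6 T6 (ZMod 2) where
  toFun g := Bm * N6 g.1.1 * Bi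
  map_one' := by
    show Bm * N6 1 * Bi = 1
    rw [N6_one, Matrix.mul_one, d6]
  map_mul' g h := by
    show Bm * N6 (g * h).1.1 * Bi = (Bm * N6 g.1.1 * Bi) * (Bm * N6 h.1.1 * Bi)
    rw [N6_mul]
    have e1 : (Bm * N6 g.1.1 * Bi) * (Bm * N6 h.1.1 * Bi)
        = Bm * N6 g.1.1 * (Bi * Bm) * N6 h.1.1 * Bi := by
      simp only [Matrix.mul_assoc]
    rw [e1, d7, Matrix.mul_one]
    simp only [Matrix.mul_assoc]

theorem hN_iso (g : O5) (y : T6 → ZMod 2) :
    Cfsg.quadFormMinus 2 (ZMod 2) 1 1 ((Bm * N6 g.1.1 * Bi) *ᵥ y)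
      = Cfsg.quadFormMinus 2 (ZMod 2) 1 1 y := by
  have hy : y = Bm *ᵥ (Bi *ᵥ y) := by rw [Matrix.mulVec_mulVec, d6, Matrix.one_mulVec]
  have e1 : (Bm * N6 g.1.1 * Bi) *ᵥ y = Bm *ᵥ (N6 g.1.1 *ᵥ (Bi *ᵥ y)) := by
    simp only [Matrix.mulVec_mulVec, Matrix.mul_assoc]
  rw [e1, qm_Bm, Q6_N, ← qm_Bm, ← hy]

/-- The homomorphism between the orthogonal groups. -/
def hM : O5 →* O6 :=
  hN.toHomUnits.codRestrict _ (fun g => by
    intro y _
    exact hN_iso g y)

theorem hM_val (g : O5) : ((hM g : O6).1.1 : Matrix T6 T6 (ZMod 2)) = Bm * N6 g.1.1 * Bi := rfl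

theorem ker_hM (g : O5) (hg : hM g = 1) : g.1.1 = 1 ∨ g.1.1 = -1 := by
  have h1 : Bm * N6 g.1.1 * Bi = 1 := by
    rw [← hM_val, hg]
    rfl
  have hN1 : N6 g.1.1 = 1 := by
    have h2 : Bi * (Bm * N6 g.1.1 * Bi) * Bm = N6 g.1.1 := by
      rw [Matrix.mul_assoc Bm, ← Matrix.mul_assoc Bi, d7, Matrix.one_mul, Matrix.mul_assoc, d7,
        Matrix.mul_one]
    rw [← h2, h1, Matrix.mul_one, d7]
  have hj : ∀ j, kap (g.1.1 *ᵥ Uv j) = kap (Uv j) := by
    intro j
    funext i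
    have h3 := congrFun (congrFun hN1 i) j
    rw [Matrix.one_apply] at h3
    show kap (g.1.1 *ᵥ Uv j) i = bits (kc (Uv j)) i
    rw [d10]
    exact h3
  have hs : ∀ j, ∃ s : ZMod 3, (s = 1 ∨ s = -1) ∧ g.1.1 *ᵥ Uv j = s • Uv j := by
    intro j
    have h4 := d4 _ _ _ _ _ (d9 j) _ _ _ _ _ (root_pres g _ (d9 j)) (hj j).symm
    rcases h4 with ⟨a0, a1, a2, a3, a4⟩ | ⟨a0, a1, a2, a3, a4⟩
    · refine ⟨1, Or.inl rfl, ?_⟩
      rw [one_smul]
      exact t5_ext _ _ a0 a1 a2 a3 a4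
    · refine ⟨-1, Or.inr rfl, ?_⟩
      rw [neg_smul, one_smul]
      exact t5_ext _ _ a0 a1 a2 a3 a4
  choose s hs1 hs2 using hs
  have hpol : ∀ j k, pv (Uv j) (Uv k) ≠ 0 → s j = s k := by
    intro j k hjk
    have h5 : pv (g.1.1 *ᵥ Uv j) (g.1.1 *ᵥ Uv k) = pv (Uv j) (Uv k) := by
      have hq : ∀ u, Qv (g.1.1 *ᵥ u) = Qv u := by
        intro u
        have h6 : Cfsg.quadFormOdd 2 (ZMod 3) (g.1.1 *ᵥ u) = Cfsg.quadFormOdd 2 (ZMod 3) u :=
          g.2 u u
        rw [q5_eq, q5_eq] at h6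
        exact h6
      rw [pv_eq, pv_eq, ← Matrix.mulVec_add, hq, hq, hq]
    rw [hs2, hs2, pv_smul] at h5
    have h7 : s j * s k = 1 := by
      have h8 : s j * s k * pv (Uv j) (Uv k) = 1 * pv (Uv j) (Uv k) := by rw [h5, one_mul]
      exact mul_right_cancel₀ hjk h8
    have h9 : s k * s k = 1 := by
      rcases hs1 k with h | h <;> rw [h] <;> decide
    calc s j = s j * (s k * s k) := by rw [h9, mul_one]
      _ = s j * s k * s k := by ring
      _ = s k := by rw [h7, one_mul]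
  obtain ⟨p01, p12, p23, p34, p25⟩ := d11
  have e1 := hpol 1 2 p12
  have e0 := hpol 0 1 p01
  have e3 := hpol 2 3 p23
  have e4 := hpol 3 4 p34
  have e5 := hpol 2 5 p25
  have hall : ∀ j, g.1.1 *ᵥ Uv j = s 2 • Uv j := by
    intro j
    rw [hs2 j]
    congr 1
    fin_cases j
    · exact e0.trans e1
    · exact e1
    · rfl
    · exact e3.symm
    · exact (e3.trans e4).symm
    · exact e5.symm
  have hUB : g.1.1 * UB = s 2 • UB := by
    ext i j
    have h10 := congrFun (hall j) i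
    exact h10
  have hg1 : g.1.1 = s 2 • (1 : Matrix T5 T5 (ZMod 3)) := by
    calc g.1.1 = g.1.1 * (UB * UR) := by rw [d8, Matrix.mul_one]
      _ = (g.1.1 * UB) * UR := by rw [Matrix.mul_assoc]
      _ = s 2 • (1 : Matrix T5 T5 (ZMod 3)) := by rw [hUB, Matrix.smul_mul, d8]
  rcases hs1 2 with h | h
  · left
    rw [hg1, h, one_smul]
  · right
    rw [hg1, h, neg_smul, one_smul]

theorem card_O5 : Nat.card O5 = 103680 := by
  have h := Cfsg.Agent.S0286.result (F := ZMod 3) (q := 3) (ZMod.card 3) (by decide) 2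
  rw [h]
  norm_num [Finset.prod_range_succ]

theorem card_O6m : Nat.card O6 = 51840 := by
  have h := Cfsg.Agent.Lib.Helper2.Herm6.card_O6 (F := ZMod 2) (q := 2) (ZMod.card 2) 1 1
    (by decide)
  rw [h]
  norm_num

theorem card_ker : Nat.card ↥(hM.ker) ≤ 2 := by
  classical
  have hinj : Function.Injective (fun g : ↥(hM.ker) => decide (g.1.1.1 = 1)) := by
    intro g g' hgg
    have hne : (-1 : Matrix T5 T5 (ZMod 3)) ≠ 1 := by
      intro h
      have := congrFun (congrFun h (Sum.inl ())) (Sum.inl ())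
      revert this
      simp only [Matrix.neg_apply, Matrix.one_apply_eq]
      decide
    have h1 := ker_hM g.1 (MonoidHom.mem_ker.mp g.2)
    have h2 := ker_hM g'.1 (MonoidHom.mem_ker.mp g'.2)
    apply Subtype.ext
    apply Subtype.ext
    apply Units.ext
    rcases h1 with h1 | h1 <;> rcases h2 with h2 | h2
    · rw [h1, h2]
    · exfalso
      simp only [h1, h2, hne, decide_true, decide_false] at hgg
      exact absurd hgg (by decide)
    · exfalso
      simp only [h1, h2, hne, decide_true, decide_false] at hgg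
      exact absurd hgg (by decide)
    · rw [h1, h2]
  calc Nat.card ↥(hM.ker) ≤ Nat.card Bool := Nat.card_le_card_of_injective _ hinj
    _ = 2 := by simp

theorem hM_surjective : Function.Surjective hM := by
  rw [← MonoidHom.range_eq_top]
  apply Subgroup.eq_top_of_le_card
  have h1 := Subgroup.card_mul_index hM.ker
  rw [Subgroup.index_ker, card_O5] at h1
  have h2 := card_ker
  rw [card_O6m]
  by_contra hc
  push Not at hc
  have h3 : Nat.card ↥(hM.ker) * Nat.card ↥(hM.range) ≤ 2 * 51839 :=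
    Nat.mul_le_mul h2 (by omega)
  omega

theorem hM_comm (g : O5) (hg : g ∈ commutator O5) (h : hM g = 1) : g = 1 := by
  have hdet : g.1.1.det = 1 := by
    have h1 := Abelianization.commutator_subset_ker
      (f := (Matrix.GeneralLinearGroup.det (n := T5) (R := ZMod 3)).comp
        (Subgroup.subtype (Cfsg.isometryGroup (ZMod 3) (Cfsg.quadFormOdd 2 (ZMod 3))))) hg
    have h2 : Matrix.GeneralLinearGroup.det g.1 = 1 := MonoidHom.mem_ker.mp h1
    have h3 : ((Matrix.GeneralLinearGroup.det g.1 : (ZMod 3)ˣ) : ZMod 3) = 1 := by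
      rw [h2]
      rfl
    rw [Matrix.GeneralLinearGroup.val_det_apply] at h3
    exact h3
  rcases ker_hM g h with h1 | h1
  · exact Subtype.ext (Units.ext h1)
  · exfalso
    rw [h1, Matrix.det_neg, Matrix.det_one] at hdet
    revert hdet
    simp only [Fintype.card_sum, Fintype.card_unit, Fintype.card_fin]
    decide

section general

variable {G H : Type*} [Group G] [Group H]

theorem center_map_equiv (e : G ≃* H) :
    (Subgroup.center G).map (e : G →* H) = Subgroup.center H := by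
  ext y
  constructor
  · rintro ⟨x, hx, rfl⟩
    rw [Subgroup.mem_center_iff]
    intro z
    obtain ⟨w, rfl⟩ := e.surjective z
    show e w * e x = e x * e w
    rw [← map_mul, ← map_mul, Subgroup.mem_center_iff.mp hx w]
  · intro hy
    refine ⟨e.symm y, ?_, e.apply_symm_apply y⟩
    rw [SetLike.mem_coe, Subgroup.mem_center_iff]
    intro z
    apply e.injective
    rw [map_mul, map_mul, e.apply_symm_apply]
    exact Subgroup.mem_center_iff.mp hy (e z)

/-- Isomorphic groups have isomorphic central quotients. -/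
noncomputable def centerQuot (e : G ≃* H) : G ⧸ Subgroup.center G ≃* H ⧸ Subgroup.center H :=
  QuotientGroup.congr _ _ e (center_map_equiv e)

theorem comm_map_le (f : G →* H) (g : G) (hg : g ∈ commutator G) : f g ∈ commutator H := by
  have h1 : (commutator G).map f ≤ commutator H := by
    rw [commutator_def, Subgroup.map_commutator, commutator_def]
    exact Subgroup.commutator_mono le_top le_top
  exact h1 (Subgroup.mem_map_of_mem f hg)

/-- The induced homomorphism of commutator subgroups. -/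
def commHom (f : G →* H) : ↥(commutator G) →* ↥(commutator H) :=
  (f.comp (commutator G).subtype).codRestrict (commutator H) (fun g => comm_map_le f g.1 g.2)

theorem commHom_bijective (f : G →* H) (hs : Function.Surjective f)
    (hk : ∀ g ∈ commutator G, f g = 1 → g = 1) : Function.Bijective (commHom f) := by
  constructor
  · rw [injective_iff_map_eq_one]
    intro g hg
    apply Subtype.ext
    apply hk g.1 g.2
    exact congrArg Subtype.val hg
  · intro y
    have h1 : (commutator G).map f = commutator H := by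
      rw [commutator_def, Subgroup.map_commutator, commutator_def, ← MonoidHom.range_eq_map,
        MonoidHom.range_eq_top.mpr hs]
    have hy : y.1 ∈ (commutator G).map f := by
      rw [h1]
      exact y.2
    obtain ⟨x, hx, hxy⟩ := hy
    exact ⟨⟨x, hx⟩, Subtype.ext hxy⟩

/-- The isomorphism of the central quotients of the commutator subgroups. -/
noncomputable def pcomm (f : G →* H) (hs : Function.Surjective f)
    (hk : ∀ g ∈ commutator G, f g = 1 → g = 1) :
    ↥(commutator G) ⧸ Subgroup.center ↥(commutator G)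
      ≃* ↥(commutator H) ⧸ Subgroup.center ↥(commutator H) :=
  centerQuot (MulEquiv.ofBijective (commHom f) (commHom_bijective f hs hk))

end general

theorem pomega_iso : Nonempty (Cfsg.POmega (ZMod 3) (Cfsg.quadFormOdd 2 (ZMod 3))
    ≃* Cfsg.POmega (ZMod 2) (Cfsg.quadFormMinus 2 (ZMod 2) 1 1)) :=
  ⟨pcomm hM hM_surjective hM_comm⟩

theorem o5_transfer {K : Type*} [Field K] [Fintype K] (hK : Fintype.card K = 3) :
    Nonempty (Cfsg.POmega (ZMod 3) (Cfsg.quadFormOdd 2 (ZMod 3))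
      ≃* Cfsg.POmega K (Cfsg.quadFormOdd 2 K)) := by
  let e : ZMod 3 ≃+* K := ZMod.ringEquivOfPrime K Nat.prime_three hK
  have h : ∀ v : T5 → ZMod 3,
      Cfsg.quadFormOdd 2 K (fun i => e (v i)) = e (Cfsg.quadFormOdd 2 (ZMod 3) v) := by
    intro v
    simp [Cfsg.quadFormOdd, map_add, map_mul, map_pow]
  have hinj := Cfsg.Agent.Lib.Helper2.WeightForm.isoMap_injective e _ _ h
  have hcard : Nat.card O5 = Nat.card ↥(Cfsg.isometryGroup K (Cfsg.quadFormOdd 2 K)) := by
    rw [card_O5, Cfsg.Agent.S0286.result hK (by decide) 2]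
    norm_num [Finset.prod_range_succ]
  have hb : Function.Bijective (Cfsg.Agent.Lib.Helper2.WeightForm.isoMap e _ _ h) :=
    (Nat.bijective_iff_injective_and_card _).2 ⟨hinj, hcard⟩
  exact ⟨pcomm _ hb.2 (fun g _ hg => hb.1 (by rw [hg, map_one]))⟩

theorem main_iso {F K : Type*} [Field F] [Fintype F] [Field K] [Fintype K]
    (hF : Fintype.card F = 4) (hK : Fintype.card K = 3) :
    Nonempty (Cfsg.PSU 4 F 2 ≃* Cfsg.PSp 2 K) := by
  obtain ⟨e1⟩ := Cfsg.Agent.Lib.Helper2.Herm6.main6 (F := ZMod 2) (K := F) (q := 2)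
    (ZMod.card 2) (by rw [hF]; norm_num) 1 1 (by decide)
  obtain ⟨e2⟩ := pomega_iso
  obtain ⟨e3⟩ := o5_transfer hK
  obtain ⟨e4⟩ := Cfsg.Agent.Lib.Helper2.Sp4O5.sp_main (F := K) (by rw [hK]; decide)
  exact ⟨e1.symm.trans (e2.symm.trans (e3.trans e4))⟩

end Cfsg.Agent.Lib.Helper2.E6Tab
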