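import Mathlib
import Cfsg.Prelude.Def_Classical
import Cfsg.Agent.Lib.Helper18.DihedralEquiv

set_option autoImplicit false
set_option linter.unusedSectionVars false

namespace Cfsg.Agent.Lib.Helper2.GOMinus2

open Polynomial Matrix

/-- The index type of the two-dimensional minus-type form. -/
abbrev I2 : Type := (Fin 0 ⊕ Fin 0) ⊕ Fin 2

variable {F : Type*} [Field F]

/-- The first index. -/
def i0 : I2 := Sum.inr 0

/-- The second index. -/
def i1 : I2 := Sum.inr 1

theorem i1_ne_i0 : i1 ≠ i0 := by decide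

theorem i0_ne_i1 : i0 ≠ i1 := by decide

theorem cases_I2 (i : I2) : i = i0 ∨ i = i1 := by
  rcases i with (i | i) | i
  · exact i.elim0
  · exact i.elim0
  · fin_cases i
    · left; rfl
    · right; rfl

theorem sum_I2 {A : Type*} [AddCommMonoid A] (f : I2 → A) : ∑ i, f i = f i0 + f i1 := by
  rw [Fintype.sum_sum_type, Fin.sum_univ_two]
  simp [i0, i1]

/-- The binary form. -/
def R (a b x y : F) : F := x ^ 2 + a * x * y + b * y ^ 2

theorem Q_eq (a b : F) (v : I2 → F) : Cfsg.quadFormMinus 0 F a b v = R a b (v i0) (v i1) := by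
  simp [Cfsg.quadFormMinus, R, i0, i1]

/-- Two-by-two matrices on the index type. -/
def M (α β γ δ : F) : Matrix I2 I2 F :=
  Matrix.of fun i j => if i = i0 then (if j = i0 then α else β) else (if j = i0 then γ else δ)

theorem M00 (α β γ δ : F) : M α β γ δ i0 i0 = α := by simp [M]
theorem M01 (α β γ δ : F) : M α β γ δ i0 i1 = β := by simp [M, i1_ne_i0]
theorem M10 (α β γ δ : F) : M α β γ δ i1 i0 = γ := by simp [M, i1_ne_i0]
theorem M11 (α β γ δ : F) : M α β γ δ i1 i1 = δ := by simp [M, i1_ne_i0]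

theorem mat_ext {A B : Matrix I2 I2 F} (h00 : A i0 i0 = B i0 i0) (h01 : A i0 i1 = B i0 i1)
    (h10 : A i1 i0 = B i1 i0) (h11 : A i1 i1 = B i1 i1) : A = B := by
  ext i j
  rcases cases_I2 i with rfl | rfl <;> rcases cases_I2 j with rfl | rfl <;> assumption

theorem eq_M (g : Matrix I2 I2 F) : g = M (g i0 i0) (g i0 i1) (g i1 i0) (g i1 i1) := by
  apply mat_ext
  · rw [M00]
  · rw [M01]
  · rw [M10]
  · rw [M11]

theorem M_mul (α β γ δ α' β' γ' δ' : F) : M α β γ δ * M α' β' γ' δ' =
    M (α * α' + β * γ') (α * β' + β * δ') (γ * α' + δ * γ') (γ * β' + δ * δ') := by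
  apply mat_ext
  · rw [Matrix.mul_apply, sum_I2, M00, M00, M01, M10, M00]
  · rw [Matrix.mul_apply, sum_I2, M00, M01, M01, M11, M01]
  · rw [Matrix.mul_apply, sum_I2, M10, M00, M11, M10, M10]
  · rw [Matrix.mul_apply, sum_I2, M10, M01, M11, M11, M11]

theorem M_one : M (1 : F) 0 0 1 = 1 := by
  apply mat_ext
  · rw [M00, Matrix.one_apply_eq]
  · rw [M01, Matrix.one_apply_ne i0_ne_i1]
  · rw [M10, Matrix.one_apply_ne i1_ne_i0]
  · rw [M11, Matrix.one_apply_eq]

theorem M_inj {α β γ δ α' β' γ' δ' : F} (h : M α β γ δ = M α' β' γ' δ') :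
    α = α' ∧ β = β' ∧ γ = γ' ∧ δ = δ' := by
  refine ⟨?_, ?_, ?_, ?_⟩
  · have := congrFun (congrFun h i0) i0
    rwa [M00, M00] at this
  · have := congrFun (congrFun h i0) i1
    rwa [M01, M01] at this
  · have := congrFun (congrFun h i1) i0
    rwa [M10, M10] at this
  · have := congrFun (congrFun h i1) i1
    rwa [M11, M11] at this

theorem Q_M (a b α β γ δ : F) (v : I2 → F) :
    Cfsg.quadFormMinus 0 F a b (M α β γ δ *ᵥ v) =
      R a b (α * v i0 + β * v i1) (γ * v i0 + δ * v i1) := by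
  rw [Q_eq]
  congr 1
  · show ∑ j, M α β γ δ i0 j * v j = _
    rw [sum_I2, M00, M01]
  · show ∑ j, M α β γ δ i1 j * v j = _
    rw [sum_I2, M10, M11]

theorem mem_iso_iff (a b : F) (g : Matrix.GeneralLinearGroup I2 F) :
    g ∈ Cfsg.isometryGroup F (Cfsg.quadFormMinus 0 F a b) ↔
      ∀ v : I2 → F, Cfsg.quadFormMinus 0 F a b (g.1 *ᵥ v) = Cfsg.quadFormMinus 0 F a b v := by
  constructor
  · intro h v
    exact h v v
  · intro h u v
    exact h u

/-- The matrix of multiplication by `p + s θ`. -/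
def rotM (a b p s : F) : Matrix I2 I2 F := M p (-(b * s)) s (p + a * s)

/-- The matrix of the conjugation `θ ↦ a - θ`. -/
def sigM (a : F) : Matrix I2 I2 F := M 1 a 0 (-1)

theorem rotM_mul (a b p s p' s' : F) : rotM a b p s * rotM a b p' s' =
    rotM a b (p * p' - b * s * s') (s * p' + p * s' + a * s * s') := by
  unfold rotM
  rw [M_mul]
  congr 1 <;> ring

theorem R_mul (a b p s p' s' : F) :
    R a b (p * p' - b * s * s') (s * p' + p * s' + a * s * s') = R a b p s * R a b p' s' := by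
  unfold R
  ring

theorem rotM_one (a b : F) : rotM a b 1 0 = 1 := by
  unfold rotM
  rw [mul_zero, neg_zero, mul_zero, add_zero, M_one]

theorem rotM_mul_conj (a b p s : F) (hR : R a b p s = 1) :
    rotM a b p s * rotM a b (p + a * s) (-s) = 1 := by
  rw [rotM_mul, ← rotM_one a b]
  unfold R at hR
  congr 1
  · linear_combination hR
  · ring

theorem R_conj (a b p s : F) : R a b (p + a * s) (-s) = R a b p s := by
  unfold R
  ring

theorem rotM_conj_mul (a b p s : F) (hR : R a b p s = 1) :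
    rotM a b (p + a * s) (-s) * rotM a b p s = 1 := by
  have h := rotM_mul_conj a b (p + a * s) (-s) (by rw [R_conj]; exact hR)
  have e : p + a * s + a * -s = p := by ring
  rw [e, neg_neg] at h
  exact h

theorem sigM_mul_self (a : F) : sigM a * sigM a = 1 := by
  unfold sigM
  rw [M_mul, ← M_one]
  congr 1 <;> ring

theorem rotM_sig (a b p s : F) : rotM a b p s * sigM a = M p (a * p + b * s) s (-p) := by
  unfold rotM sigM
  rw [M_mul]
  congr 1 <;> ring

theorem sig_rotM_sig (a b p s : F) :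
    sigM a * rotM a b p s * sigM a = rotM a b (p + a * s) (-s) := by
  unfold rotM sigM
  rw [M_mul, M_mul]
  congr 1 <;> ring

theorem rotM_inj {a b p s p' s' : F} (h : rotM a b p s = rotM a b p' s') : p = p' ∧ s = s' := by
  obtain ⟨h1, -, h3, -⟩ := M_inj h
  exact ⟨h1, h3⟩

/-- Rotations as invertible matrices. -/
def rotG (a b p s : F) (hR : R a b p s = 1) : Matrix.GeneralLinearGroup I2 F :=
  ⟨rotM a b p s, rotM a b (p + a * s) (-s), rotM_mul_conj a b p s hR, rotM_conj_mul a b p s hR⟩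

/-- The conjugation as an invertible matrix. -/
def sigG (a : F) : Matrix.GeneralLinearGroup I2 F :=
  ⟨sigM a, sigM a, sigM_mul_self a, sigM_mul_self a⟩

theorem rotG_mem (a b p s : F) (hR : R a b p s = 1) :
    rotG a b p s hR ∈ Cfsg.isometryGroup F (Cfsg.quadFormMinus 0 F a b) := by
  rw [mem_iso_iff]
  intro v
  show Cfsg.quadFormMinus 0 F a b (rotM a b p s *ᵥ v) = _
  unfold rotM
  rw [Q_M, Q_eq]
  unfold R at hR ⊢
  linear_combination (v i0 ^ 2 + a * v i0 * v i1 + b * v i1 ^ 2) * hR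

theorem sigG_mem (a b : F) :
    sigG a ∈ Cfsg.isometryGroup F (Cfsg.quadFormMinus 0 F a b) := by
  rw [mem_iso_iff]
  intro v
  show Cfsg.quadFormMinus 0 F a b (sigM a *ᵥ v) = _
  unfold sigM
  rw [Q_M, Q_eq]
  unfold R
  ring

/-- Every isometry is a rotation or a rotation times the conjugation. -/
theorem cases_of_mem (a b : F)
    (hab : ∀ z₁ z₂ : F, z₁ ^ 2 + a * z₁ * z₂ + b * z₂ ^ 2 = 0 → z₁ = 0 ∧ z₂ = 0)
    (g : Matrix.GeneralLinearGroup I2 F)
    (hg : g ∈ Cfsg.isometryGroup F (Cfsg.quadFormMinus 0 F a b)) :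
    R a b (g.1 i0 i0) (g.1 i1 i0) = 1 ∧
      (g.1 = rotM a b (g.1 i0 i0) (g.1 i1 i0) ∨
        g.1 = rotM a b (g.1 i0 i0) (g.1 i1 i0) * sigM a) := by
  rw [mem_iso_iff] at hg
  obtain ⟨p, hp⟩ : ∃ p, p = g.1 i0 i0 := ⟨_, rfl⟩
  obtain ⟨r, hr⟩ : ∃ r, r = g.1 i0 i1 := ⟨_, rfl⟩
  obtain ⟨s, hs⟩ : ∃ s, s = g.1 i1 i0 := ⟨_, rfl⟩
  obtain ⟨t, ht⟩ : ∃ t, t = g.1 i1 i1 := ⟨_, rfl⟩
  have hgM : g.1 = M p r s t := by rw [hp, hr, hs, ht]; exact eq_M g.1
  rw [← hp, ← hs]
  rw [hgM] at hg ⊢
  have h1 := hg (fun i => if i = i0 then 1 else 0)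
  have h2 := hg (fun i => if i = i0 then 0 else 1)
  have h3 := hg (fun _ => 1)
  rw [Q_M, Q_eq] at h1 h2 h3
  simp only [if_true, if_neg i1_ne_i0, mul_one, mul_zero, add_zero, zero_add] at h1 h2 h3
  unfold R at h1 h2 h3
  have hR : R a b p s = 1 := by
    unfold R
    linear_combination h1
  refine ⟨hR, ?_⟩
  obtain ⟨w1, hw1⟩ : ∃ w1, w1 = (p + a * s) * r + b * s * t := ⟨_, rfl⟩
  obtain ⟨w2, hw2⟩ : ∃ w2, w2 = p * t - s * r := ⟨_, rfl⟩
  have e1 : 2 * w1 + a * w2 - a = 0 := by
    rw [hw1, hw2]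
    linear_combination h3 - h1 - h2
  have e2 : b - (w1 ^ 2 + a * w1 * w2 + b * w2 ^ 2) = 0 := by
    rw [hw1, hw2]
    linear_combination (-(r ^ 2 + a * r * t + b * t ^ 2)) * h1 - h2
  have e3 : (w1 ^ 2 + a * w1 * (w2 - 1) + b * (w2 - 1) ^ 2)
      * ((w1 - a) ^ 2 + a * (w1 - a) * (w2 + 1) + b * (w2 + 1) ^ 2) = 0 := by
    linear_combination ((2 * w1 + a * w2 - a) * (w1 ^ 2 + a * w1 * w2 + b * w2 ^ 2)
      + (b - (w1 ^ 2 + a * w1 * w2 + b * w2 ^ 2)) * (2 * w1 + a * w2)) * e1
      + (b - (w1 ^ 2 + a * w1 * w2 + b * w2 ^ 2)) * e2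
  have hr' : r = p * w1 - b * s * w2 := by
    rw [hw1, hw2]
    linear_combination (-r) * h1
  have ht' : t = s * w1 + (p + a * s) * w2 := by
    rw [hw1, hw2]
    linear_combination (-t) * h1
  rcases mul_eq_zero.mp e3 with h | h
  · left
    obtain ⟨h4, h5⟩ := hab _ _ h
    have h6 : w2 = 1 := by linear_combination h5
    rw [h4, h6] at hr' ht'
    unfold rotM
    congr 1
    · linear_combination hr'
    · linear_combination ht'
  · right
    obtain ⟨h4, h5⟩ := hab _ _ h
    have h6 : w2 = -1 := by linear_combination h5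
    have h7 : w1 = a := by linear_combination h4
    rw [h7, h6] at hr' ht'
    rw [rotM_sig]
    congr 1
    · linear_combination hr'
    · linear_combination ht'

/-- The rotation subgroup. -/
def rotSub (a b : F) : Subgroup (Matrix.GeneralLinearGroup I2 F) where
  carrier := {g | ∃ p s, R a b p s = 1 ∧ g.1 = rotM a b p s}
  mul_mem' := by
    rintro g h ⟨p, s, hR, hg⟩ ⟨p', s', hR', hh⟩
    refine ⟨p * p' - b * s * s', s * p' + p * s' + a * s * s', ?_, ?_⟩
    · rw [R_mul, hR, hR', mul_one]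
    · show g.1 * h.1 = _
      rw [hg, hh, rotM_mul]
  one_mem' := ⟨1, 0, by unfold R; ring, (rotM_one a b).symm⟩
  inv_mem' := by
    rintro g ⟨p, s, hR, hg⟩
    have hR' : R a b (p + a * s) (-s) = 1 := by rw [R_conj]; exact hR
    refine ⟨p + a * s, -s, hR', ?_⟩
    have h1 : g⁻¹ = rotG a b (p + a * s) (-s) hR' := by
      apply inv_eq_of_mul_eq_one_right
      apply Units.ext
      show g.1 * rotM a b (p + a * s) (-s) = 1
      rw [hg, rotM_mul_conj a b p s hR]
    rw [h1]
    rfl

theorem mem_rotSub (a b : F) (g : Matrix.GeneralLinearGroup I2 F) :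
    g ∈ rotSub a b ↔ ∃ p s, R a b p s = 1 ∧ g.1 = rotM a b p s := Iff.rfl

theorem rotSub_le (a b : F) :
    rotSub a b ≤ Cfsg.isometryGroup F (Cfsg.quadFormMinus 0 F a b) := by
  rintro g ⟨p, s, hR, hg⟩
  have h1 : g = rotG a b p s hR := Units.ext hg
  rw [h1]
  exact rotG_mem a b p s hR

theorem entries_of_mem {a b : F} {g : Matrix.GeneralLinearGroup I2 F} (hg : g ∈ rotSub a b) :
    R a b (g.1 i0 i0) (g.1 i1 i0) = 1 ∧ g.1 = rotM a b (g.1 i0 i0) (g.1 i1 i0) := by
  obtain ⟨p, s, hR, hg⟩ := hg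
  have h0 : g.1 i0 i0 = p := by rw [hg]; exact M00 _ _ _ _
  have h1 : g.1 i1 i0 = s := by rw [hg]; exact M10 _ _ _ _
  rw [h0, h1]
  exact ⟨hR, hg⟩

section aniso

variable (a b : F)
  (hab : ∀ z₁ z₂ : F, z₁ ^ 2 + a * z₁ * z₂ + b * z₂ ^ 2 = 0 → z₁ = 0 ∧ z₂ = 0)

include hab

theorem D_ne (x : F) : x ^ 2 + a * x + b ≠ 0 := by
  intro h
  exact one_ne_zero (hab x 1 (by linear_combination h)).2

theorem two_a [Finite F] (h2 : (2 : F) = 0) : a ≠ 0 := by
  intro ha
  have : CharP F 2 := CharTwo.of_one_ne_zero_of_two_eq_zero one_ne_zero h2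
  obtain ⟨c, hc⟩ := FiniteField.isSquare_of_char_two (ringChar.eq F 2) b
  have h1 := hab c 1 (by rw [ha, hc]; linear_combination (c * c) * h2)
  exact one_ne_zero h1.2

theorem rot_ne_ref [Finite F] (p s p' s' : F) (hR : R a b p s = 1) :
    rotM a b p s * sigM a ≠ rotM a b p' s' := by
  intro h
  rw [rotM_sig] at h
  unfold rotM at h
  obtain ⟨h1, h2, h3, h4⟩ := M_inj h
  subst h1 h3
  unfold R at hR
  have h5 : (2 : F) = 0 := by
    linear_combination (-2 : F) * hR + s * h2 - p * h4
  have ha := two_a a b hab h5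
  have h6 : a * p = 0 := by linear_combination h2 - b * s * h5
  have h7 : a * s = 0 := by linear_combination (-1 : F) * h4 - p * h5
  have hp : p = 0 := by
    rcases mul_eq_zero.mp h6 with h | h
    · exact absurd h ha
    · exact h
  have hs : s = 0 := by
    rcases mul_eq_zero.mp h7 with h | h
    · exact absurd h ha
    · exact h
  rw [hp, hs] at hR
  apply zero_ne_one (α := F)
  linear_combination hR

theorem sig_not_mem [Finite F] : sigG a ∉ rotSub a b := by
  rintro ⟨p, s, hR, hg⟩
  have h1 : sigM a = rotM a b p s := hg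
  unfold sigM rotM at h1
  obtain ⟨h1, h2, h3, h4⟩ := M_inj h1
  subst h1 h3
  have h5 : (2 : F) = 0 := by linear_combination (-1 : F) * h4
  exact two_a a b hab h5 (by linear_combination h2)

/-- Independence of `1, θ` over `F`. -/
theorem theta_indep {K : Type*} [Field K] (φ : F →+* K) (θ : K)
    (hθ : θ ^ 2 - φ a * θ + φ b = 0) (p s p' s' : F)
    (h : φ p + θ * φ s = φ p' + θ * φ s') : p = p' ∧ s = s' := by
  have hs : s = s' := by
    by_contra hne
    have hne' : s - s' ≠ 0 := sub_ne_zero.mpr hne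
    have h1 : θ * φ (s - s') = φ (p' - p) := by
      rw [map_sub, map_sub]
      linear_combination h
    have h2 : θ = φ ((p' - p) / (s - s')) := by
      rw [map_div₀, eq_div_iff (by rw [Ne, map_eq_zero]; exact hne')]
      exact h1
    rw [h2, ← map_pow, ← map_mul, ← map_sub, ← map_add, map_eq_zero] at hθ
    have h3 := hab (-((p' - p) / (s - s'))) 1 (by linear_combination hθ)
    exact one_ne_zero h3.2
  refine ⟨?_, hs⟩
  rw [hs] at h
  exact φ.injective (add_right_cancel h)

theorem isCyclic_rotSub [Finite F] : IsCyclic (rotSub a b) := by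
  let P : F[X] := C 1 * X ^ 2 + C (-a) * X + C b
  have hdeg : P.natDegree = 2 := natDegree_quadratic one_ne_zero
  have hP0 : P ≠ 0 := by
    intro h
    rw [h, natDegree_zero] at hdeg
    omega
  have hirr : Irreducible P := by
    apply irreducible_of_degree_le_three_of_not_isRoot
    · rw [hdeg]; decide
    · intro r hr
      have h0 : 1 * r ^ 2 + -a * r + b = 0 := by simpa [P, IsRoot] using hr
      have h1 := hab r (-1) (by linear_combination h0)
      exact one_ne_zero (neg_eq_zero.mp h1.2)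
  have : Fact (Irreducible P) := ⟨hirr⟩
  obtain ⟨θ, hθ⟩ : ∃ θ : AdjoinRoot P, θ ^ 2 - algebraMap F (AdjoinRoot P) a * θ
      + algebraMap F (AdjoinRoot P) b = 0 := by
    refine ⟨AdjoinRoot.root P, ?_⟩
    have h' : aeval (AdjoinRoot.root P) P = 0 := by
      rw [AdjoinRoot.aeval_eq, AdjoinRoot.mk_self]
    have h'' : 1 * (AdjoinRoot.root P) ^ 2 + -(algebraMap F (AdjoinRoot P) a) * AdjoinRoot.root P
        + algebraMap F (AdjoinRoot P) b = 0 := by
      simpa [P] using h'
    linear_combination h''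
  let f : rotSub a b →* AdjoinRoot P :=
    { toFun := fun g => algebraMap F (AdjoinRoot P) (g.1.1 i0 i0)
        + θ * algebraMap F (AdjoinRoot P) (g.1.1 i1 i0)
      map_one' := by
        show algebraMap F (AdjoinRoot P) ((1 : Matrix I2 I2 F) i0 i0)
          + θ * algebraMap F (AdjoinRoot P) ((1 : Matrix I2 I2 F) i1 i0) = 1
        rw [Matrix.one_apply_eq, Matrix.one_apply_ne i1_ne_i0, map_one, map_zero, mul_zero,
          add_zero]
      map_mul' := by
        rintro ⟨g, hg⟩ ⟨h, hh⟩
        obtain ⟨-, hg'⟩ := entries_of_mem hg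
        obtain ⟨-, hh'⟩ := entries_of_mem hh
        show algebraMap F (AdjoinRoot P) ((g.1 * h.1) i0 i0)
          + θ * algebraMap F (AdjoinRoot P) ((g.1 * h.1) i1 i0)
          = (algebraMap F (AdjoinRoot P) (g.1 i0 i0) + θ * algebraMap F (AdjoinRoot P) (g.1 i1 i0))
            * (algebraMap F (AdjoinRoot P) (h.1 i0 i0)
              + θ * algebraMap F (AdjoinRoot P) (h.1 i1 i0))
        obtain ⟨p, hp⟩ : ∃ p, p = g.1 i0 i0 := ⟨_, rfl⟩
        obtain ⟨s, hs⟩ : ∃ s, s = g.1 i1 i0 := ⟨_, rfl⟩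
        obtain ⟨p', hp'⟩ : ∃ p', p' = h.1 i0 i0 := ⟨_, rfl⟩
        obtain ⟨s', hs'⟩ : ∃ s', s' = h.1 i1 i0 := ⟨_, rfl⟩
        rw [← hp, ← hs] at hg' ⊢
        rw [← hp', ← hs'] at hh' ⊢
        rw [hg', hh', rotM_mul]
        unfold rotM
        rw [M00, M10]
        simp only [map_sub, map_add, map_mul]
        linear_combination (-(algebraMap F (AdjoinRoot P) s * algebraMap F (AdjoinRoot P) s')) * hθ }
  have hf : Function.Injective f := by
    rintro ⟨g, hg⟩ ⟨h, hh⟩ hgh
    obtain ⟨-, hg'⟩ := entries_of_mem hg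
    obtain ⟨-, hh'⟩ := entries_of_mem hh
    have h1 : algebraMap F (AdjoinRoot P) (g.1 i0 i0)
          + θ * algebraMap F (AdjoinRoot P) (g.1 i1 i0)
        = algebraMap F (AdjoinRoot P) (h.1 i0 i0)
          + θ * algebraMap F (AdjoinRoot P) (h.1 i1 i0) := hgh
    obtain ⟨h2, h3⟩ := theta_indep a b hab (algebraMap F (AdjoinRoot P)) θ hθ _ _ _ _ h1
    apply Subtype.ext
    apply Units.ext
    show g.1 = h.1
    rw [hg', hh', h2, h3]
  exact isCyclic_of_injective_ringHom f hf

/-- The parameter of the second intersection point of the line through `(1,0)` of slope `x`. -/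
noncomputable def tpar (a b x : F) : F := -(2 * x + a) / (x ^ 2 + a * x + b)

theorem tpar_mul (x : F) : tpar a b x * (x ^ 2 + a * x + b) = -(2 * x + a) := by
  unfold tpar
  exact div_mul_cancel₀ _ (D_ne a b hab x)

theorem conic_mem (x : F) : R a b (1 + tpar a b x * x) (tpar a b x) = 1 := by
  have h := tpar_mul a b hab x
  unfold R
  linear_combination (tpar a b x) * h

/-- The parametrisation of the conic by the projective line. -/
noncomputable def conicMap : Option F → {u : F × F // R a b u.1 u.2 = 1}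
  | none => ⟨(-1, 0), by unfold R; ring⟩
  | some x => ⟨(1 + tpar a b x * x, tpar a b x), conic_mem a b hab x⟩

theorem conicMap_injective [Finite F] : Function.Injective (conicMap a b hab) := by
  intro x y hxy
  rcases x with _ | x <;> rcases y with _ | y
  · rfl
  · exfalso
    have h1 := congrArg (fun u => u.1.1) hxy
    have h2 := congrArg (fun u => u.1.2) hxy
    simp only [conicMap] at h1 h2
    have h3 := tpar_mul a b hab y
    rw [← h2, zero_mul] at h3
    rw [← h2, zero_mul, add_zero] at h1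
    have h5 : (2 : F) = 0 := by linear_combination (-1 : F) * h1
    exact two_a a b hab h5 (by linear_combination h3 - y * h5)
  · exfalso
    have h1 := congrArg (fun u => u.1.1) hxy
    have h2 := congrArg (fun u => u.1.2) hxy
    simp only [conicMap] at h1 h2
    have h3 := tpar_mul a b hab x
    rw [h2, zero_mul] at h3
    rw [h2, zero_mul, add_zero] at h1
    have h5 : (2 : F) = 0 := by linear_combination h1
    exact two_a a b hab h5 (by linear_combination h3 - x * h5)
  · have h1 := congrArg (fun u => u.1.1) hxy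
    have h2 := congrArg (fun u => u.1.2) hxy
    simp only [conicMap] at h1 h2
    congr 1
    by_cases ht : tpar a b x = 0
    · have h3 := tpar_mul a b hab x
      have h4 := tpar_mul a b hab y
      rw [← h2, ht, zero_mul] at h4
      rw [ht, zero_mul] at h3
      have h5 : (2 : F) * (x - y) = 0 := by linear_combination h3 - h4
      rcases mul_eq_zero.mp h5 with h6 | h6
      · exact absurd (by linear_combination h3 - x * h6) (two_a a b hab h6)
      · exact sub_eq_zero.mp h6
    · rw [← h2] at h1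
      exact mul_left_cancel₀ ht (add_left_cancel h1)

theorem conicMap_surjective [Finite F] : Function.Surjective (conicMap a b hab) := by
  rintro ⟨⟨p, s⟩, h⟩
  have h' : R a b p s = 1 := h
  unfold R at h'
  by_cases hs : s = 0
  · subst hs
    have h1 : (p - 1) * (p + 1) = 0 := by linear_combination h'
    rcases mul_eq_zero.mp h1 with h2 | h2
    · have hp : p = 1 := by linear_combination h2
      subst hp
      by_cases h5 : (2 : F) = 0
      · refine ⟨none, ?_⟩
        apply Subtype.ext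
        show ((-1 : F), (0 : F)) = (1, 0)
        rw [Prod.mk.injEq]
        exact ⟨by linear_combination (-1 : F) * h5, rfl⟩
      · refine ⟨some (-a / 2), ?_⟩
        have h3 := tpar_mul a b hab (-a / 2)
        have h4 : (2 : F) * (-a / 2) + a = 0 := by
          field_simp
          ring
        rw [h4, neg_zero] at h3
        have h6 : tpar a b (-a / 2) = 0 := by
          rcases mul_eq_zero.mp h3 with h | h
          · exact h
          · exact absurd h (D_ne a b hab _)
        apply Subtype.ext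
        show (1 + tpar a b (-a / 2) * (-a / 2), tpar a b (-a / 2)) = ((1 : F), (0 : F))
        rw [h6, zero_mul, add_zero]
    · refine ⟨none, ?_⟩
      apply Subtype.ext
      show ((-1 : F), (0 : F)) = (p, 0)
      rw [Prod.mk.injEq]
      exact ⟨by linear_combination (-1 : F) * h2, rfl⟩
  · obtain ⟨x, hx⟩ : ∃ x, x * s = p - 1 := ⟨(p - 1) / s, div_mul_cancel₀ _ hs⟩
    refine ⟨some x, ?_⟩
    have h3 := tpar_mul a b hab x
    have h4 : s * (x ^ 2 + a * x + b) = -(2 * x + a) := by
      apply mul_left_cancel₀ hs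
      have hp : p = x * s + 1 := by linear_combination (-1 : F) * hx
      rw [hp] at h'
      linear_combination h'
    have h5 : tpar a b x = s := by
      apply mul_right_cancel₀ (D_ne a b hab x)
      rw [h3, h4]
    apply Subtype.ext
    show (1 + tpar a b x * x, tpar a b x) = (p, s)
    rw [h5, Prod.mk.injEq]
    exact ⟨by linear_combination hx, rfl⟩

theorem card_conic [Fintype F] :
    Nat.card {u : F × F // R a b u.1 u.2 = 1} = Fintype.card F + 1 := by
  rw [← Nat.card_congr (Equiv.ofBijective (conicMap a b hab)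
    ⟨conicMap_injective a b hab, conicMap_surjective a b hab⟩), Nat.card_eq_fintype_card,
    Fintype.card_option]

theorem card_rotSub [Fintype F] : Nat.card (rotSub a b) = Fintype.card F + 1 := by
  rw [← card_conic a b hab]
  apply Nat.card_congr
  exact
    { toFun := fun g => ⟨(g.1.1 i0 i0, g.1.1 i1 i0), (entries_of_mem g.2).1⟩
      invFun := fun u => ⟨rotG a b u.1.1 u.1.2 u.2, ⟨u.1.1, u.1.2, u.2, rfl⟩⟩
      left_inv := by
        rintro ⟨g, hg⟩
        apply Subtype.ext
        apply Units.ext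
        exact (entries_of_mem hg).2.symm
      right_inv := by
        rintro ⟨⟨p, s⟩, h⟩
        apply Subtype.ext
        show ((rotM a b p s) i0 i0, (rotM a b p s) i1 i0) = (p, s)
        unfold rotM
        rw [M00, M10] }

/-- The order of `GO⁻₂(q)`. -/
theorem card_iso [Fintype F] :
    Nat.card ↥(Cfsg.isometryGroup F (Cfsg.quadFormMinus 0 F a b)) = 2 * (Fintype.card F + 1) := by
  have hle := rotSub_le a b
  have h1 := Subgroup.card_mul_index
    ((rotSub a b).subgroupOf (Cfsg.isometryGroup F (Cfsg.quadFormMinus 0 F a b)))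
  have h2 : Nat.card ((rotSub a b).subgroupOf (Cfsg.isometryGroup F (Cfsg.quadFormMinus 0 F a b)))
      = Fintype.card F + 1 := by
    rw [Nat.card_congr (Subgroup.subgroupOfEquivOfLe hle).toEquiv, card_rotSub a b hab]
  have h3 : ((rotSub a b).subgroupOf
      (Cfsg.isometryGroup F (Cfsg.quadFormMinus 0 F a b))).index = 2 := by
    rw [Subgroup.index_eq_two_iff]
    refine ⟨⟨sigG a, sigG_mem a b⟩, ?_⟩
    rintro ⟨g, hg⟩
    obtain ⟨hR, h4 | h4⟩ := cases_of_mem a b hab g hg
    · right
      refine ⟨⟨_, _, hR, h4⟩, ?_⟩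
      rintro ⟨p', s', -, h5⟩
      have h6 : g.1 * sigM a = rotM a b p' s' := h5
      rw [h4] at h6
      exact rot_ne_ref a b hab _ _ _ _ hR h6
    · left
      have h7 : g.1 * sigM a = rotM a b (g.1 i0 i0) (g.1 i1 i0) := by
        conv_lhs => rw [h4]
        rw [Matrix.mul_assoc, sigM_mul_self, Matrix.mul_one]
      refine ⟨⟨_, _, hR, h7⟩, ?_⟩
      · rintro ⟨p', s', -, h5⟩
        have h6 : g.1 = rotM a b p' s' := h5
        rw [h4] at h6
        exact rot_ne_ref a b hab _ _ _ _ hR h6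
  rw [← h1, h2, h3, mul_comm]

/-- `GO⁻₂(q)` is dihedral of order `2(q+1)`. -/
theorem iso_dihedral [Fintype F] :
    Nonempty (↥(Cfsg.isometryGroup F (Cfsg.quadFormMinus 0 F a b))
      ≃* DihedralGroup (Fintype.card F + 1)) := by
  have hle := rotSub_le a b
  have := isCyclic_rotSub a b hab
  obtain ⟨c0, hc0⟩ := IsCyclic.exists_generator (α := rotSub a b)
  have hord : orderOf c0 = Fintype.card F + 1 := by
    rw [orderOf_eq_card_of_forall_mem_zpowers hc0, card_rotSub a b hab]
  obtain ⟨hR, hc⟩ := entries_of_mem c0.2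
  apply Cfsg.Agent.Lib.Helper18.DihedralEquiv.dihedral_equiv (Fintype.card F + 1)
    (Nat.succ_ne_zero _) ⟨c0.1, hle c0.2⟩ ⟨sigG a, sigG_mem a b⟩
  · rw [← hord, ← Subgroup.orderOf_coe c0, ← Subgroup.orderOf_coe]
  · apply Subtype.ext
    apply Units.ext
    show ((sigG a) ^ 2).1 = 1
    rw [pow_two]
    exact sigM_mul_self a
  · rw [eq_inv_iff_mul_eq_one]
    have h1 : (⟨sigG a, sigG_mem a b⟩ :
        ↥(Cfsg.isometryGroup F (Cfsg.quadFormMinus 0 F a b)))⁻¹ = ⟨sigG a, sigG_mem a b⟩ := by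
      rw [inv_eq_iff_mul_eq_one]
      apply Subtype.ext
      apply Units.ext
      exact sigM_mul_self a
    rw [h1]
    apply Subtype.ext
    apply Units.ext
    show sigM a * c0.1.1 * sigM a * c0.1.1 = 1
    rw [hc, sig_rotM_sig, rotM_conj_mul a b _ _ hR]
  · intro hmem
    obtain ⟨k, hk⟩ := Subgroup.mem_zpowers_iff.mp hmem
    have h2 : sigG a = (c0.1) ^ k := by
      have := congrArg Subtype.val hk
      rw [Subgroup.coe_zpow] at this
      exact this.symm
    apply sig_not_mem a b hab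
    rw [h2]
    exact Subgroup.zpow_mem _ c0.2 k
  · exact card_iso a b hab

end aniso

end Cfsg.Agent.Lib.Helper2.GOMinus2
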