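import Mathlib
import Cfsg.Prelude.Def_Classical
import Cfsg.Agent.Lib.Helper2.Ext2
import Cfsg.Agent.Lib.Helper15.CenterOmega
import Cfsg.Agent.S0287
import Cfsg.Agent.S0790

set_option autoImplicit false

namespace Cfsg.Agent.Lib.Helper2.Klein6

open scoped Matrix
open Cfsg.Agent.Lib.Helper2.Ext2 Cfsg.Agent.Lib.Helper2.SLGen

variable {F : Type*} [Field F]

/-- The sign attached to an index of the exterior square. -/
def sg : I6 → F := Sum.elim (fun _ => 1) ![1, -1, 1]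

theorem sg_l (i : Fin 3) : (sg (Sum.inl i) : F) = 1 := rfl
theorem sg_r0 : (sg (Sum.inr 0) : F) = 1 := rfl
theorem sg_r1 : (sg (Sum.inr 1) : F) = -1 := rfl
theorem sg_r2 : (sg (Sum.inr 2) : F) = 1 := rfl

theorem sg_sq (I : I6) : (sg I : F) * sg I = 1 := by
  rcases I with i | i
  · rw [sg_l, mul_one]
  · fin_cases i
    · show (sg (Sum.inr 0) : F) * sg (Sum.inr 0) = 1
      rw [sg_r0, mul_one]
    · show (sg (Sum.inr 1) : F) * sg (Sum.inr 1) = 1
      rw [sg_r1]
      ring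
    · show (sg (Sum.inr 2) : F) * sg (Sum.inr 2) = 1
      rw [sg_r2, mul_one]

/-- The signed compound matrix, preserving the hyperbolic form. -/
def LamS (g : Matrix (Fin 4) (Fin 4) F) : Matrix I6 I6 F :=
  Matrix.of fun I J => sg I * sg J * Lam g I J

theorem LamS_apply (g : Matrix (Fin 4) (Fin 4) F) (I J : I6) :
    LamS g I J = sg I * sg J * Lam g I J := rfl

theorem LamS_mul (g h : Matrix (Fin 4) (Fin 4) F) : LamS (g * h) = LamS g * LamS h := by
  ext I J
  rw [LamS_apply, Lam_mul, Matrix.mul_apply, Matrix.mul_apply, Finset.mul_sum]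
  apply Finset.sum_congr rfl
  intro K _
  rw [LamS_apply, LamS_apply]
  linear_combination (sg I * sg J * Lam g I K * Lam h K J) * (sg_sq (F := F) K).symm

theorem LamS_one : LamS (1 : Matrix (Fin 4) (Fin 4) F) = 1 := by
  ext I J
  rw [LamS_apply, Lam_one]
  by_cases h : I = J
  · subst h
    rw [Matrix.one_apply_eq, mul_one, sg_sq]
  · rw [Matrix.one_apply_ne h, mul_zero]

theorem Lam_smul (r : F) (g : Matrix (Fin 4) (Fin 4) F) : Lam (r • g) = (r * r) • Lam g := by
  ext I J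
  simp only [Lam, Matrix.of_apply, Matrix.smul_apply, smul_eq_mul]
  ring

theorem LamS_smul_one (r : F) : LamS (r • (1 : Matrix (Fin 4) (Fin 4) F)) = (r * r) • 1 := by
  rw [← LamS_one]
  ext I J
  rw [LamS_apply, Lam_smul, Matrix.smul_apply, Matrix.smul_apply, LamS_apply, smul_eq_mul,
    smul_eq_mul]
  ring

set_option maxHeartbeats 1600000 in
theorem tvS (i j : Fin 4) (hij : i ≠ j) (c : F) (v : I6 → F) :
    Cfsg.quadFormPlus 3 F (LamS (Matrix.transvection i j c) *ᵥ v) = Cfsg.quadFormPlus 3 F v := by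
  fin_cases i <;> fin_cases j <;> first | exact absurd rfl hij | skip
  all_goals
    simp [Cfsg.quadFormPlus, LamS, Lam, Matrix.mulVec, dotProduct, Fintype.sum_sum_type,
      Fin.sum_univ_three, pr_l0, pr_l1, pr_l2, pr_r0, pr_r1, pr_r2, sg_l, sg_r0, sg_r1, sg_r2,
      Matrix.transvection, Matrix.single_apply, Matrix.one_apply]
    try ring

/-- The signed exterior square as a monoid homomorphism. -/
def lamMF : Matrix.SpecialLinearGroup (Fin 4) F →* Matrix I6 I6 F where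
  toFun A := LamS A.1
  map_one' := LamS_one
  map_mul' A B := LamS_mul A.1 B.1

theorem lam_isoF (A : Matrix.SpecialLinearGroup (Fin 4) F) :
    ∀ v : I6 → F, Cfsg.quadFormPlus 3 F (LamS A.1 *ᵥ v) = Cfsg.quadFormPlus 3 F v := by
  refine transvection_induction (fun A : Matrix.SpecialLinearGroup (Fin 4) F =>
    ∀ v : I6 → F, Cfsg.quadFormPlus 3 F (LamS A.1 *ᵥ v) = Cfsg.quadFormPlus 3 F v) ?_ ?_ A
  · intro i j hij c v
    have h1 : (Matrix.SpecialLinearGroup.transvection hij c).1 = Matrix.transvection i j c :=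
      Matrix.SpecialLinearGroup.transvection_coe hij c
    rw [h1]
    exact tvS i j hij c v
  · intro A B hA hB v
    have h1 : (A * B).1 = A.1 * B.1 := rfl
    rw [h1, LamS_mul, ← Matrix.mulVec_mulVec, hA, hB]

/-- The signed exterior square as a unit. -/
def lamU (A : Matrix.SpecialLinearGroup (Fin 4) F) : Matrix.GeneralLinearGroup I6 F :=
  ⟨LamS A.1, LamS (A⁻¹).1, by
    rw [← LamS_mul, ← Matrix.SpecialLinearGroup.coe_mul, mul_inv_cancel,
      Matrix.SpecialLinearGroup.coe_one, LamS_one], by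
    rw [← LamS_mul, ← Matrix.SpecialLinearGroup.coe_mul, inv_mul_cancel,
      Matrix.SpecialLinearGroup.coe_one, LamS_one]⟩

theorem lamU_val (A : Matrix.SpecialLinearGroup (Fin 4) F) :
    ((lamU A : Matrix.GeneralLinearGroup I6 F) : Matrix I6 I6 F) = LamS A.1 := rfl

theorem lamU_mem (A : Matrix.SpecialLinearGroup (Fin 4) F) :
    lamU A ∈ Cfsg.isometryGroup F (Cfsg.quadFormPlus 3 F) := by
  intro u _
  exact lam_isoF A u

/-- The exterior square as a homomorphism into the orthogonal group. -/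
def lamOF : Matrix.SpecialLinearGroup (Fin 4) F →*
    ↥(Cfsg.isometryGroup F (Cfsg.quadFormPlus 3 F)) where
  toFun A := ⟨lamU A, lamU_mem A⟩
  map_one' := Subtype.ext (Units.ext LamS_one)
  map_mul' A B := Subtype.ext (Units.ext (LamS_mul A.1 B.1))

theorem lamOF_val (A : Matrix.SpecialLinearGroup (Fin 4) F) :
    (((lamOF A : ↥(Cfsg.isometryGroup F (Cfsg.quadFormPlus 3 F))) :
      Matrix.GeneralLinearGroup I6 F) : Matrix I6 I6 F) = LamS A.1 := rfl

theorem lamOF_mem (A : Matrix.SpecialLinearGroup (Fin 4) F) :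
    lamOF A ∈ Cfsg.Omega F (Cfsg.quadFormPlus 3 F) := by
  have h1 : commutator (Matrix.SpecialLinearGroup (Fin 4) F) = ⊤ :=
    Cfsg.Agent.Lib.Helper2.SLGen.commutator_eq_top (by simp)
  have h3 : A ∈ commutator (Matrix.SpecialLinearGroup (Fin 4) F) := by
    rw [h1]
    exact Subgroup.mem_top _
  have h4 : lamOF A ∈ (commutator (Matrix.SpecialLinearGroup (Fin 4) F)).map lamOF :=
    Subgroup.mem_map_of_mem _ h3
  unfold commutator at h4
  rw [Subgroup.map_commutator] at h4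
  exact Subgroup.commutator_mono le_top le_top h4

/-- The exterior square as a homomorphism into `Ω`. -/
def lamΩ : Matrix.SpecialLinearGroup (Fin 4) F →* ↥(Cfsg.Omega F (Cfsg.quadFormPlus 3 F)) :=
  lamOF.codRestrict _ lamOF_mem

/-- The exterior square as a homomorphism into `PΩ`. -/
def lamP : Matrix.SpecialLinearGroup (Fin 4) F →* Cfsg.POmega F (Cfsg.quadFormPlus 3 F) :=
  (QuotientGroup.mk' _).comp lamΩ

theorem center_le_ker :
    Subgroup.center (Matrix.SpecialLinearGroup (Fin 4) F) ≤ (lamP (F := F)).ker := by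
  intro z hz
  obtain ⟨r, hr, hz'⟩ := Matrix.SpecialLinearGroup.mem_center_iff.mp hz
  rw [MonoidHom.mem_ker]
  show (QuotientGroup.mk (lamΩ z) : Cfsg.POmega F (Cfsg.quadFormPlus 3 F)) = 1
  rw [QuotientGroup.eq_one_iff, Subgroup.mem_center_iff]
  intro g
  apply Subtype.ext
  apply Subtype.ext
  apply Units.ext
  have h1 : LamS z.1 = (r * r) • (1 : Matrix I6 I6 F) := by
    rw [← hz', Matrix.scalar_apply, ← Matrix.smul_one_eq_diagonal]
    exact LamS_smul_one r
  show (g.1.1.1 : Matrix I6 I6 F) * LamS z.1 = LamS z.1 * g.1.1.1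
  rw [h1, Matrix.mul_smul, Matrix.smul_mul, mul_one, one_mul]

theorem lamP_ne : lamP (Matrix.SpecialLinearGroup.transvection (F := F)
    (i := (0 : Fin 4)) (j := 1) (by decide) 1) ≠ 1 := by
  intro h
  have h1 : lamΩ (Matrix.SpecialLinearGroup.transvection (F := F)
      (i := (0 : Fin 4)) (j := 1) (by decide) 1) ∈
      Subgroup.center ↥(Cfsg.Omega F (Cfsg.quadFormPlus 3 F)) :=
    (QuotientGroup.eq_one_iff _).mp h
  rw [Subgroup.mem_center_iff] at h1
  have h2 := h1 (lamΩ (Matrix.SpecialLinearGroup.transvection (F := F)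
      (i := (1 : Fin 4)) (j := 2) (by decide) 1))
  have h3 := congrArg (fun x : ↥(Cfsg.Omega F (Cfsg.quadFormPlus 3 F)) =>
    (x.1.1.1 : Matrix I6 I6 F) (Sum.inl 0) (Sum.inr 2)) h2
  have h4 : (LamS (Matrix.transvection (1 : Fin 4) 2 (1 : F)) *
      LamS (Matrix.transvection (0 : Fin 4) 1 (1 : F))) (Sum.inl 0) (Sum.inr 2)
      = (LamS (Matrix.transvection (0 : Fin 4) 1 (1 : F)) *
      LamS (Matrix.transvection (1 : Fin 4) 2 (1 : F))) (Sum.inl 0) (Sum.inr 2) := h3
  rw [← LamS_mul, ← LamS_mul] at h4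
  simp [LamS_apply, Lam, pr_l0, pr_r2, Matrix.mul_apply, Fin.sum_univ_four, Matrix.transvection,
    Matrix.single_apply, Matrix.one_apply, sg_l, sg_r2] at h4

/-- The induced homomorphism on `PSL₄`. -/
def lamL : Matrix.ProjectiveSpecialLinearGroup (Fin 4) F →*
    Cfsg.POmega F (Cfsg.quadFormPlus 3 F) :=
  QuotientGroup.lift _ lamP center_le_ker

theorem lamL_injective : Function.Injective (lamL (F := F)) := by
  have := Cfsg.Agent.S0249.result (F := F) 4 (by norm_num)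
  rw [← MonoidHom.ker_eq_bot_iff]
  rcases (MonoidHom.normal_ker (lamL (F := F))).eq_bot_or_eq_top with h | h
  · exact h
  · exfalso
    have h1 : ((Matrix.SpecialLinearGroup.transvection (F := F)
      (i := (0 : Fin 4)) (j := 1) (by decide) 1 : Matrix.SpecialLinearGroup (Fin 4) F) :
        Matrix.ProjectiveSpecialLinearGroup (Fin 4) F) ∈ (lamL (F := F)).ker := by
      rw [h]
      exact Subgroup.mem_top _
    rw [MonoidHom.mem_ker] at h1
    exact lamP_ne h1

theorem card_pomega_plus3 [Fintype F] {q : ℕ} (hF : Fintype.card F = q) :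
    Nat.gcd 4 (q ^ 3 - 1) * Nat.card (Cfsg.POmega F (Cfsg.quadFormPlus 3 F))
      = q ^ 6 * (q ^ 3 - 1) * ((q ^ 2 - 1) * (q ^ 4 - 1)) := by
  classical
  have hq1 : 1 ≤ q := by rw [← hF]; exact Fintype.card_pos
  have hO := Cfsg.Agent.S0287.result hF 3 (by omega)
  have hn : 5 ≤ Fintype.card (Fin 3 ⊕ Fin 3) := by
    rw [Fintype.card_sum, Fintype.card_fin]
    omega
  obtain ⟨u, hu0, hQu⟩ : ∃ u : Fin 3 ⊕ Fin 3 → F, u ≠ 0 ∧
      Cfsg.Agent.Lib.Helper15.StdForms.plusQF 3 F u = 0 := by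
    refine ⟨Pi.single (Sum.inl ⟨0, by omega⟩) 1, ?_, ?_⟩
    · intro h
      have h' := congrFun h (Sum.inl ⟨0, by omega⟩)
      rw [Pi.single_eq_same] at h'
      exact one_ne_zero h'
    · rw [Cfsg.Agent.Lib.Helper15.StdForms.plusQF_apply]
      unfold Cfsg.quadFormPlus
      apply Finset.sum_eq_zero
      intro i _
      simp [Pi.single_apply]
  have h := Cfsg.Agent.Lib.Helper15.CenterOmega.card_pomega_gcd hF
    (Cfsg.Agent.Lib.Helper15.StdForms.plusQF 3 F)
    (Cfsg.Agent.Lib.Helper15.StdForms.plus_nondeg 3) hn u hu0 hQu (q ^ 3 - 1)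
    (q ^ (3 * (3 - 1)) * (q ^ 3 - 1) * ∏ i ∈ Finset.range (3 - 1), (q ^ (2 * (i + 1)) - 1))
    (by
      rw [Cfsg.Agent.Lib.Helper15.StdForms.coe_plusQF, hO]
      ring)
    (fun hq => by
      have hqm' : Even (q ^ 3) := hq.pow_of_ne_zero (by omega)
      obtain ⟨t, ht⟩ := hqm'
      have hqm : 1 ≤ q ^ 3 := Nat.one_le_pow 3 q hq1
      exact ⟨t - 1, by omega⟩)
    (fun hq => by
      have hqm' : Odd (q ^ 3) := hq.pow
      obtain ⟨t, ht⟩ := hqm'
      exact ⟨t, by omega⟩)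
    (fun hq => by
      have hqm : 1 ≤ q ^ 3 := Nat.one_le_pow 3 q hq1
      rw [Cfsg.Agent.Lib.Helper15.StdForms.coe_plusQF, Cfsg.Agent.S0790.result hF hq 3 (by omega)]
      omega)
  rw [Cfsg.Agent.Lib.Helper15.StdForms.coe_plusQF] at h
  rw [h]
  norm_num [Finset.prod_range_succ]

theorem gcd_aux (q : ℕ) (hq : 1 ≤ q) : Nat.gcd 4 (q ^ 3 - 1) = Nat.gcd 4 (q - 1) := by
  have h1 : q ^ 3 - 1 = (q - 1) * (q ^ 2 + q + 1) := by
    obtain ⟨k, rfl⟩ : ∃ k, q = k + 1 := ⟨q - 1, by omega⟩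
    rw [Nat.add_sub_cancel]
    apply Nat.sub_eq_of_eq_add
    ring
  rw [h1]
  apply Nat.Coprime.gcd_mul_right_cancel_right
  have hodd : Odd (q ^ 2 + q + 1) := by
    have h2 : Even (q ^ 2 + q) := by
      have h3 : q ^ 2 + q = q * (q + 1) := by ring
      rw [h3]
      exact Nat.even_mul_succ_self q
    exact h2.add_one
  have h4 : Nat.Coprime (q ^ 2 + q + 1) (2 ^ 2) :=
    Nat.Coprime.pow_right 2 (Nat.coprime_two_right.2 hodd)
  exact h4

theorem card_eq [Fintype F] :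
    Nat.card (Matrix.ProjectiveSpecialLinearGroup (Fin 4) F)
      = Nat.card (Cfsg.POmega F (Cfsg.quadFormPlus 3 F)) := by
  classical
  obtain ⟨q, hF⟩ : ∃ q, Fintype.card F = q := ⟨_, rfl⟩
  have hq2 : 2 ≤ q := by rw [← hF]; exact Fintype.one_lt_card
  have hPO := card_pomega_plus3 hF
  rw [gcd_aux q (by omega)] at hPO
  have hPSL : Nat.gcd 4 (q - 1) * ((q - 1) *
      Nat.card (Matrix.ProjectiveSpecialLinearGroup (Fin 4) F))
      = (q ^ 4 - q ^ 0) * (q ^ 4 - q ^ 1) * (q ^ 4 - q ^ 2) * (q ^ 4 - q ^ 3) := by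
    have h := Cfsg.Agent.S0243.result hF 4 (by norm_num)
    rw [Fin.prod_univ_four] at h
    exact h
  have hA : q ^ 4 - q ^ 1 = q * (q ^ 3 - 1) := by
    rw [Nat.mul_sub, mul_one, pow_one]
    ring_nf
  have hB : q ^ 4 - q ^ 2 = q ^ 2 * (q ^ 2 - 1) := by
    rw [Nat.mul_sub, mul_one]
    ring_nf
  have hC : q ^ 4 - q ^ 3 = q ^ 3 * (q - 1) := by
    rw [Nat.mul_sub, mul_one]
    ring_nf
  rw [hA, hB, hC, pow_zero] at hPSL
  have hg : 0 < Nat.gcd 4 (q - 1) := Nat.gcd_pos_of_pos_left _ (by norm_num)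
  have hq1 : 0 < q - 1 := by omega
  have h5 : (Nat.gcd 4 (q - 1) * (q - 1)) *
      Nat.card (Matrix.ProjectiveSpecialLinearGroup (Fin 4) F)
      = (Nat.gcd 4 (q - 1) * (q - 1)) * Nat.card (Cfsg.POmega F (Cfsg.quadFormPlus 3 F)) := by
    calc (Nat.gcd 4 (q - 1) * (q - 1)) * Nat.card (Matrix.ProjectiveSpecialLinearGroup (Fin 4) F)
        = Nat.gcd 4 (q - 1) * ((q - 1) *
          Nat.card (Matrix.ProjectiveSpecialLinearGroup (Fin 4) F)) := by ring
      _ = (q ^ 4 - 1) * (q * (q ^ 3 - 1)) * (q ^ 2 * (q ^ 2 - 1)) * (q ^ 3 * (q - 1)) := hPSL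
      _ = (q - 1) * (q ^ 6 * (q ^ 3 - 1) * ((q ^ 2 - 1) * (q ^ 4 - 1))) := by ring
      _ = (q - 1) * (Nat.gcd 4 (q - 1) * Nat.card (Cfsg.POmega F (Cfsg.quadFormPlus 3 F))) := by
          rw [hPO]
      _ = _ := by ring
  exact Nat.eq_of_mul_eq_mul_left (Nat.mul_pos hg hq1) h5

theorem main [Fintype F] : Nonempty (Cfsg.POmega F (Cfsg.quadFormPlus 3 F) ≃*
    Matrix.ProjectiveSpecialLinearGroup (Fin 4) F) := by
  classical
  have : Finite (Cfsg.POmega F (Cfsg.quadFormPlus 3 F)) := by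
    unfold Cfsg.POmega
    infer_instance
  have hb : Function.Bijective (lamL (F := F)) :=
    (Nat.bijective_iff_injective_and_card _).2 ⟨lamL_injective, card_eq⟩
  exact ⟨(MulEquiv.ofBijective lamL hb).symm⟩

end Cfsg.Agent.Lib.Helper2.Klein6
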