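import Mathlib
import Cfsg.Prelude.Def_Classical
import Cfsg.Agent.Lib.Helper2.QuadExt
import Cfsg.Agent.Lib.Helper2.Klein6
import Cfsg.Agent.Lib.Helper2.Unitary3

set_option autoImplicit false

namespace Cfsg.Agent.Lib.Helper2.Herm6

open scoped Matrix
open Cfsg.Agent.Lib.Helper2.QuadExt Cfsg.Agent.Lib.Helper2.Ext2 Cfsg.Agent.Lib.Helper2.Klein6
open Cfsg.Agent.Lib.Helper2.Unitary Cfsg.Agent.Lib.Helper2.HermCount

variable {F K : Type*} [Field F] [Field K]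

/-- The index type of the six-dimensional minus-type orthogonal space. -/
abbrev J6 : Type := (Fin 2 ⊕ Fin 2) ⊕ Fin 2

/-- The matrix of the basis of the fixed space of the twisted swap. -/
def Bh (ζ ζ' ε : K) : Matrix I6 J6 K :=
  Matrix.of (Sum.elim
    ![Sum.elim (Sum.elim ![1, ζ] ![-(ζ * ζ' * ((ζ - ζ')⁻¹) ^ 2), ζ' * ((ζ - ζ')⁻¹) ^ 2]) ![0, 0],
      Sum.elim (Sum.elim ![ε, ε * ζ]
        ![-(ε * ζ ^ 2 * ((ζ - ζ')⁻¹) ^ 2), ε * ζ * ((ζ - ζ')⁻¹) ^ 2]) ![0, 0],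
      Sum.elim (Sum.elim ![0, 0] ![0, 0]) ![1, ζ]]
    ![Sum.elim (Sum.elim ![1, ζ'] ![-(ζ * ζ' * ((ζ - ζ')⁻¹) ^ 2), ζ * ((ζ - ζ')⁻¹) ^ 2]) ![0, 0],
      Sum.elim (Sum.elim ![-ε⁻¹, -ε⁻¹ * ζ']
        ![ε⁻¹ * ζ' ^ 2 * ((ζ - ζ')⁻¹) ^ 2, -(ε⁻¹ * ζ' * ((ζ - ζ')⁻¹) ^ 2)]) ![0, 0],
      Sum.elim (Sum.elim ![0, 0] ![0, 0]) ![1, ζ']])

/-- The inverse matrix. -/
def Ch (ζ ζ' ε : K) : Matrix J6 I6 K :=
  Matrix.of (Sum.elim
    (Sum.elim
      ![Sum.elim ![-(ζ * ζ' * ((ζ - ζ')⁻¹) ^ 2), ε⁻¹ * ζ' ^ 2 * ((ζ - ζ')⁻¹) ^ 2, 0]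
          ![-(ζ * ζ' * ((ζ - ζ')⁻¹) ^ 2), -(ε * ζ ^ 2 * ((ζ - ζ')⁻¹) ^ 2), 0],
        Sum.elim ![ζ * ((ζ - ζ')⁻¹) ^ 2, -(ε⁻¹ * ζ' * ((ζ - ζ')⁻¹) ^ 2), 0]
          ![ζ' * ((ζ - ζ')⁻¹) ^ 2, ε * ζ * ((ζ - ζ')⁻¹) ^ 2, 0]]
      ![Sum.elim ![1, -ε⁻¹, 0] ![1, ε, 0],
        Sum.elim ![ζ', -ε⁻¹ * ζ', 0] ![ζ, ε * ζ, 0]])
    ![Sum.elim ![0, 0, -(ζ' * (ζ - ζ')⁻¹)] ![0, 0, ζ * (ζ - ζ')⁻¹],
      Sum.elim ![0, 0, (ζ - ζ')⁻¹] ![0, 0, -(ζ - ζ')⁻¹]])

set_option maxHeartbeats 1600000 in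
theorem Ch_mul_Bh (ζ ζ' ε : K) (h : ζ ≠ ζ') (hε : ε ≠ 0) : Ch ζ ζ' ε * Bh ζ ζ' ε = 1 := by
  have hne : ζ - ζ' ≠ 0 := sub_ne_zero.mpr h
  ext i j
  rcases i with (i | i) | i <;> rcases j with (j | j) | j <;> fin_cases i <;> fin_cases j <;>
    simp [Ch, Bh, Matrix.mul_apply, Fintype.sum_sum_type, Fin.sum_univ_two, Fin.sum_univ_three,
      Matrix.one_apply]
  all_goals (try field_simp)
  all_goals (try ring)

set_option maxHeartbeats 1600000 in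
theorem Bh_mul_Ch (ζ ζ' ε : K) (h : ζ ≠ ζ') (hε : ε ≠ 0) : Bh ζ ζ' ε * Ch ζ ζ' ε = 1 := by
  have hne : ζ - ζ' ≠ 0 := sub_ne_zero.mpr h
  ext i j
  rcases i with i | i <;> rcases j with j | j <;> fin_cases i <;> fin_cases j <;>
    simp [Ch, Bh, Matrix.mul_apply, Fintype.sum_sum_type, Fin.sum_univ_two, Fin.sum_univ_three,
      Matrix.one_apply]
  all_goals (try field_simp)
  all_goals (try ring)

set_option maxHeartbeats 1600000 in
theorem Bh_map (σ : K →+* K) (ζ ζ' ε : K) (h : ζ ≠ ζ') (hε : ε ≠ 0) (h1 : σ ζ = ζ')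
    (h2 : σ ζ' = ζ) (h3 : σ ε = -ε⁻¹) :
    (Bh ζ ζ' ε).map σ = (Bh ζ ζ' ε).submatrix Sum.swap id := by
  have hne : ζ - ζ' ≠ 0 := sub_ne_zero.mpr h
  have hd : (ζ' - ζ) ^ 2 = (ζ - ζ') ^ 2 := by ring
  ext i j
  show σ (Bh ζ ζ' ε i j) = Bh ζ ζ' ε (Sum.swap i) j
  rcases i with i | i <;> rcases j with (j | j) | j <;> fin_cases i <;> fin_cases j <;>
    simp [Bh, h1, h2, h3, hd]
  all_goals first | (left; ring) | ring

theorem Q_rel {q : ℕ} {a b : F} (S : Setup F K q a b) (ε : K) (hε : ε ≠ 0) (v : J6 → F) :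
    Cfsg.quadFormPlus 3 K (Bh S.ζ S.ζ' ε *ᵥ (fun i => S.φ (v i)))
      = S.φ (Cfsg.quadFormMinus 2 F a b v) := by
  have hne : S.ζ - S.ζ' ≠ 0 := sub_ne_zero.mpr S.ne
  simp [Cfsg.quadFormPlus, Cfsg.quadFormMinus, Bh, Matrix.mulVec, dotProduct,
    Fintype.sum_sum_type, Fin.sum_univ_two, Fin.sum_univ_three]
  rw [← S.add, ← S.mul]
  field_simp
  ring

theorem LamS_map (σ : K →+* K) (g : Matrix (Fin 4) (Fin 4) K) :
    (LamS g).map σ = LamS (g.map σ) := by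
  ext I J
  show σ (LamS g I J) = LamS (g.map σ) I J
  have hs : ∀ I : I6, σ (sg I) = sg I := by
    intro I
    rcases I with i | i
    · rw [sg_l, map_one]
    · fin_cases i
      · show σ (sg (Sum.inr 0)) = sg (Sum.inr 0)
        rw [sg_r0, map_one]
      · show σ (sg (Sum.inr 1)) = sg (Sum.inr 1)
        rw [sg_r1, map_neg, map_one]
      · show σ (sg (Sum.inr 2)) = sg (Sum.inr 2)
        rw [sg_r2, map_one]
  rw [LamS_apply, LamS_apply, map_mul, map_mul, hs, hs]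
  simp [Lam]

theorem LamS_transpose (g : Matrix (Fin 4) (Fin 4) K) : LamS gᵀ = (LamS g)ᵀ := by
  ext I J
  rw [Matrix.transpose_apply, LamS_apply, LamS_apply]
  simp only [Lam, Matrix.of_apply, Matrix.transpose_apply]
  ring

/-- The polar form of the hyperbolic form. -/
def pol (u v : I6 → K) : K := ∑ a : I6, u a * v (Sum.swap a)

theorem q_add (u v : I6 → K) : Cfsg.quadFormPlus 3 K (u + v)
    = Cfsg.quadFormPlus 3 K u + Cfsg.quadFormPlus 3 K v + pol u v := by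
  simp [Cfsg.quadFormPlus, pol, Fintype.sum_sum_type, Fin.sum_univ_three]
  ring

theorem LamS_swap (g : Matrix (Fin 4) (Fin 4) K) (hg : g.det = 1) :
    (LamS g)ᵀ * (LamS g).submatrix Sum.swap Sum.swap = 1 := by
  have hiso := lam_isoF (⟨g, hg⟩ : Matrix.SpecialLinearGroup (Fin 4) K)
  have hpol : ∀ u v : I6 → K, pol (LamS g *ᵥ u) (LamS g *ᵥ v) = pol u v := by
    intro u v
    have h1 := hiso (u + v)
    rw [Matrix.mulVec_add, q_add, q_add, hiso u, hiso v] at h1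
    exact add_left_cancel h1
  ext I J
  have h2 := hpol (Pi.single I 1) (Pi.single (Sum.swap J) 1)
  rw [Matrix.mulVec_single_one, Matrix.mulVec_single_one] at h2
  rw [Matrix.mul_apply]
  have h3 : pol (Pi.single I (1 : K)) (Pi.single (Sum.swap J) 1) = (1 : Matrix I6 I6 K) I J := by
    unfold pol
    rw [Finset.sum_eq_single I]
    · rw [Pi.single_eq_same, one_mul, Matrix.one_apply]
      by_cases hIJ : I = J
      · subst hIJ
        rw [Pi.single_eq_same, if_pos rfl]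
      · rw [if_neg hIJ, Pi.single_eq_of_ne]
        intro h
        exact hIJ (Sum.swap_rightInverse.injective h)
    · intro b _ hb
      rw [Pi.single_eq_of_ne hb, zero_mul]
    · intro h
      exact absurd (Finset.mem_univ I) h
  rw [← h3, ← h2]
  rfl

theorem LamS_unitary (σ : K →+* K) (g : Matrix (Fin 4) (Fin 4) K) (hg : g.det = 1)
    (hU : gᵀ * g.map σ = 1) : (LamS g).map σ = (LamS g).submatrix Sum.swap Sum.swap := by
  have h1 : (LamS g)ᵀ * (LamS g).map σ = 1 := by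
    rw [LamS_map, ← LamS_transpose, ← LamS_mul, hU, LamS_one]
  have h2 := LamS_swap g hg
  have h3 : (LamS g).map σ * (LamS g)ᵀ = 1 := mul_eq_one_comm.mp h1
  calc (LamS g).map σ = (LamS g).map σ * ((LamS g)ᵀ * (LamS g).submatrix Sum.swap Sum.swap) := by
        rw [h2, Matrix.mul_one]
    _ = (LamS g).submatrix Sum.swap Sum.swap := by
        rw [← Matrix.mul_assoc, h3, Matrix.one_mul]

section main

variable [Fintype K] {q : ℕ} (hK : Fintype.card K = q ^ 2) {a b : F} (S : Setup F K q a b)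
  (ε : K) (hε : ε * ε ^ q = -1)

/-- The matrix over the big field. -/
def MK (g : Matrix (Fin 4) (Fin 4) K) : Matrix J6 J6 K :=
  Ch S.ζ S.ζ' ε * LamS g * Bh S.ζ S.ζ' ε

omit [Fintype K] in
theorem eps_ne (hε : ε * ε ^ q = -1) : ε ≠ 0 := by
  rintro rfl
  rw [zero_mul] at hε
  exact one_ne_zero (neg_eq_zero.mp hε.symm)

omit [Fintype K] in
include hε in
theorem MK_mul (g g' : Matrix (Fin 4) (Fin 4) K) :
    MK S ε (g * g') = MK S ε g * MK S ε g' := by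
  have hBC := Bh_mul_Ch S.ζ S.ζ' ε S.ne (eps_ne ε hε)
  unfold MK
  rw [LamS_mul]
  have h : Ch S.ζ S.ζ' ε * LamS g * Bh S.ζ S.ζ' ε * (Ch S.ζ S.ζ' ε * LamS g' * Bh S.ζ S.ζ' ε)
      = Ch S.ζ S.ζ' ε * LamS g * (Bh S.ζ S.ζ' ε * Ch S.ζ S.ζ' ε) * LamS g' * Bh S.ζ S.ζ' ε := by
    simp only [Matrix.mul_assoc]
  rw [h, hBC, Matrix.mul_one]
  simp only [Matrix.mul_assoc]

omit [Fintype K] in
include hε in
theorem MK_one : MK S ε 1 = 1 := by
  rw [MK, LamS_one, Matrix.mul_one, Ch_mul_Bh _ _ _ S.ne (eps_ne ε hε)]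

include hε in
theorem frob_eps : frob hK ε = -ε⁻¹ := by
  have h0 := eps_ne ε hε
  rw [frob_apply]
  field_simp
  linear_combination hε

include hε in
theorem Bh_frob : (Bh S.ζ S.ζ' ε).map (frob hK) = (Bh S.ζ S.ζ' ε).submatrix Sum.swap id :=
  Bh_map (frob hK) S.ζ S.ζ' ε S.ne (eps_ne ε hε) S.pow1 S.pow2 (frob_eps hK ε hε)

include hε in
theorem Ch_frob : (Ch S.ζ S.ζ' ε).map (frob hK) = (Ch S.ζ S.ζ' ε).submatrix id Sum.swap := by
  have hBC := Bh_mul_Ch S.ζ S.ζ' ε S.ne (eps_ne ε hε)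
  have hCB := Ch_mul_Bh S.ζ S.ζ' ε S.ne (eps_ne ε hε)
  have h1 : (Ch S.ζ S.ζ' ε).map (frob hK) * (Bh S.ζ S.ζ' ε).map (frob hK)
      = (1 : Matrix J6 J6 K) := by
    rw [← Matrix.map_mul, hCB, Matrix.map_one _ (map_zero _) (map_one _)]
  have h2 : (Bh S.ζ S.ζ' ε).map (frob hK) * (Ch S.ζ S.ζ' ε).submatrix id Sum.swap
      = (1 : Matrix I6 I6 K) := by
    rw [Bh_frob hK S ε hε]
    have h3 := Matrix.submatrix_mul (Bh S.ζ S.ζ' ε) (Ch S.ζ S.ζ' ε) (Sum.swap : I6 → I6)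
      (id : J6 → J6) (Sum.swap : I6 → I6) Function.bijective_id
    rw [← h3, hBC]
    exact Matrix.submatrix_one_equiv (Equiv.sumComm (Fin 3) (Fin 3))
  calc (Ch S.ζ S.ζ' ε).map (frob hK)
      = (Ch S.ζ S.ζ' ε).map (frob hK) * ((Bh S.ζ S.ζ' ε).map (frob hK)
          * (Ch S.ζ S.ζ' ε).submatrix id Sum.swap) := by rw [h2, Matrix.mul_one]
    _ = (Ch S.ζ S.ζ' ε).submatrix id Sum.swap := by rw [← Matrix.mul_assoc, h1, Matrix.one_mul]

include hε in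
theorem MK_map (g : Matrix (Fin 4) (Fin 4) K) (hg : g.det = 1) (hU : IsU 4 q g) :
    (MK S ε g).map (frob hK) = MK S ε g := by
  have hL := LamS_unitary (frob hK) g hg (isU_transpose_mul hK hU)
  unfold MK
  rw [Matrix.map_mul, Matrix.map_mul, Ch_frob hK S ε hε, Bh_frob hK S ε hε, hL]
  have h1 := Matrix.submatrix_mul_equiv (Ch S.ζ S.ζ' ε) (LamS g) (id : J6 → J6)
    (Equiv.sumComm (Fin 3) (Fin 3)) (Sum.swap : I6 → I6)
  have h2 := Matrix.submatrix_mul_equiv (Ch S.ζ S.ζ' ε * LamS g) (Bh S.ζ S.ζ' ε) (id : J6 → J6)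
    (Equiv.sumComm (Fin 3) (Fin 3)) (id : J6 → J6)
  have e : ⇑(Equiv.sumComm (Fin 3) (Fin 3)) = Sum.swap := rfl
  rw [e] at h1 h2
  rw [h1, h2, Matrix.submatrix_id_id]

include hK hε in
theorem MK_entry (g : ↥(Cfsg.SU 4 K q)) (i j : J6) : ∃ f : F, S.φ f = MK S ε g.1.1 i j := by
  apply S.fix
  exact congrFun (congrFun (MK_map hK S ε hε g.1.1 g.1.2 ((mem_SU_iff 4 q g.1).mp g.2)) i) j

/-- The matrix over the small field. -/
noncomputable def MF (g : ↥(Cfsg.SU 4 K q)) : Matrix J6 J6 F :=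
  Matrix.of fun i j => Classical.choose (MK_entry hK S ε hε g i j)

theorem MF_map (g : ↥(Cfsg.SU 4 K q)) : (MF hK S ε hε g).map S.φ = MK S ε g.1.1 := by
  ext i j
  exact Classical.choose_spec (MK_entry hK S ε hε g i j)

theorem MF_mul (g g' : ↥(Cfsg.SU 4 K q)) :
    MF hK S ε hε (g * g') = MF hK S ε hε g * MF hK S ε hε g' := by
  apply Matrix.map_injective S.φ.injective
  show (MF hK S ε hε (g * g')).map S.φ = (MF hK S ε hε g * MF hK S ε hε g').map S.φ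
  rw [Matrix.map_mul, MF_map, MF_map, MF_map, ← MK_mul S ε hε]
  rfl

theorem MF_one : MF hK S ε hε 1 = 1 := by
  apply Matrix.map_injective S.φ.injective
  show (MF hK S ε hε 1).map S.φ = (1 : Matrix J6 J6 F).map S.φ
  rw [MF_map, Matrix.map_one _ (map_zero _) (map_one _), ← MK_one S ε hε]
  rfl

theorem MF_iso (g : ↥(Cfsg.SU 4 K q)) (v : J6 → F) :
    Cfsg.quadFormMinus 2 F a b (MF hK S ε hε g *ᵥ v) = Cfsg.quadFormMinus 2 F a b v := by
  have he := eps_ne ε hε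
  apply S.φ.injective
  rw [← Q_rel S ε he, ← Q_rel S ε he]
  have h1 : (fun i => S.φ ((MF hK S ε hε g *ᵥ v) i)) = MK S ε g.1.1 *ᵥ (fun i => S.φ (v i)) := by
    rw [← MF_map hK S ε hε]
    ext i
    simp [Matrix.mulVec, dotProduct, map_sum]
  have h2 : Bh S.ζ S.ζ' ε *ᵥ (MK S ε g.1.1 *ᵥ (fun i => S.φ (v i)))
      = LamS g.1.1 *ᵥ (Bh S.ζ S.ζ' ε *ᵥ (fun i => S.φ (v i))) := by
    rw [MK, Matrix.mulVec_mulVec, Matrix.mulVec_mulVec, ← Matrix.mul_assoc, ← Matrix.mul_assoc,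
      Bh_mul_Ch _ _ _ S.ne he, Matrix.one_mul]
  rw [h1, h2]
  exact lam_isoF g.1 _

/-- The representation as a unit. -/
noncomputable def hU (g : ↥(Cfsg.SU 4 K q)) : Matrix.GeneralLinearGroup J6 F :=
  ⟨MF hK S ε hε g, MF hK S ε hε g⁻¹, by
    rw [← MF_mul, mul_inv_cancel, MF_one], by
    rw [← MF_mul, inv_mul_cancel, MF_one]⟩

theorem hU_mem (g : ↥(Cfsg.SU 4 K q)) :
    hU hK S ε hε g ∈ Cfsg.isometryGroup F (Cfsg.quadFormMinus 2 F a b) := by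
  intro u _
  exact MF_iso hK S ε hε g u

/-- The representation as a homomorphism into the orthogonal group. -/
noncomputable def hO : ↥(Cfsg.SU 4 K q) →*
    ↥(Cfsg.isometryGroup F (Cfsg.quadFormMinus 2 F a b)) where
  toFun g := ⟨hU hK S ε hε g, hU_mem hK S ε hε g⟩
  map_one' := Subtype.ext (Units.ext (MF_one hK S ε hε))
  map_mul' g g' := Subtype.ext (Units.ext (MF_mul hK S ε hε g g'))

theorem MF_eq_one_iff (g : ↥(Cfsg.SU 4 K q)) : MF hK S ε hε g = 1 ↔ LamS g.1.1 = 1 := by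
  have he := eps_ne ε hε
  have hBC := Bh_mul_Ch S.ζ S.ζ' ε S.ne he
  have hCB := Ch_mul_Bh S.ζ S.ζ' ε S.ne he
  constructor
  · intro h
    have h1 : MK S ε g.1.1 = 1 := by
      rw [← MF_map hK S ε hε, h, Matrix.map_one _ (map_zero _) (map_one _)]
    have h2 : Bh S.ζ S.ζ' ε * MK S ε g.1.1 * Ch S.ζ S.ζ' ε
        = (Bh S.ζ S.ζ' ε * Ch S.ζ S.ζ' ε) * LamS g.1.1 * (Bh S.ζ S.ζ' ε * Ch S.ζ S.ζ' ε) := by
      unfold MK
      simp only [Matrix.mul_assoc]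
    rw [h1, Matrix.mul_one, hBC, Matrix.one_mul, Matrix.mul_one] at h2
    exact h2.symm
  · intro h
    apply Matrix.map_injective S.φ.injective
    show (MF hK S ε hε g).map S.φ = (1 : Matrix J6 J6 F).map S.φ
    rw [MF_map, MK, h, Matrix.mul_one, hCB, Matrix.map_one _ (map_zero _) (map_one _)]

theorem hO_eq_one_iff (g : ↥(Cfsg.SU 4 K q)) : hO hK S ε hε g = 1 ↔ LamS g.1.1 = 1 := by
  rw [← MF_eq_one_iff hK S ε hε]
  constructor
  · intro h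
    have h1 := congrArg (fun x : ↥(Cfsg.isometryGroup F (Cfsg.quadFormMinus 2 F a b)) =>
      (x.1.1 : Matrix J6 J6 F)) h
    exact h1
  · intro h
    exact Subtype.ext (Units.ext h)

end main

omit [Field F] in
theorem LamS_eq_one (A : Matrix.SpecialLinearGroup (Fin 4) K) (h : LamS A.1 = 1) :
    ∃ r : K, r * r = 1 ∧ A.1 = r • (1 : Matrix (Fin 4) (Fin 4) K) := by
  have h1 : lamΩ A = 1 := Subtype.ext (Subtype.ext (Units.ext h))
  have h2 : lamL (QuotientGroup.mk A : Matrix.ProjectiveSpecialLinearGroup (Fin 4) K) = 1 := by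
    show (QuotientGroup.mk (lamΩ A) : Cfsg.POmega K (Cfsg.quadFormPlus 3 K)) = 1
    rw [h1]
    rfl
  have h3 : (QuotientGroup.mk A : Matrix.ProjectiveSpecialLinearGroup (Fin 4) K) = 1 :=
    lamL_injective (h2.trans (map_one _).symm)
  have h4 : A ∈ Subgroup.center (Matrix.SpecialLinearGroup (Fin 4) K) :=
    (QuotientGroup.eq_one_iff A).mp h3
  obtain ⟨r, -, hr⟩ := Matrix.SpecialLinearGroup.mem_center_iff.mp h4
  have h5 : A.1 = r • (1 : Matrix (Fin 4) (Fin 4) K) := by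
    rw [← hr, Matrix.scalar_apply, ← Matrix.smul_one_eq_diagonal]
  refine ⟨r, ?_, h5⟩
  rw [h5, LamS_smul_one] at h
  have h6 := congrFun (congrFun h (Sum.inl 0)) (Sum.inl 0)
  simpa using h6

end Cfsg.Agent.Lib.Helper2.Herm6
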