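import Mathlib
import Cfsg.Prelude.Def_Classical
import Cfsg.Agent.Lib.Helper2.Herm6
import Cfsg.Agent.Lib.Helper2.Tens4
import Cfsg.Agent.Lib.Helper2.Simple60
import Cfsg.Agent.Lib.Helper15.StdHyp
import Cfsg.Agent.Lib.Helper15.CartanD
import Cfsg.Agent.S0278
import Cfsg.Agent.S0280
import Cfsg.Agent.S0288
import Cfsg.Agent.S0791

set_option autoImplicit false

namespace Cfsg.Agent.Lib.Helper2.Herm6

open scoped Matrix
open Cfsg.Agent.Lib.Helper2.QuadExt Cfsg.Agent.Lib.Helper2.Ext2 Cfsg.Agent.Lib.Helper2.Klein6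
open Cfsg.Agent.Lib.Helper2.Unitary Cfsg.Agent.Lib.Helper2.HermCount

variable {F K : Type*} [Field F] [Fintype F] [Field K] [Fintype K] {q : ℕ}

omit [Field F] [Fintype F] in
theorem exists_eps (hK : Fintype.card K = q ^ 2) : ∃ ε : K, ε * ε ^ q = -1 := by
  classical
  have h1 : (-1 : K) ^ q = -1 := by
    have h := neg_one_norm hK
    linear_combination (-1 : K) * h
  have h2 := card_norm_eq hK (-1 : K) h1
  rw [if_neg (neg_ne_zero.mpr one_ne_zero)] at h2
  have h3 := Finset.card_pos.mp (by rw [h2]; omega)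
  obtain ⟨ε, hε⟩ := h3
  exact ⟨ε, (Finset.mem_filter.mp hε).2⟩

theorem card_O6 (hF : Fintype.card F = q) (a b : F)
    (hab : ∀ z₁ z₂ : F, z₁ ^ 2 + a * z₁ * z₂ + b * z₂ ^ 2 = 0 → z₁ = 0 ∧ z₂ = 0) :
    Nat.card ↥(Cfsg.isometryGroup F (Cfsg.quadFormMinus 2 F a b))
      = 2 * (q ^ 6 * (q ^ 3 + 1) * ((q ^ 2 - 1) * (q ^ 4 - 1))) := by
  have h : Nat.card ↥(Cfsg.isometryGroup F (Cfsg.quadFormMinus 2 F a b))
      = 2 * q ^ (3 * (3 - 1)) * (q ^ 3 + 1)
        * ∏ i ∈ Finset.range (3 - 1), (q ^ (2 * (i + 1)) - 1) :=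
    Cfsg.Agent.S0288.result hF 3 (by omega) a b hab
  rw [h]
  norm_num [Finset.prod_range_succ]
  ring

omit [Field F] [Fintype F] in
theorem card_SU4 (hK : Fintype.card K = q ^ 2) :
    Nat.card ↥(Cfsg.SU 4 K q) = q ^ 6 * ((q ^ 2 - 1) * (q ^ 3 + 1) * (q ^ 4 - 1)) := by
  have h := Cfsg.Agent.S0278.result hK 4 (by norm_num)
  rw [Finset.prod_range_succ, Finset.prod_range_succ, Finset.prod_range_succ,
    Finset.prod_range_one, if_pos (by decide : Even 0), if_neg (by decide : ¬ Even 1),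
    if_pos (by decide : Even 2), if_neg (by decide : ¬ Even 3)] at h
  have h2 : (q + 1) * Nat.card ↥(Cfsg.SU 4 K q)
      = (q + 1) * (q ^ 6 * ((q ^ 2 - 1) * (q ^ 3 + 1) * (q ^ 4 - 1))) := by
    rw [h]
    norm_num
    ring
  exact Nat.eq_of_mul_eq_mul_left (by omega) h2

theorem card_pomega_minus3 (hF : Fintype.card F = q) (a b : F)
    (hab : ∀ z₁ z₂ : F, z₁ ^ 2 + a * z₁ * z₂ + b * z₂ ^ 2 = 0 → z₁ = 0 ∧ z₂ = 0) :
    Nat.gcd 4 (q ^ 3 + 1) * Nat.card (Cfsg.POmega F (Cfsg.quadFormMinus 2 F a b))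
      = q ^ 6 * (q ^ 3 + 1) * ((q ^ 2 - 1) * (q ^ 4 - 1)) := by
  classical
  have hq1 : 1 ≤ q := by rw [← hF]; exact Fintype.card_pos
  have hqm : 1 ≤ q ^ 3 := Nat.one_le_pow 3 q hq1
  have hO := card_O6 hF a b hab
  have hn : 5 ≤ Fintype.card J6 := by
    rw [Fintype.card_sum, Fintype.card_sum, Fintype.card_fin]
    norm_num
  obtain ⟨u, hu0, hQu⟩ : ∃ u : J6 → F, u ≠ 0 ∧
      Cfsg.Agent.Lib.Helper15.StdForms.minusQF 2 F a b u = 0 := by
    refine ⟨Pi.single (Sum.inl (Sum.inl 0)) 1, ?_, ?_⟩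
    · intro h
      have h' := congrFun h (Sum.inl (Sum.inl 0))
      rw [Pi.single_eq_same] at h'
      exact one_ne_zero h'
    · rw [Cfsg.Agent.Lib.Helper15.StdForms.minusQF_apply]
      unfold Cfsg.quadFormMinus
      simp [Pi.single_apply]
  have h := Cfsg.Agent.Lib.Helper15.CenterOmega.card_pomega_gcd hF
    (Cfsg.Agent.Lib.Helper15.StdForms.minusQF 2 F a b)
    (Cfsg.Agent.Lib.Helper15.StdForms.minus_nondeg 2 a b hab) hn u hu0 hQu (q ^ 3 + 1)
    (q ^ 6 * (q ^ 3 + 1) * ((q ^ 2 - 1) * (q ^ 4 - 1)))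
    (by
      rw [Cfsg.Agent.Lib.Helper15.StdForms.coe_minusQF, hO])
    (fun hq => by
      have hqm' : Even (q ^ 3) := hq.pow_of_ne_zero (by omega)
      obtain ⟨t, ht⟩ := hqm'
      exact ⟨t, by omega⟩)
    (fun hq => by
      have hqm' : Odd (q ^ 3) := hq.pow
      obtain ⟨t, ht⟩ := hqm'
      exact ⟨t + 1, by omega⟩)
    (fun hq => by
      rw [Cfsg.Agent.Lib.Helper15.StdForms.coe_minusQF]
      refine Iff.trans (Cfsg.Agent.S0791.result hF hq 3 (by omega) a b hab) ?_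
      omega)
  rw [Cfsg.Agent.Lib.Helper15.StdForms.coe_minusQF] at h
  exact h

theorem gcd_aux6 (q : ℕ) (hq : 1 ≤ q) : Nat.gcd 4 (q ^ 3 + 1) = Nat.gcd 4 (q + 1) := by
  obtain ⟨k, rfl⟩ : ∃ k, q = k + 1 := ⟨q - 1, by omega⟩
  have h1 : (k + 1) ^ 3 + 1 = (k + 1 + 1) * (k ^ 2 + k + 1) := by ring
  rw [h1]
  apply Nat.Coprime.gcd_mul_right_cancel_right
  have hodd : Odd (k ^ 2 + k + 1) := by
    have h2 : Even (k ^ 2 + k) := by
      have h3 : k ^ 2 + k = k * (k + 1) := by ring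
      rw [h3]
      exact Nat.even_mul_succ_self k
    exact h2.add_one
  have h4 : Nat.Coprime (k ^ 2 + k + 1) (2 ^ 2) :=
    Nat.Coprime.pow_right 2 (Nat.coprime_two_right.2 hodd)
  exact h4

theorem card_eq6 (hF : Fintype.card F = q) (hK : Fintype.card K = q ^ 2) (a b : F)
    (hab : ∀ z₁ z₂ : F, z₁ ^ 2 + a * z₁ * z₂ + b * z₂ ^ 2 = 0 → z₁ = 0 ∧ z₂ = 0) :
    Nat.card (Cfsg.PSU 4 K q) = Nat.card (Cfsg.POmega F (Cfsg.quadFormMinus 2 F a b)) := by
  have hq1 : 1 ≤ q := by rw [← hF]; exact Fintype.card_pos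
  have hPO := card_pomega_minus3 hF a b hab
  rw [gcd_aux6 q hq1] at hPO
  have h := Cfsg.Agent.S0280.result hK 4 (by norm_num)
  rw [Finset.prod_range_succ, Finset.prod_range_succ, Finset.prod_range_succ,
    Finset.prod_range_one, if_pos (by decide : Even 0), if_neg (by decide : ¬ Even 1),
    if_pos (by decide : Even 2), if_neg (by decide : ¬ Even 3)] at h
  have hg : 0 < Nat.gcd 4 (q + 1) := Nat.gcd_pos_of_pos_left _ (by norm_num)
  have h5 : (Nat.gcd 4 (q + 1) * (q + 1)) * Nat.card (Cfsg.PSU 4 K q)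
      = (Nat.gcd 4 (q + 1) * (q + 1))
        * Nat.card (Cfsg.POmega F (Cfsg.quadFormMinus 2 F a b)) := by
    calc (Nat.gcd 4 (q + 1) * (q + 1)) * Nat.card (Cfsg.PSU 4 K q)
        = Nat.gcd 4 (q + 1) * ((q + 1) * Nat.card (Cfsg.PSU 4 K q)) := by ring
      _ = (q + 1) * (q ^ 6 * (q ^ 3 + 1) * ((q ^ 2 - 1) * (q ^ 4 - 1))) := by
          rw [h]
          norm_num
          ring
      _ = (q + 1) * (Nat.gcd 4 (q + 1)
            * Nat.card (Cfsg.POmega F (Cfsg.quadFormMinus 2 F a b))) := by rw [hPO]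
      _ = _ := by ring
  exact Nat.eq_of_mul_eq_mul_left (Nat.mul_pos hg (by omega)) h5

theorem comm_central {G : Type*} [Group G] (n n' z z' : G) (hz : z ∈ Subgroup.center G)
    (hz' : z' ∈ Subgroup.center G) :
    n * z * (n' * z') * (n * z)⁻¹ * (n' * z')⁻¹ = n * n' * n⁻¹ * n'⁻¹ := by
  rw [Subgroup.mem_center_iff] at hz hz'
  have e1 : z * (n' * z') * z⁻¹ = n' * z' := by
    rw [← hz (n' * z'), mul_inv_cancel_right]
  have e2 : z' * n⁻¹ * z'⁻¹ = n⁻¹ := by
    rw [← hz' n⁻¹, mul_inv_cancel_right]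
  calc n * z * (n' * z') * (n * z)⁻¹ * (n' * z')⁻¹
      = n * (z * (n' * z') * z⁻¹) * n⁻¹ * (n' * z')⁻¹ := by group
    _ = n * n' * (z' * n⁻¹ * z'⁻¹) * n'⁻¹ := by
        rw [e1]
        group
    _ = n * n' * n⁻¹ * n'⁻¹ := by
        rw [e2]

theorem omega_le_of_index (hF : Fintype.card F = q) (a b : F)
    (hab : ∀ z₁ z₂ : F, z₁ ^ 2 + a * z₁ * z₂ + b * z₂ ^ 2 = 0 → z₁ = 0 ∧ z₂ = 0)
    (R : Subgroup ↥(Cfsg.isometryGroup F (Cfsg.quadFormMinus 2 F a b))) (hR : R.index ≤ 4)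
    (hR0 : R.index ≠ 0) : Cfsg.Omega F (Cfsg.quadFormMinus 2 F a b) ≤ R := by
  classical
  have hq2 : 2 ≤ q := by rw [← hF]; exact Fintype.one_lt_card
  have hn : 5 ≤ Fintype.card J6 := by
    rw [Fintype.card_sum, Fintype.card_sum, Fintype.card_fin]
    norm_num
  have hperf : commutator ↥(Cfsg.Omega F (Cfsg.quadFormMinus 2 F a b)) = ⊤ := by
    have h := Cfsg.Agent.Lib.Helper15.EichGen.omega_perfect_top
      (Cfsg.Agent.Lib.Helper15.StdForms.minusQF 2 F a b)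
      (Cfsg.Agent.Lib.Helper15.StdForms.minus_nondeg 2 a b hab) hn
      (Cfsg.Agent.Lib.Helper15.StdHyp.hp2_minus 2 (by norm_num) a b)
    rw [Cfsg.Agent.Lib.Helper15.StdForms.coe_minusQF] at h
    exact h
  have hsimp : IsSimpleGroup (Cfsg.POmega F (Cfsg.quadFormMinus 2 F a b)) := by
    have h := Cfsg.Agent.Lib.Helper15.OmegaSimple.simple_pomega
      (Cfsg.Agent.Lib.Helper15.StdForms.minusQF 2 F a b)
      (Cfsg.Agent.Lib.Helper15.StdForms.minus_nondeg 2 a b hab) hn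
      (Cfsg.Agent.Lib.Helper15.StdHyp.hp2_minus 2 (by norm_num) a b)
    rw [Cfsg.Agent.Lib.Helper15.StdForms.coe_minusQF] at h
    exact h
  have hfin : Finite (Cfsg.POmega F (Cfsg.quadFormMinus 2 F a b)) := by
    unfold Cfsg.POmega
    infer_instance
  have hN : (R.subgroupOf (Cfsg.Omega F (Cfsg.quadFormMinus 2 F a b))).index ≤ 4 := by
    have h1 : R.relIndex (Cfsg.Omega F (Cfsg.quadFormMinus 2 F a b)) ≤ R.relIndex ⊤ :=
      Subgroup.relIndex_le_of_le_right le_top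
        (by rw [Subgroup.relIndex_top_right]; exact hR0)
    rw [Subgroup.relIndex_top_right] at h1
    exact le_trans h1 hR
  have hN0 : (R.subgroupOf (Cfsg.Omega F (Cfsg.quadFormMinus 2 F a b))).index ≠ 0 :=
    Subgroup.index_ne_zero_of_finite
  have hNb : ((R.subgroupOf (Cfsg.Omega F (Cfsg.quadFormMinus 2 F a b))).map
      (QuotientGroup.mk' (Subgroup.center
        ↥(Cfsg.Omega F (Cfsg.quadFormMinus 2 F a b))))).index ≤ 4 :=
    le_trans (Nat.le_of_dvd (Nat.pos_of_ne_zero hN0)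
      (Subgroup.index_map_dvd _ (QuotientGroup.mk'_surjective _))) hN
  have hcard : 24 < Nat.card (Cfsg.POmega F (Cfsg.quadFormMinus 2 F a b)) := by
    have hP := card_pomega_minus3 hF a b hab
    have hg : Nat.gcd 4 (q ^ 3 + 1) ≤ 4 := Nat.gcd_le_left _ (by norm_num)
    have h6 : 64 ≤ q ^ 6 := by
      calc 64 = 2 ^ 6 := by norm_num
        _ ≤ q ^ 6 := Nat.pow_le_pow_left hq2 6
    have h3 : 9 ≤ q ^ 3 + 1 := by
      have : 2 ^ 3 ≤ q ^ 3 := Nat.pow_le_pow_left hq2 3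
      omega
    have h2 : 3 ≤ q ^ 2 - 1 := by
      have : 2 ^ 2 ≤ q ^ 2 := Nat.pow_le_pow_left hq2 2
      omega
    have h4 : 15 ≤ q ^ 4 - 1 := by
      have : 2 ^ 4 ≤ q ^ 4 := Nat.pow_le_pow_left hq2 4
      omega
    have h7 : 64 * 9 * (3 * 15) ≤ q ^ 6 * (q ^ 3 + 1) * ((q ^ 2 - 1) * (q ^ 4 - 1)) :=
      Nat.mul_le_mul (Nat.mul_le_mul h6 h3) (Nat.mul_le_mul h2 h4)
    have h8 := Nat.mul_le_mul_right
      (Nat.card (Cfsg.POmega F (Cfsg.quadFormMinus 2 F a b))) hg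
    rw [hP] at h8
    omega
  have htop : (R.subgroupOf (Cfsg.Omega F (Cfsg.quadFormMinus 2 F a b))).map
      (QuotientGroup.mk' (Subgroup.center
        ↥(Cfsg.Omega F (Cfsg.quadFormMinus 2 F a b)))) = ⊤ := by
    by_contra hne
    have h1 : Nat.card (Cfsg.POmega F (Cfsg.quadFormMinus 2 F a b)) ≤ _ :=
      Cfsg.Agent.Lib.Helper2.Simple60.card_le_factorial_index _ hne
    have h2 := Nat.factorial_le hNb
    have h3 : Nat.factorial 4 = 24 := rfl
    omega
  have key : ∀ x : ↥(Cfsg.Omega F (Cfsg.quadFormMinus 2 F a b)),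
      ∃ n ∈ R.subgroupOf (Cfsg.Omega F (Cfsg.quadFormMinus 2 F a b)),
      ∃ z ∈ Subgroup.center ↥(Cfsg.Omega F (Cfsg.quadFormMinus 2 F a b)), x = n * z := by
    intro x
    have hx : (QuotientGroup.mk' (Subgroup.center
        ↥(Cfsg.Omega F (Cfsg.quadFormMinus 2 F a b)))) x ∈
        (R.subgroupOf (Cfsg.Omega F (Cfsg.quadFormMinus 2 F a b))).map
        (QuotientGroup.mk' (Subgroup.center
          ↥(Cfsg.Omega F (Cfsg.quadFormMinus 2 F a b)))) := by
      rw [htop]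
      exact Subgroup.mem_top _
    obtain ⟨n, hn, hnx⟩ := Subgroup.mem_map.mp hx
    refine ⟨n, hn, n⁻¹ * x, ?_, by group⟩
    exact QuotientGroup.eq.mp hnx
  have hcomm : commutator ↥(Cfsg.Omega F (Cfsg.quadFormMinus 2 F a b))
      ≤ R.subgroupOf (Cfsg.Omega F (Cfsg.quadFormMinus 2 F a b)) := by
    unfold commutator
    rw [Subgroup.commutator_le]
    intro x _ y _
    obtain ⟨n, hn, z, hz, rfl⟩ := key x
    obtain ⟨n', hn', z', hz', rfl⟩ := key y
    rw [commutatorElement_def, comm_central n n' z z' hz hz']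
    exact Subgroup.mul_mem _ (Subgroup.mul_mem _ (Subgroup.mul_mem _ hn hn')
      (Subgroup.inv_mem _ hn)) (Subgroup.inv_mem _ hn')
  rw [hperf] at hcomm
  intro x hx
  have h1 : (⟨x, hx⟩ : ↥(Cfsg.Omega F (Cfsg.quadFormMinus 2 F a b)))
      ∈ R.subgroupOf (Cfsg.Omega F (Cfsg.quadFormMinus 2 F a b)) := hcomm (Subgroup.mem_top _)
  exact Subgroup.mem_subgroupOf.mp h1

section final

variable (hF : Fintype.card F = q) (hK : Fintype.card K = q ^ 2) {a b : F}
  (hab : ∀ z₁ z₂ : F, z₁ ^ 2 + a * z₁ * z₂ + b * z₂ ^ 2 = 0 → z₁ = 0 ∧ z₂ = 0)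
  (S : Setup F K q a b) (ε : K) (hε : ε * ε ^ q = -1)

omit [Fintype F] in
theorem ker_scalar (g : ↥(Cfsg.SU 4 K q)) (hg : g ∈ (hO hK S ε hε).ker) :
    ∃ r : K, r * r = 1 ∧ g.1.1 = r • (1 : Matrix (Fin 4) (Fin 4) K) :=
  LamS_eq_one g.1 ((hO_eq_one_iff hK S ε hε g).mp (MonoidHom.mem_ker.mp hg))

/-- The element `-1` of the special unitary group. -/
def negOne (hK : Fintype.card K = q ^ 2) : ↥(Cfsg.SU 4 K q) :=
  ⟨⟨(-1 : K) • (1 : Matrix (Fin 4) (Fin 4) K), by
    rw [Matrix.det_smul, Matrix.det_one, Fintype.card_fin]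
    norm_num⟩,
   (mem_SU_iff 4 q _).mpr (isU_smul_one 4 q (-1) (neg_one_norm hK))⟩

omit [Fintype F] in
theorem negOne_mem_ker : negOne hK ∈ (hO hK S ε hε).ker := by
  rw [MonoidHom.mem_ker, hO_eq_one_iff]
  show LamS ((-1 : K) • (1 : Matrix (Fin 4) (Fin 4) K)) = 1
  rw [LamS_smul_one]
  norm_num

include hF hab in
theorem ker_index : (Cfsg.Omega F (Cfsg.quadFormMinus 2 F a b)).index
      = 2 * Nat.card ↥(hO hK S ε hε).ker ∧ Nat.card ↥(hO hK S ε hε).ker ≤ 2 := by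
  classical
  have hnd := Cfsg.Agent.Lib.Helper15.StdForms.minus_nondeg 2 a b hab
  have hcJ : Fintype.card J6 = 6 := by
    rw [Fintype.card_sum, Fintype.card_sum, Fintype.card_fin]
  rcases Cfsg.Agent.Lib.Helper15.CenterOmega.char_cases hF with ⟨hch, hq⟩ | ⟨h2, hodd⟩
  · have h := Cfsg.Agent.Lib.Helper2.Tens4.index_char2
      (Cfsg.Agent.Lib.Helper15.StdForms.minusQF 2 F a b) hnd
      (Or.inr (by rw [hcJ]; norm_num)) (by rw [hcJ]; norm_num)
    rw [Cfsg.Agent.Lib.Helper15.StdForms.coe_minusQF] at h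
    have h2K : (2 : K) = 0 := by
      have h2F : (2 : F) = 0 := CharTwo.two_eq_zero
      have h3 : S.φ 2 = S.φ 0 := congrArg S.φ h2F
      rw [map_ofNat, map_zero] at h3
      exact h3
    have hker : (hO hK S ε hε).ker = ⊥ := by
      rw [Subgroup.eq_bot_iff_forall]
      intro g hg
      obtain ⟨r, hr, hgr⟩ := ker_scalar hK S ε hε g hg
      have hr1 : r = 1 := by
        have h3 : (r - 1) * (r - 1) = 0 := by linear_combination hr + (1 - r) * h2K
        have h4 := mul_self_eq_zero.mp h3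
        linear_combination h4
      apply Subtype.ext
      apply Subtype.ext
      rw [hgr, hr1, one_smul]
      rfl
    rw [hker, Subgroup.card_bot]
    exact ⟨h, by norm_num⟩
  · have h := Cfsg.Agent.Lib.Helper15.CartanD.omega_index h2
      (Cfsg.Agent.Lib.Helper15.StdForms.minusQF 2 F a b) hnd (by rw [hcJ]; norm_num)
    rw [Cfsg.Agent.Lib.Helper15.StdForms.coe_minusQF] at h
    have h2K : (2 : K) ≠ 0 :=
      Cfsg.Agent.Lib.Helper15.Spinor2.two_ne_zero_of_odd_card hK hodd.pow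
    have hcard : Nat.card ↥(hO hK S ε hε).ker = 2 := by
      rw [Nat.card_eq_two_iff]
      refine ⟨1, ⟨negOne hK, negOne_mem_ker hK S ε hε⟩, ?_, ?_⟩
      · intro h1
        have h3 := congrArg (fun x : ↥(hO hK S ε hε).ker => x.1.1.1 0 0) h1
        have h4 : (1 : K) = -1 • 1 := by simpa [negOne] using h3
        apply h2K
        linear_combination h4
      · rw [Set.eq_univ_iff_forall]
        intro g
        rw [Set.mem_insert_iff, Set.mem_singleton_iff]
        obtain ⟨r, hr, hgr⟩ := ker_scalar hK S ε hε g.1 g.2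
        have h5 : (r - 1) * (r + 1) = 0 := by linear_combination hr
        rcases mul_eq_zero.mp h5 with h6 | h6
        · left
          have hr1 : r = 1 := by linear_combination h6
          apply Subtype.ext
          apply Subtype.ext
          apply Subtype.ext
          rw [hgr, hr1, one_smul]
          rfl
        · right
          have hr1 : r = -1 := by linear_combination h6
          apply Subtype.ext
          apply Subtype.ext
          apply Subtype.ext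
          rw [hgr, hr1]
          rfl
    rw [hcard]
    exact ⟨h, le_refl _⟩

include hF hab in
theorem range_eq : (hO hK S ε hε).range = Cfsg.Omega F (Cfsg.quadFormMinus 2 F a b) := by
  classical
  obtain ⟨hidx, hk2⟩ := ker_index hF hK hab S ε hε
  have e1 := Subgroup.card_mul_index (hO hK S ε hε).ker
  have e2 := Subgroup.index_ker (hO hK S ε hε)
  have e3 := Subgroup.card_mul_index (hO hK S ε hε).range
  have e4 := Subgroup.card_mul_index (Cfsg.Omega F (Cfsg.quadFormMinus 2 F a b))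
  have cO := card_O6 hF a b hab
  have cS := card_SU4 hK
  have hOS : Nat.card ↥(Cfsg.isometryGroup F (Cfsg.quadFormMinus 2 F a b))
      = 2 * Nat.card ↥(Cfsg.SU 4 K q) := by
    rw [cO, cS]
    ring
  have hrpos : 0 < Nat.card ↥(hO hK S ε hε).range := Nat.card_pos
  have hkpos : 0 < Nat.card ↥(hO hK S ε hε).ker := Nat.card_pos
  have hri : (hO hK S ε hε).range.index = 2 * Nat.card ↥(hO hK S ε hε).ker := by
    apply Nat.eq_of_mul_eq_mul_left hrpos
    rw [e3, hOS, ← e1, e2]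
    ring
  have hle := omega_le_of_index hF a b hab (hO hK S ε hε).range (by rw [hri]; omega)
    (by rw [hri]; omega)
  have hcard : Nat.card ↥(hO hK S ε hε).range
      ≤ Nat.card ↥(Cfsg.Omega F (Cfsg.quadFormMinus 2 F a b)) := by
    have h5 : Nat.card ↥(hO hK S ε hε).range * (hO hK S ε hε).range.index
        = Nat.card ↥(Cfsg.Omega F (Cfsg.quadFormMinus 2 F a b))
          * (hO hK S ε hε).range.index := by
      rw [e3, hri, ← hidx, e4]
    exact le_of_eq (Nat.eq_of_mul_eq_mul_right (by rw [hri]; omega) h5)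
  exact (Subgroup.eq_of_le_of_card_ge hle hcard).symm

/-- The representation as a homomorphism onto `Ω`. -/
noncomputable def hΩ6 : ↥(Cfsg.SU 4 K q) →* ↥(Cfsg.Omega F (Cfsg.quadFormMinus 2 F a b)) :=
  (hO hK S ε hε).codRestrict _ (fun g => by
    rw [← range_eq hF hK hab S ε hε]
    exact MonoidHom.mem_range.mpr ⟨g, rfl⟩)

theorem hΩ6_surjective : Function.Surjective (hΩ6 hF hK hab S ε hε) := by
  intro x
  have hx : x.1 ∈ (hO hK S ε hε).range := by
    rw [range_eq hF hK hab S ε hε]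
    exact x.2
  obtain ⟨g, hg⟩ := hx
  exact ⟨g, Subtype.ext hg⟩

end final

theorem main6 (hF : Fintype.card F = q) (hK : Fintype.card K = q ^ 2) (a b : F)
    (hab : ∀ z₁ z₂ : F, z₁ ^ 2 + a * z₁ * z₂ + b * z₂ ^ 2 = 0 → z₁ = 0 ∧ z₂ = 0) :
    Nonempty (Cfsg.POmega F (Cfsg.quadFormMinus 2 F a b) ≃* Cfsg.PSU 4 K q) := by
  classical
  obtain ⟨S⟩ := exists_setup hF hK a b hab
  obtain ⟨ε, hε⟩ := exists_eps hK
  have hsurj := hΩ6_surjective hF hK hab S ε hε
  have hle : Subgroup.center ↥(Cfsg.SU 4 K q)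
      ≤ (Subgroup.center ↥(Cfsg.Omega F (Cfsg.quadFormMinus 2 F a b))).comap
        (hΩ6 hF hK hab S ε hε) := by
    intro z hz
    rw [Subgroup.mem_comap, Subgroup.mem_center_iff]
    intro y
    obtain ⟨g, rfl⟩ := hsurj y
    rw [← map_mul, ← map_mul, Subgroup.mem_center_iff.mp hz g]
  have hfs : Function.Surjective (QuotientGroup.map (Subgroup.center ↥(Cfsg.SU 4 K q))
      (Subgroup.center ↥(Cfsg.Omega F (Cfsg.quadFormMinus 2 F a b)))
      (hΩ6 hF hK hab S ε hε) hle) := by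
    intro y
    obtain ⟨w, rfl⟩ := QuotientGroup.mk_surjective y
    obtain ⟨g, rfl⟩ := hsurj w
    exact ⟨QuotientGroup.mk g, rfl⟩
  have : Finite (Cfsg.PSU 4 K q) := by
    unfold Cfsg.PSU
    infer_instance
  have hb : Function.Bijective (QuotientGroup.map (Subgroup.center ↥(Cfsg.SU 4 K q))
      (Subgroup.center ↥(Cfsg.Omega F (Cfsg.quadFormMinus 2 F a b)))
      (hΩ6 hF hK hab S ε hε) hle) :=
    (Nat.bijective_iff_surjective_and_card _).2 ⟨hfs, card_eq6 hF hK a b hab⟩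
  exact ⟨(MulEquiv.ofBijective _ hb).symm⟩

end Cfsg.Agent.Lib.Helper2.Herm6
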