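import Mathlib
import Cfsg.Agent.Lib.Helper2.SLGen
import Cfsg.Agent.Lib.Helper2.L11Tab

set_option autoImplicit false

namespace Cfsg.Agent.Lib.Helper2.L11Tab

open Matrix

/-- The special linear group of degree two over five elements. -/
abbrev SL25 : Type := Matrix.SpecialLinearGroup (Fin 2) (ZMod 5)

theorem mm_eq (A B : Matrix (Fin 2) (Fin 2) (ZMod 11)) :
    mm A B = (A * B : Matrix (Fin 2) (Fin 2) (ZMod 11)) := by
  funext i j
  show A i 0 * B 0 j + A i 1 * B 1 j = (A * B) i j
  rw [Matrix.mul_apply, Fin.sum_univ_two]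

theorem mk4_eta (M : Fin 2 → Fin 2 → ZMod 5) : mk4 (M 0 0) (M 0 1) (M 1 0) (M 1 1) = M := by
  funext i j
  fin_cases i <;> fin_cases j <;> rfl

theorem d2_eq_det {R : Type*} [CommRing R] (M : Matrix (Fin 2) (Fin 2) R) :
    d2 (M 0 0) (M 0 1) (M 1 0) (M 1 1) = M.det := by
  rw [Matrix.det_fin_two]
  rfl

theorem one_eq_I4 : ((1 : Matrix (Fin 2) (Fin 2) (ZMod 5)) : Fin 2 → Fin 2 → ZMod 5) = I4 := by
  funext i j
  fin_cases i <;> fin_cases j <;> rfl

theorem tv_eq_ra (i j : Fin 2) (c : ZMod 5) (M : Matrix (Fin 2) (Fin 2) (ZMod 5)) :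
    ((Matrix.transvection i j c * M : Matrix (Fin 2) (Fin 2) (ZMod 5)) :
      Fin 2 → Fin 2 → ZMod 5) = ra i j c M := by
  funext r s
  by_cases h : r = i
  · subst h
    show (Matrix.transvection r j c * M : Matrix (Fin 2) (Fin 2) (ZMod 5)) r s
      = if r = r then M r s + c * M j s else M r s
    rw [if_pos rfl, Matrix.transvection_mul_apply_same]
  · show (Matrix.transvection i j c * M : Matrix (Fin 2) (Fin 2) (ZMod 5)) r s
      = if r = i then M i s + c * M j s else M r s
    rw [if_neg h]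
    exact Matrix.transvection_mul_apply_of_ne i j r s h c M

theorem tv_eq_ra_I4 (i j : Fin 2) (c : ZMod 5) :
    ((Matrix.transvection i j c : Matrix (Fin 2) (Fin 2) (ZMod 5)) :
      Fin 2 → Fin 2 → ZMod 5) = ra i j c I4 := by
  have h := tv_eq_ra i j c 1
  rw [mul_one] at h
  exact h.trans (congrArg (ra i j c) one_eq_I4)

/-- The image, as a matrix. -/
def FM (M : Matrix (Fin 2) (Fin 2) (ZMod 5)) : Matrix (Fin 2) (Fin 2) (ZMod 11) := Fm M

theorem FM_one : FM 1 = 1 := by
  have h : (Fm (1 : Matrix (Fin 2) (Fin 2) (ZMod 5)) : Fin 2 → Fin 2 → ZMod 11) = Fm I4 :=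
    congrArg Fm one_eq_I4
  funext i j
  rw [Matrix.one_apply]
  exact (congrFun (congrFun h i) j).trans (t_one i j)

theorem FM_tv_mul {i j : Fin 2} (hij : i ≠ j) (c : ZMod 5) (B : Matrix (Fin 2) (Fin 2) (ZMod 5))
    (hB : B.det = 1) :
    FM (Matrix.transvection i j c * B) = FM (Matrix.transvection i j c) * FM B := by
  have h := t_mul i j hij c (B 0 0) (B 0 1) (B 1 0) (B 1 1) (by rw [d2_eq_det]; exact hB)
  rw [mk4_eta B] at h
  have h1 : (Fm (Matrix.transvection i j c * B) : Fin 2 → Fin 2 → ZMod 11) =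
      mm (Fm (Matrix.transvection i j c)) (Fm B) :=
    (congrArg Fm (tv_eq_ra i j c B)).trans
      (h.trans (congrArg (fun X => mm (Fm X) (Fm B)) (tv_eq_ra_I4 i j c).symm))
  exact h1.trans (mm_eq _ _)

theorem FM_tv_det {i j : Fin 2} (hij : i ≠ j) (c : ZMod 5) :
    (FM (Matrix.transvection i j c)).det = 1 := by
  have h := t_det i j hij c
  rw [← tv_eq_ra_I4] at h
  rw [← d2_eq_det]
  exact h

theorem FM_tv_ne : FM (Matrix.transvection 0 1 1) 0 1 ≠ 0 := by
  have h := t_ne
  rw [← tv_eq_ra_I4] at h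
  exact h

theorem FM_neg (i j : Fin 2) :
    FM (Matrix.scalar (Fin 2) (4 : ZMod 5)) i j = if i = j then -1 else 0 := by
  have h : ((Matrix.scalar (Fin 2) (4 : ZMod 5) : Matrix (Fin 2) (Fin 2) (ZMod 5)) :
      Fin 2 → Fin 2 → ZMod 5) = mk4 4 0 0 4 := by
    have hd : ∀ r s : Fin 2, (if r = s then (4 : ZMod 5) else 0) = mk4 4 0 0 4 r s := by decide
    funext r s
    show (Matrix.scalar (Fin 2) (4 : ZMod 5)) r s = mk4 4 0 0 4 r s
    rw [Matrix.scalar_apply, Matrix.diagonal_apply]
    exact hd r s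
  have h2 : Fm (Matrix.scalar (Fin 2) (4 : ZMod 5)) = Fm (mk4 4 0 0 4) := congrArg Fm h
  have h3 : Fm (Matrix.scalar (Fin 2) (4 : ZMod 5)) i j = Fm (mk4 4 0 0 4) i j := by rw [h2]
  have h4 : Fm (mk4 4 0 0 4) i j = if i = j then -1 else 0 := t_neg i j
  have h5 : FM (Matrix.scalar (Fin 2) (4 : ZMod 5)) i j = Fm (mk4 4 0 0 4) i j := h3
  exact h5.trans h4

/-- Five is prime. -/
theorem fact_prime_5 : Fact (Nat.Prime 5) := ⟨by norm_num⟩

/-- Eleven is prime. -/
theorem fact_prime_11 : Fact (Nat.Prime 11) := ⟨by norm_num⟩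

/-- The table is multiplicative, with values of determinant one. -/
theorem key (A : SL25) :
    (∀ B : SL25, FM (A * B).1 = FM A.1 * FM B.1) ∧ (FM A.1).det = 1 := by
  have := fact_prime_5
  refine Cfsg.Agent.Lib.Helper2.SLGen.transvection_induction
    (fun A : SL25 => (∀ B : SL25, FM (A * B).1 = FM A.1 * FM B.1) ∧ (FM A.1).det = 1) ?_ ?_ A
  · intro i j hij c
    have hT : ((Matrix.SpecialLinearGroup.transvection hij c : SL25).1 :
        Matrix (Fin 2) (Fin 2) (ZMod 5)) = Matrix.transvection i j c := rfl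
    refine ⟨fun B => ?_, ?_⟩
    · rw [Matrix.SpecialLinearGroup.coe_mul, hT]
      exact FM_tv_mul hij c B.1 B.2
    · rw [hT]
      exact FM_tv_det hij c
  · intro A B hA hB
    have hAB : FM (A * B).1 = FM A.1 * FM B.1 := hA.1 B
    refine ⟨fun C => ?_, ?_⟩
    · rw [mul_assoc, hA.1 (B * C), hB.1 C, hAB, mul_assoc]
    · rw [hAB, Matrix.det_mul, hA.2, hB.2, mul_one]

section field

variable {F : Type*} [Field F]

/-- The homomorphism into the special linear group over a field of characteristic eleven. -/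
noncomputable def phi (ι : ZMod 11 →+* F) : SL25 →* Matrix.SpecialLinearGroup (Fin 2) F where
  toFun A := ⟨(FM A.1).map ι, by
    rw [← RingHom.mapMatrix_apply, ← RingHom.map_det, (key A).2, map_one]⟩
  map_one' := by
    apply Subtype.ext
    show (FM (1 : SL25).1).map ι = 1
    rw [Matrix.SpecialLinearGroup.coe_one, FM_one, Matrix.map_one ι (map_zero ι) (map_one ι)]
  map_mul' A B := by
    apply Subtype.ext
    show (FM (A * B).1).map ι = (FM A.1).map ι * (FM B.1).map ι
    rw [(key A).1 B, Matrix.map_mul]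

theorem phi_val (ι : ZMod 11 →+* F) (A : SL25) (i j : Fin 2) :
    ((phi ι A).1 : Matrix (Fin 2) (Fin 2) F) i j = ι (FM A.1 i j) := rfl

/-- Central elements are sent to central elements. -/
theorem phi_center (ι : ZMod 11 →+* F) (z : SL25) (hz : z ∈ Subgroup.center SL25) :
    phi ι z ∈ Subgroup.center (Matrix.SpecialLinearGroup (Fin 2) F) := by
  rw [Matrix.SpecialLinearGroup.mem_center_iff] at hz
  obtain ⟨r, hr, hz⟩ := hz
  rw [Fintype.card_fin] at hr
  rcases t_sq r hr with rfl | rfl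
  · have h1 : z = 1 := by
      apply Subtype.ext
      rw [← hz, map_one, Matrix.SpecialLinearGroup.coe_one]
    rw [h1, map_one]
    exact Subgroup.one_mem _
  · rw [Matrix.SpecialLinearGroup.mem_center_iff]
    refine ⟨-1, by rw [Fintype.card_fin]; ring, ?_⟩
    ext i j
    rw [phi_val, ← hz, FM_neg, Matrix.scalar_apply, Matrix.diagonal_apply]
    split_ifs
    · rw [map_neg, map_one]
    · exact (map_zero ι).symm

/-- The image of a transvection is not central. -/
theorem phi_tv_not_center (ι : ZMod 11 →+* F) (hι : Function.Injective ι) :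
    phi ι (Matrix.SpecialLinearGroup.transvection (i := (0 : Fin 2)) (j := 1) (by decide) 1)
      ∉ Subgroup.center (Matrix.SpecialLinearGroup (Fin 2) F) := by
  intro h
  rw [Matrix.SpecialLinearGroup.mem_center_iff] at h
  obtain ⟨r, -, hr⟩ := h
  have h1 := congrFun (congrFun hr 0) 1
  rw [Matrix.scalar_apply, Matrix.diagonal_apply, if_neg (by decide), phi_val] at h1
  have h2 : FM (Matrix.transvection 0 1 1) 0 1 = 0 := hι (h1.symm.trans (map_zero ι).symm)
  exact FM_tv_ne h2

end field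

end Cfsg.Agent.Lib.Helper2.L11Tab
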