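import Mathlib
import Cfsg.Agent.Lib.Helper2.L27Cls

set_option autoImplicit false

namespace Cfsg.Agent.Lib.Helper2.L27Cls

open Cfsg.Agent.Lib.Helper2.U33Tab (mk9 d3 I9 SL32 mk9_eta d3_eq_det one_eq_I9)

/-- An element of order four commuting with the involution. -/
def X4 : M9 := mk9 1 0 1 0 1 0 0 1 1

/-- A second involution commuting with the involution. -/
def S4 : M9 := mk9 1 0 1 0 1 0 0 0 1

/-- The dihedral group of order eight, inside the centralizer of the involution. -/
def FD : DihedralGroup 4 → M9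
  | DihedralGroup.r i => pw X4 i.val
  | DihedralGroup.sr i => m2 S4 (pw X4 i.val)

theorem FD_det : ∀ a : DihedralGroup 4, d3 (FD a 0 0) (FD a 0 1) (FD a 0 2) (FD a 1 0) (FD a 1 1)
    (FD a 1 2) (FD a 2 0) (FD a 2 1) (FD a 2 2) = 1 := by
  decide +kernel

theorem FD_mul : ∀ a b : DihedralGroup 4, FD (a * b) = m2 (FD a) (FD b) := by
  decide +kernel

theorem FD_inj : ∀ a : DihedralGroup 4, FD a = I9 → a = 1 := by
  decide +kernel

theorem FD_comm : ∀ a : DihedralGroup 4, m2 (FD a) R2 = m2 R2 (FD a) := by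
  decide +kernel

end Cfsg.Agent.Lib.Helper2.L27Cls
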