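import Mathlib
import Cfsg.Agent.Lib.Helper2.L27Br
import Cfsg.Agent.Lib.Helper2.L27Dih

set_option autoImplicit false

namespace Cfsg.Agent.Lib.Helper2.L27Cls

open Cfsg.Agent.Lib.Helper2.U33Tab (mk9 d3 I9 SL32 mk9_eta d3_eq_det one_eq_I9)

theorem ofM_coe (M : M9)
    (h : d3 (M 0 0) (M 0 1) (M 0 2) (M 1 0) (M 1 1) (M 1 2) (M 2 0) (M 2 1) (M 2 2) = 1) :
    ((ofM M h).1 : M9) = M := rfl

theorem r2_coe : (r2.1 : M9) = R2 := rfl

/-- The dihedral group of order eight inside the centralizer of the involution. -/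
def fD : DihedralGroup 4 →* SL32 :=
  MonoidHom.mk' (fun a => ofM (FD a) (FD_det a)) (fun a b => by
    refine (eq_iff _ _).mpr ?_
    rw [coe_mul, ofM_coe, ofM_coe, ofM_coe]
    exact FD_mul a b)

theorem fD_coe (a : DihedralGroup 4) : ((fD a).1 : M9) = FD a := rfl

theorem fD_injective : Function.Injective fD :=
  (injective_iff_map_eq_one fD).mpr (fun a ha =>
    FD_inj a ((fD_coe a).symm.trans ((eq_one_iff _).mp ha)))

theorem fD_comm (a : DihedralGroup 4) : fD a * r2 = r2 * fD a := by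
  refine (eq_iff _ _).mpr ?_
  rw [coe_mul, coe_mul, fD_coe, r2_coe]
  exact FD_comm a

/-- In a group isomorphic to it, the centralizer of an involution contains a dihedral group of
order eight. -/
theorem t_dih {G : Type*} [Group G] (e : G ≃* SL32) {z : G} (hz : orderOf z = 2) :
    ∃ ψ : DihedralGroup 4 →* G, Function.Injective ψ ∧ ∀ a, ψ a * z = z * ψ a := by
  obtain ⟨C, hC⟩ := isConj_iff.mp (conj_two (t_ord e hz)).symm
  have hcomm : ∀ a, e.symm (C * fD a * C⁻¹) * z = z * e.symm (C * fD a * C⁻¹) := by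
    intro a
    have hw : e (e.symm (C * fD a * C⁻¹)) = C * fD a * C⁻¹ := e.apply_symm_apply _
    generalize e.symm (C * fD a * C⁻¹) = w at hw ⊢
    apply e.injective
    rw [map_mul, map_mul, hw, ← hC]
    have h1 := fD_comm a
    calc C * fD a * C⁻¹ * (C * r2 * C⁻¹) = C * (fD a * r2) * C⁻¹ := by group
      _ = C * (r2 * fD a) * C⁻¹ := by rw [h1]
      _ = C * r2 * C⁻¹ * (C * fD a * C⁻¹) := by group
  refine ⟨e.symm.toMonoidHom.comp ((MulAut.conj C).toMonoidHom.comp fD), ?_, ?_⟩
  · intro a b hab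
    apply fD_injective
    have h1 : (MulAut.conj C) (fD a) = (MulAut.conj C) (fD b) := e.symm.injective hab
    exact (MulAut.conj C).injective h1
  · intro a
    exact hcomm a

end Cfsg.Agent.Lib.Helper2.L27Cls
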