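import Mathlib
import Cfsg.Agent.Lib.Helper2.L27Br
import Cfsg.Agent.Lib.Helper2.L27Syl
import Cfsg.Agent.Lib.Helper2.L27Iso
import Cfsg.Agent.Lib.Helper2.L27KlTab
import Cfsg.Agent.Lib.Helper2.Klein
import Cfsg.Agent.Lib.Helper2.SimpleIndex
import Cfsg.Agent.S0502

set_option autoImplicit false

namespace Cfsg.Agent.Lib.Helper2.L27Cls

open Cfsg.Agent.Lib.Helper2.U33Tab (mk9 d3 I9 SL32 mk9_eta d3_eq_det one_eq_I9)

open Cfsg.Agent.S0502 (four mem_four four_le four_isKleinFour)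

/-! ### The two four-groups in the centralizer of the involution -/

/-- The second generator of the first four-group. -/
def ka1 : SL32 := ofM KA1 kl_facts1.1

/-- The second generator of the other four-group. -/
def ka2 : SL32 := ofM KA2 kl_facts2.1

theorem r2_mul_self : r2 * r2 = 1 := (eq_one_iff _).mpr ((coe_mul r2 r2).trans R2_sq)

theorem r2_ne_one : r2 ≠ 1 := fun h => R2_facts.2.1 ((eq_one_iff r2).mp h)

theorem ka1_ne_one : ka1 ≠ 1 := fun h => kl_facts1.2.1 ((eq_one_iff ka1).mp h)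

theorem ka1_ne_r2 : ka1 ≠ r2 := fun h => kl_facts1.2.2.1 ((eq_iff ka1 r2).mp h)

theorem ka1_sq : ka1 * ka1 = 1 :=
  (eq_one_iff _).mpr ((coe_mul ka1 ka1).trans kl_facts1.2.2.2.1)

theorem ka1_comm : r2 * ka1 = ka1 * r2 :=
  (eq_iff _ _).mpr ((coe_mul r2 ka1).trans (kl_facts1.2.2.2.2.1.trans (coe_mul ka1 r2).symm))

theorem ka2_ne_one : ka2 ≠ 1 := fun h => kl_facts2.2.1 ((eq_one_iff ka2).mp h)

theorem ka2_ne_r2 : ka2 ≠ r2 := fun h => kl_facts2.2.2.1 ((eq_iff ka2 r2).mp h)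

theorem ka2_sq : ka2 * ka2 = 1 :=
  (eq_one_iff _).mpr ((coe_mul ka2 ka2).trans kl_facts2.2.2.2.1)

theorem ka2_comm : r2 * ka2 = ka2 * r2 :=
  (eq_iff _ _).mpr ((coe_mul r2 ka2).trans (kl_facts2.2.2.2.2.1.trans (coe_mul ka2 r2).symm))

theorem inV_mem {X A : SL32} (h : inV (X.1 : M9) (A.1 : M9)) :
    A = 1 ∨ A = r2 ∨ A = X ∨ A = r2 * X := by
  unfold inV at h
  rcases h with h | h | h | h
  · exact Or.inl ((eq_one_iff A).mpr h)
  · exact Or.inr (Or.inl ((eq_iff A r2).mpr h))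
  · exact Or.inr (Or.inr (Or.inl ((eq_iff A X).mpr h)))
  · exact Or.inr (Or.inr (Or.inr ((eq_iff A (r2 * X)).mpr (h.trans (coe_mul r2 X).symm))))

theorem mem_inV {X A : SL32} (h : A = 1 ∨ A = r2 ∨ A = X ∨ A = r2 * X) :
    inV (X.1 : M9) (A.1 : M9) := by
  unfold inV
  rcases h with h | h | h | h
  · exact Or.inl ((eq_one_iff A).mp h)
  · exact Or.inr (Or.inl ((eq_iff A r2).mp h))
  · exact Or.inr (Or.inr (Or.inl ((eq_iff A X).mp h)))
  · exact Or.inr (Or.inr (Or.inr (((eq_iff A (r2 * X)).mp h).trans (coe_mul r2 X))))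

theorem of_cj {X C : SL32} (Y : SL32) (h : cjV (X.1 : M9) (C.1 : M9) (Y.1 : M9)) :
    C * Y * C⁻¹ = r2 ∨ C * Y * C⁻¹ = X ∨ C * Y * C⁻¹ = r2 * X := by
  have key : ∀ Z : SL32, m2 (C.1 : M9) (Y.1 : M9) = m2 (Z.1 : M9) (C.1 : M9) →
      C * Y * C⁻¹ = Z := by
    intro Z hZ
    have h' : C * Y = Z * C :=
      (eq_iff _ _).mpr ((coe_mul C Y).trans (hZ.trans (coe_mul Z C).symm))
    rw [h', mul_inv_cancel_right]
  unfold cjV at h
  rcases h with h | h | h
  · exact Or.inl (key r2 h)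
  · exact Or.inr (Or.inl (key X h))
  · exact Or.inr (Or.inr (key (r2 * X) (by rw [coe_mul]; exact h)))

theorem cj_of {X C : SL32} (Y : SL32) (hY : Y ≠ 1)
    (h : C * Y * C⁻¹ = 1 ∨ C * Y * C⁻¹ = r2 ∨ C * Y * C⁻¹ = X ∨ C * Y * C⁻¹ = r2 * X) :
    cjV (X.1 : M9) (C.1 : M9) (Y.1 : M9) := by
  have key : ∀ Z : SL32, C * Y * C⁻¹ = Z →
      m2 (C.1 : M9) (Y.1 : M9) = m2 (Z.1 : M9) (C.1 : M9) := by
    intro Z hZ
    have h' : C * Y = Z * C := by rw [← hZ, inv_mul_cancel_right]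
    exact (coe_mul C Y).symm.trans
      ((congrArg (fun W : SL32 => (W.1 : M9)) h').trans (coe_mul Z C))
  unfold cjV
  rcases h with h | h | h | h
  · exfalso
    apply hY
    have h1 : C * Y = C := by
      rw [← mul_inv_eq_one]
      exact h
    exact mul_left_cancel (h1.trans (mul_one C).symm)
  · exact Or.inl (key r2 h)
  · exact Or.inr (Or.inl (key X h))
  · refine Or.inr (Or.inr ?_)
    have h1 := key (r2 * X) h
    rw [coe_mul] at h1
    exact h1

/-- The symmetric group of degree four normalizing the first four-group. -/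
def fS1 : Equiv.Perm (Fin 4) →* SL32 :=
  MonoidHom.mk' (fun a => ofM (FS1 a) (FS1_det a)) (fun a b => by
    refine (eq_iff _ _).mpr ?_
    rw [coe_mul, ofM_coe, ofM_coe, ofM_coe]
    exact FS1_mul a b)

theorem fS1_coe (a : Equiv.Perm (Fin 4)) : ((fS1 a).1 : M9) = FS1 a := rfl

theorem fS1_injective : Function.Injective fS1 :=
  (injective_iff_map_eq_one fS1).mpr (fun a ha =>
    FS1_inj a ((fS1_coe a).symm.trans ((eq_one_iff _).mp ha)))

/-- The symmetric group of degree four normalizing the other four-group. -/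
def fS2 : Equiv.Perm (Fin 4) →* SL32 :=
  MonoidHom.mk' (fun a => ofM (FS2 a) (FS2_det a)) (fun a b => by
    refine (eq_iff _ _).mpr ?_
    rw [coe_mul, ofM_coe, ofM_coe, ofM_coe]
    exact FS2_mul a b)

theorem fS2_coe (a : Equiv.Perm (Fin 4)) : ((fS2 a).1 : M9) = FS2 a := rfl

theorem fS2_injective : Function.Injective fS2 :=
  (injective_iff_map_eq_one fS2).mpr (fun a ha =>
    FS2_inj a ((fS2_coe a).symm.trans ((eq_one_iff _).mp ha)))

/-! ### In a group isomorphic to it -/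

section KU

variable {G : Type*} [Group G] (e : G ≃* SL32)

/-- The four-group spanned by the central involution and `X`, pulled back. -/
def kU (X : SL32) (h2 : X * X = 1) (hc : r2 * X = X * r2) : Subgroup G :=
  four (e.symm r2) (e.symm X)
    (by rw [pow_two, ← map_mul, r2_mul_self, map_one])
    (by rw [pow_two, ← map_mul, h2, map_one])
    (by rw [← map_mul, ← map_mul, hc])

theorem mem_kU (X : SL32) (h2 : X * X = 1) (hc : r2 * X = X * r2) (g : G) :
    g ∈ kU e X h2 hc ↔ e g = 1 ∨ e g = r2 ∨ e g = X ∨ e g = r2 * X := by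
  have h1 : g = 1 ↔ e g = 1 :=
    ⟨fun h => by rw [h, map_one], fun h => e.injective (by rw [h, map_one])⟩
  unfold kU
  rw [mem_four, ← map_mul, MulEquiv.eq_symm_apply, MulEquiv.eq_symm_apply,
    MulEquiv.eq_symm_apply, h1]

theorem kU_klein (X : SL32) (h2 : X * X = 1) (hc : r2 * X = X * r2) (hX1 : X ≠ 1)
    (hXr : X ≠ r2) : IsKleinFour (kU e X h2 hc) := by
  unfold kU
  apply four_isKleinFour
  · intro h
    exact r2_ne_one (e.symm.injective (h.trans (map_one e.symm).symm))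
  · intro h
    exact hX1 (e.symm.injective (h.trans (map_one e.symm).symm))
  · intro h
    exact hXr (e.symm.injective h).symm

theorem kU_le (X : SL32) (h2 : X * X = 1) (hc : r2 * X = X * r2) :
    kU e X h2 hc ≤ Subgroup.centralizer ({e.symm r2} : Set G) := by
  unfold kU
  apply four_le
  · exact Subgroup.mem_centralizer_singleton_iff.mpr rfl
  · rw [Subgroup.mem_centralizer_singleton_iff, ← map_mul, ← map_mul, hc]

theorem exists_pair [Finite G] (U : Subgroup G) (hU : IsKleinFour U) :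
    ∃ a b : G, a ∈ U ∧ b ∈ U ∧ a ≠ 1 ∧ b ≠ 1 ∧ a ≠ b := by
  classical
  have hc : Nat.card U = 4 := hU.card_four
  by_contra hcon
  push Not at hcon
  have hinj : Function.Injective (fun x : U => decide (x = 1)) := by
    intro x y hxy
    by_cases hx : x = 1
    · by_cases hy : y = 1
      · rw [hx, hy]
      · simp [hx, hy] at hxy
    · by_cases hy : y = 1
      · simp [hx, hy] at hxy
      · exact Subtype.ext (hcon x.1 y.1 x.2 y.2 (fun h => hx (Subtype.ext h))
          (fun h => hy (Subtype.ext h)))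
  have h2 := Nat.card_le_card_of_injective _ hinj
  rw [hc] at h2
  simp at h2

theorem eq_kU_of [Finite G] (U : Subgroup G) (hU : IsKleinFour U) (X : SL32) (h2 : X * X = 1)
    (hc : r2 * X = X * r2) (hX1 : X ≠ 1) (hXr : X ≠ r2) {a b : G} (ha : a ∈ U) (hb : b ∈ U)
    (ha1 : a ≠ 1) (hb1 : b ≠ 1) (hab : a ≠ b) (hA : inV (X.1 : M9) ((e a).1 : M9))
    (hB : inV (X.1 : M9) ((e b).1 : M9)) : U = kU e X h2 hc := by
  have hak : a ∈ kU e X h2 hc := (mem_kU e X h2 hc a).mpr (inV_mem hA)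
  have hbk : b ∈ kU e X h2 hc := (mem_kU e X h2 hc b).mpr (inV_mem hB)
  have hle : U ≤ kU e X h2 hc := by
    intro w hw
    rcases Cfsg.Agent.Lib.Helper2.Klein.all4 U hU a b ha hb ha1 hb1 hab w hw with
      h | h | h | h
    · rw [h]; exact one_mem _
    · rw [h]; exact hak
    · rw [h]; exact hbk
    · rw [h]; exact mul_mem hak hbk
  exact Subgroup.eq_of_le_of_card_ge hle
    (by rw [hU.card_four, (kU_klein e X h2 hc hX1 hXr).card_four])

/-- The four-groups in the centralizer of the involution are the two given ones. -/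
theorem kl_classify [Finite G] (U : Subgroup G)
    (hle : U ≤ Subgroup.centralizer ({e.symm r2} : Set G)) (hU : IsKleinFour U) :
    U = kU e ka1 ka1_sq ka1_comm ∨ U = kU e ka2 ka2_sq ka2_comm := by
  obtain ⟨a, b, ha, hb, ha1, hb1, hab⟩ := exists_pair U hU
  have haa := Cfsg.Agent.Lib.Helper2.Klein.sq_eq_one U hU a ha
  have hbb := Cfsg.Agent.Lib.Helper2.Klein.sq_eq_one U hU b hb
  have hcomm := Cfsg.Agent.Lib.Helper2.Klein.comm U hU a b ha hb
  have hz : ∀ x ∈ U, e x * r2 = r2 * e x := by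
    intro x hx
    have h1 := Subgroup.mem_centralizer_singleton_iff.mp (hle hx)
    have h2 := congrArg e h1
    rwa [map_mul, map_mul, e.apply_symm_apply] at h2
  have hA1 : ((e a).1 : M9) ≠ I9 := fun h =>
    ha1 (e.injective (((eq_one_iff _).mpr h).trans (map_one e).symm))
  have hB1 : ((e b).1 : M9) ≠ I9 := fun h =>
    hb1 (e.injective (((eq_one_iff _).mpr h).trans (map_one e).symm))
  have hBA : ((e b).1 : M9) ≠ ((e a).1 : M9) := fun h =>
    hab (e.injective ((eq_iff _ _).mpr h)).symm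
  have hAA : m2 ((e a).1 : M9) ((e a).1 : M9) = I9 := by
    rw [← coe_mul, ← map_mul, haa, map_one]
    exact one_eq_I9
  have hBB : m2 ((e b).1 : M9) ((e b).1 : M9) = I9 := by
    rw [← coe_mul, ← map_mul, hbb, map_one]
    exact one_eq_I9
  have hAB : m2 ((e a).1 : M9) ((e b).1 : M9) = m2 ((e b).1 : M9) ((e a).1 : M9) := by
    rw [← coe_mul, ← coe_mul, ← map_mul, ← map_mul, hcomm]
  have hAz : m2 ((e a).1 : M9) R2 = m2 R2 ((e a).1 : M9) := comm_coe (hz a ha)
  have hBz : m2 ((e b).1 : M9) R2 = m2 R2 ((e b).1 : M9) := comm_coe (hz b hb)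
  rcases all9_elim (all9_elim kl_class (e a) hAz hA1 hAA) (e b) hBz hB1 hBA hBB hAB with
    ⟨h1, h2⟩ | ⟨h1, h2⟩
  · exact Or.inl (eq_kU_of e U hU ka1 ka1_sq ka1_comm ka1_ne_one ka1_ne_r2 ha hb ha1 hb1 hab
      h1 h2)
  · exact Or.inr (eq_kU_of e U hU ka2 ka2_sq ka2_comm ka2_ne_one ka2_ne_r2 ha hb ha1 hb1 hab
      h1 h2)

theorem kU_ne : kU e ka1 ka1_sq ka1_comm ≠ kU e ka2 ka2_sq ka2_comm := by
  intro h
  have h1 : e.symm ka1 ∈ kU e ka1 ka1_sq ka1_comm :=
    (mem_kU e ka1 ka1_sq ka1_comm _).mpr (Or.inr (Or.inr (Or.inl (e.apply_symm_apply ka1))))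
  rw [h, mem_kU, e.apply_symm_apply] at h1
  exact kl_facts1.2.2.2.2.2 (mem_inV h1)

theorem kU_nc_gen (X X' : SL32) (h2 : X * X = 1) (hc : r2 * X = X * r2) (h2' : X' * X' = 1)
    (hc' : r2 * X' = X' * r2) (hX1 : X ≠ 1)
    (hnc : ∀ C : SL32, ¬ (cjV (X'.1 : M9) (C.1 : M9) R2 ∧ cjV (X'.1 : M9) (C.1 : M9) (X.1 : M9)))
    (g : G) : (kU e X h2 hc).map (MulAut.conj g).toMonoidHom ≠ kU e X' h2' hc' := by
  intro hmap
  have hmem : ∀ x ∈ kU e X h2 hc, g * x * g⁻¹ ∈ kU e X' h2' hc' := by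
    intro x hx
    rw [← hmap]
    exact ⟨x, hx, rfl⟩
  have h1 := (mem_kU e X' h2' hc' _).mp (hmem (e.symm r2)
    ((mem_kU e X h2 hc _).mpr (Or.inr (Or.inl (e.apply_symm_apply r2)))))
  have h3 := (mem_kU e X' h2' hc' _).mp (hmem (e.symm X)
    ((mem_kU e X h2 hc _).mpr (Or.inr (Or.inr (Or.inl (e.apply_symm_apply X))))))
  rw [map_mul, map_mul, map_inv, e.apply_symm_apply] at h1 h3
  exact hnc (e g) ⟨cj_of r2 r2_ne_one h1, cj_of X hX1 h3⟩

theorem kU_nc (g : G) : (kU e ka1 ka1_sq ka1_comm).map (MulAut.conj g).toMonoidHom ≠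
    kU e ka2 ka2_sq ka2_comm :=
  kU_nc_gen e ka1 ka2 ka1_sq ka1_comm ka2_sq ka2_comm ka1_ne_one
    (fun C => all9_elim kl_nc C) g

theorem kU_nc' (g : G) : (kU e ka2 ka2_sq ka2_comm).map (MulAut.conj g).toMonoidHom ≠
    kU e ka1 ka1_sq ka1_comm :=
  kU_nc_gen e ka2 ka1 ka2_sq ka2_comm ka1_sq ka1_comm ka2_ne_one
    (fun C => all9_elim kl_nc' C) g

theorem kU_norm [Finite G] [IsSimpleGroup G] (h : Nat.card G = 168) (X : SL32)
    (h2 : X * X = 1) (hc : r2 * X = X * r2) (hX1 : X ≠ 1) (hXr : X ≠ r2)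
    (f : Equiv.Perm (Fin 4) →* SL32) (hf : Function.Injective f)
    (hn : ∀ σ, cjV (X.1 : M9) ((f σ).1 : M9) R2 ∧ cjV (X.1 : M9) ((f σ).1 : M9) (X.1 : M9)) :
    Nonempty (↥(Subgroup.normalizer ((kU e X h2 hc : Subgroup G) : Set G)) ≃*
      Equiv.Perm (Fin 4)) := by
  obtain ⟨ψ, hψe⟩ : ∃ ψ : Equiv.Perm (Fin 4) →* G, ∀ σ, e (ψ σ) = f σ :=
    ⟨e.symm.toMonoidHom.comp f, fun σ => e.apply_symm_apply _⟩
  have hψ : Function.Injective ψ := by
    intro a b hab
    apply hf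
    rw [← hψe, ← hψe, hab]
  have hgen : ∀ σ, ∀ x ∈ kU e X h2 hc, ψ σ * x * (ψ σ)⁻¹ ∈ kU e X h2 hc := by
    intro σ x hx
    have hz : ψ σ * e.symm r2 * (ψ σ)⁻¹ ∈ kU e X h2 hc := by
      rw [mem_kU, map_mul, map_mul, map_inv, e.apply_symm_apply, hψe]
      exact Or.inr (of_cj r2 (hn σ).1)
    have hx' : ψ σ * e.symm X * (ψ σ)⁻¹ ∈ kU e X h2 hc := by
      rw [mem_kU, map_mul, map_mul, map_inv, e.apply_symm_apply, hψe]
      exact Or.inr (of_cj X (hn σ).2)
    unfold kU at hx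
    rcases mem_four.mp hx with h | h | h | h
    · rw [h, mul_one, mul_inv_cancel]
      exact one_mem _
    · rw [h]; exact hz
    · rw [h]; exact hx'
    · have h3 : ψ σ * (e.symm r2 * e.symm X) * (ψ σ)⁻¹ =
          (ψ σ * e.symm r2 * (ψ σ)⁻¹) * (ψ σ * e.symm X * (ψ σ)⁻¹) := by group
      rw [h, h3]
      exact mul_mem hz hx'
  have hle : ψ.range ≤ Subgroup.normalizer ((kU e X h2 hc : Subgroup G) : Set G) := by
    rintro _ ⟨σ, rfl⟩
    rw [Subgroup.mem_normalizer_iff]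
    intro x
    constructor
    · exact hgen σ x
    · intro hx
      have h3 := hgen σ⁻¹ _ hx
      rw [map_inv, inv_inv] at h3
      have h4 : (ψ σ)⁻¹ * (ψ σ * x * (ψ σ)⁻¹) * ψ σ = x := by group
      rwa [h4] at h3
  have h24 : Nat.card ψ.range = 24 := by
    rw [← Nat.card_congr (MonoidHom.ofInjective hψ).toEquiv, Nat.card_perm, Nat.card_fin]
    rfl
  have hd1 : 24 ∣ Nat.card (Subgroup.normalizer ((kU e X h2 hc : Subgroup G) : Set G)) := by
    rw [← h24]
    exact Subgroup.card_dvd_of_le hle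
  have hd2 : Nat.card (Subgroup.normalizer ((kU e X h2 hc : Subgroup G) : Set G)) ∣ 168 := by
    rw [← h]
    exact Subgroup.card_subgroup_dvd_card _
  have hne : Nat.card (Subgroup.normalizer ((kU e X h2 hc : Subgroup G) : Set G)) ≠ 168 := by
    intro h168
    have htop : Subgroup.normalizer ((kU e X h2 hc : Subgroup G) : Set G) = ⊤ := by
      rw [← Subgroup.card_eq_iff_eq_top, h168, h]
    have hnorm : (kU e X h2 hc).Normal := Subgroup.normalizer_eq_top_iff.mp htop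
    have hcard4 := (kU_klein e X h2 hc hX1 hXr).card_four
    rcases hnorm.eq_bot_or_eq_top with hb | ht
    · rw [hb, Subgroup.card_bot] at hcard4
      omega
    · rw [ht, Subgroup.card_top, h] at hcard4
      omega
  have hc24 : Nat.card (Subgroup.normalizer ((kU e X h2 hc : Subgroup G) : Set G)) = 24 := by
    obtain ⟨k, hk⟩ := hd1
    rw [hk] at hd2 hne ⊢
    have hk7 : k ∣ 7 := (Nat.mul_dvd_mul_iff_left (by norm_num : 0 < 24)).mp hd2
    rcases (Nat.dvd_prime (by norm_num : Nat.Prime 7)).mp hk7 with h1 | h7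
    · rw [h1]
    · rw [h7] at hne
      exact absurd rfl hne
  have hr : ψ.range = Subgroup.normalizer ((kU e X h2 hc : Subgroup G) : Set G) :=
    Subgroup.eq_of_le_of_card_ge hle (by rw [h24, hc24])
  exact ⟨(MulEquiv.subgroupCongr hr).symm.trans (MonoidHom.ofInjective hψ).symm⟩

theorem kU_norm1 [Finite G] [IsSimpleGroup G] (h : Nat.card G = 168) :
    Nonempty (↥(Subgroup.normalizer ((kU e ka1 ka1_sq ka1_comm : Subgroup G) : Set G)) ≃*
      Equiv.Perm (Fin 4)) :=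
  kU_norm e h ka1 ka1_sq ka1_comm ka1_ne_one ka1_ne_r2 fS1 fS1_injective (fun σ => FS1_norm σ)

theorem kU_norm2 [Finite G] [IsSimpleGroup G] (h : Nat.card G = 168) :
    Nonempty (↥(Subgroup.normalizer ((kU e ka2 ka2_sq ka2_comm : Subgroup G) : Set G)) ≃*
      Equiv.Perm (Fin 4)) :=
  kU_norm e h ka2 ka2_sq ka2_comm ka2_ne_one ka2_ne_r2 fS2 fS2_injective (fun σ => FS2_norm σ)

include e in
/-- An isomorphism taking a given involution to the chosen one. -/
theorem exists_adapted {z : G} (hz : orderOf z = 2) : ∃ e' : G ≃* SL32, e'.symm r2 = z := by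
  obtain ⟨C, hC⟩ := isConj_iff.mp (conj_two (t_ord e hz))
  refine ⟨e.trans (MulAut.conj C), ?_⟩
  rw [MulEquiv.symm_apply_eq]
  exact hC.symm

include e in
/-- A Sylow 2-subgroup is the centralizer of an involution. -/
theorem exists_central [Finite G] [IsSimpleGroup G] (h : Nat.card G = 168) (T : Sylow 2 G) :
    ∃ z : G, orderOf z = 2 ∧ Subgroup.centralizer ({z} : Set G) = T := by
  classical
  have hT : Nat.card (T : Subgroup G) = 8 :=
    Cfsg.Agent.Lib.Helper2.SimpleIndex.sylow_card_of 3 21 (by rw [h]; norm_num) (by decide) T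
  have hp : IsPGroup 2 (T : Subgroup G) := T.isPGroup'
  haveI : Nontrivial (T : Subgroup G) := by
    rw [← Finite.one_lt_card_iff_nontrivial, hT]
    norm_num
  haveI hnt : Nontrivial (Subgroup.center (T : Subgroup G)) := hp.center_nontrivial
  obtain ⟨⟨z', hz'c⟩, hz'1⟩ := exists_ne (1 : Subgroup.center (T : Subgroup G))
  have hz1 : (z' : G) ≠ 1 := by
    intro h0
    exact hz'1 (Subtype.ext (Subtype.ext h0))
  have hcomm : ∀ t ∈ (T : Subgroup G), t * (z' : G) = (z' : G) * t := by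
    intro t ht
    exact congrArg Subtype.val (Subgroup.mem_center_iff.mp hz'c ⟨t, ht⟩)
  have hle : (T : Subgroup G) ≤ Subgroup.centralizer ({(z' : G)} : Set G) := by
    intro t ht
    rw [Subgroup.mem_centralizer_singleton_iff]
    exact hcomm t ht
  have hbig : (orderOf (z' : G) = 3 ∨ orderOf (z' : G) = 4 ∨ orderOf (z' : G) = 7) → False := by
    intro h347
    have h1 := Cfsg.Agent.Lib.Helper2.L27Abs.centralizer_eq_zpowers
      (fun c hc => t_cent e h347 hc)
    have h2 := Subgroup.card_le_of_le hle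
    rw [h1, Nat.card_zpowers, hT] at h2
    omega
  have h2 : orderOf (z' : G) = 2 := by
    rcases t_orders e (z' : G) with h1 | h1 | h1 | h1 | h1
    · exact absurd (orderOf_eq_one_iff.mp h1) hz1
    · exact h1
    · exact (hbig (Or.inl h1)).elim
    · exact (hbig (Or.inr (Or.inl h1))).elim
    · exact (hbig (Or.inr (Or.inr h1))).elim
  refine ⟨(z' : G), h2, ?_⟩
  have hcl := Cfsg.Agent.Lib.Helper2.L27Abs.card_conj_mul (z' : G)
  rw [← Cfsg.Agent.Lib.Helper2.L27Abs.card_order_eq_class h2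
    (fun t ht => t_conj2 e h2 ht), (t_counts e h).1, h] at hcl
  have h8 : Nat.card (Subgroup.centralizer ({(z' : G)} : Set G)) = 8 := by omega
  exact (Subgroup.eq_of_le_of_card_ge hle (by rw [h8, hT])).symm

end KU

end Cfsg.Agent.Lib.Helper2.L27Cls
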