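import Mathlib
import Cfsg.Agent.Lib.Helper2.L27KlTab
import Cfsg.Agent.Lib.Helper2.L27ClsC

set_option autoImplicit false

namespace Cfsg.Agent.Lib.Helper2.L27Cls

open Cfsg.Agent.Lib.Helper2.U33Tab (mk9 d3 I9 SL32 mk9_eta d3_eq_det one_eq_I9)

/-- Conjugation by `C` takes the first copy of the symmetric group into the second. -/
def cjS (C : M9) : Prop :=
  ∀ σ : Equiv.Perm (Fin 4), ∃ τ : Equiv.Perm (Fin 4), m2 C (FS1 σ) = m2 (FS2 τ) C

instance (C : M9) : Decidable (cjS C) := by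
  unfold cjS
  infer_instance

theorem max_nc : all9 (fun C => ¬ cjS C) := by
  decide +kernel

/-- Conjugation by `C` takes `B` into the first copy of the symmetric group. -/
def inS (C B : M9) : Prop := ∃ σ : Equiv.Perm (Fin 4), m2 C B = m2 (FS1 σ) C

instance (C B : M9) : Decidable (inS C B) := by
  unfold inS
  infer_instance

theorem max_n3 : ex9 (fun C => all9 (fun B =>
    (m2 B R3 = m2 R3 B ∨ m2 B R3 = m2 (m2 R3 R3) B) → inS C B)) := by
  decide +kernel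

/-- Some product `X * Y ^ j` has order three and some has order four. -/
def gen7 (X Y : M9) : Prop :=
  (∃ j : Fin 7, m2 X (pw Y j.val) ≠ I9 ∧ pw (m2 X (pw Y j.val)) 3 = I9) ∧
    (∃ j : Fin 7, pw (m2 X (pw Y j.val)) 2 ≠ I9 ∧ pw (m2 X (pw Y j.val)) 4 = I9)

instance (X Y : M9) : Decidable (gen7 X Y) := by
  unfold gen7
  infer_instance

theorem max_g7 : all9 (fun Y => Y ≠ I9 → pw Y 7 = I9 → ¬ inPow7 R7 Y → gen7 R7 Y) := by
  decide +kernel

theorem max_g7i : all9 (fun Y => Y ≠ I9 → pw Y 7 = I9 → ¬ inPow7 R7i Y → gen7 R7i Y) := by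
  decide +kernel

/-- Membership in the first copy of the symmetric group. -/
def inS1 (B : M9) : Prop := ∃ σ : Equiv.Perm (Fin 4), B = FS1 σ

instance (B : M9) : Decidable (inS1 B) := by
  unfold inS1
  infer_instance

theorem max_c2 : all9 (fun B => m2 B R2 = m2 R2 B → inS1 B) := by
  decide +kernel

/-- A double transposition. -/
def pa : Equiv.Perm (Fin 4) := Equiv.swap 0 1 * Equiv.swap 2 3

/-- Another double transposition. -/
def pb : Equiv.Perm (Fin 4) := Equiv.swap 0 2 * Equiv.swap 1 3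

theorem perm_v4 : pa ≠ 1 ∧ pb ≠ 1 ∧ pa ≠ pb ∧ pa * pa = 1 ∧ pb * pb = 1 ∧ pa * pb = pb * pa ∧
    ∀ σ : Equiv.Perm (Fin 4),
      (σ * pa * σ⁻¹ = pa ∨ σ * pa * σ⁻¹ = pb ∨ σ * pa * σ⁻¹ = pa * pb) ∧
      (σ * pb * σ⁻¹ = pa ∨ σ * pb * σ⁻¹ = pb ∨ σ * pb * σ⁻¹ = pa * pb) := by
  decide +kernel

end Cfsg.Agent.Lib.Helper2.L27Cls
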