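import Mathlib
import Cfsg.Agent.Lib.Helper2.L27Kl
import Cfsg.Agent.Lib.Helper2.L27MaxTab
import Cfsg.Agent.Lib.Helper13.SmallSimple
import Cfsg.Agent.S1003

set_option autoImplicit false

namespace Cfsg.Agent.Lib.Helper2.L27Cls

open Cfsg.Agent.Lib.Helper2.U33Tab (mk9 d3 I9 SL32 mk9_eta d3_eq_det one_eq_I9)

open Cfsg.Agent.S0502 (four mem_four four_le four_isKleinFour card_four_eq)

/-! ### General lemmas -/

/-- A subgroup all of whose elements conjugate `K` into itself normalizes `K`. -/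
theorem le_normalizer_of_conj_mem {G : Type*} [Group G] (M K : Subgroup G)
    (h : ∀ m ∈ M, ∀ k ∈ K, m * k * m⁻¹ ∈ K) : M ≤ Subgroup.normalizer (K : Set G) := by
  intro m hm
  rw [Subgroup.mem_normalizer_iff]
  intro x
  constructor
  · exact h m hm x
  · intro hx
    have h3 := h m⁻¹ (M.inv_mem hm) _ hx
    rw [inv_inv] at h3
    have h4 : m⁻¹ * (m * x * m⁻¹) * m = x := by group
    rwa [h4] at h3

theorem le_normalizer_four {G : Type*} [Group G] (M : Subgroup G) (a b : G) (ha : a ^ 2 = 1)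
    (hb : b ^ 2 = 1) (hab : a * b = b * a)
    (h : ∀ m ∈ M, m * a * m⁻¹ ∈ four a b ha hb hab ∧ m * b * m⁻¹ ∈ four a b ha hb hab) :
    M ≤ Subgroup.normalizer ((four a b ha hb hab : Subgroup G) : Set G) := by
  apply le_normalizer_of_conj_mem
  intro m hm k hk
  rcases mem_four.mp hk with h1 | h1 | h1 | h1
  · rw [h1, mul_one, mul_inv_cancel]
    exact one_mem _
  · rw [h1]
    exact (h m hm).1
  · rw [h1]
    exact (h m hm).2
  · have h3 : m * (a * b) * m⁻¹ = (m * a * m⁻¹) * (m * b * m⁻¹) := by group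
    rw [h1, h3]
    exact mul_mem (h m hm).1 (h m hm).2

theorem eq_of_coatom_le {G : Type*} [Group G] {M L : Subgroup G} (hM : IsCoatom M)
    (hle : M ≤ L) (hL : L ≠ ⊤) : M = L := by
  rcases eq_or_lt_of_le hle with h | h
  · exact h
  · exact absurd (hM.2 L h) hL

theorem zpow_cases3 {G : Type*} [Group G] {a : G} (ha : orderOf a = 3) (k : ℤ) :
    a ^ k = 1 ∨ a ^ k = a ∨ a ^ k = a * a := by
  have h3 : a ^ (3 : ℕ) = 1 := by
    rw [← ha]
    exact pow_orderOf_eq_one a
  rw [zpow_eq_zpow_emod' k h3]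
  have h0 : 0 ≤ k % ((3 : ℕ) : ℤ) := Int.emod_nonneg k (by norm_num)
  have h1 : k % ((3 : ℕ) : ℤ) < 3 := Int.emod_lt_of_pos k (by norm_num)
  obtain ⟨r, hr⟩ := Int.eq_ofNat_of_zero_le h0
  rw [hr] at h1 ⊢
  rw [zpow_natCast]
  have hr3 : r < 3 := by exact_mod_cast h1
  interval_cases r
  · left
    exact pow_zero a
  · right
    left
    exact pow_one a
  · right
    right
    exact pow_two a

section G168

variable {G : Type*} [Group G] [Finite G]

theorem ne_top_of_card_lt (h : Nat.card G = 168) (H : Subgroup G) (hH : Nat.card H < 168) :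
    H ≠ ⊤ := by
  intro htop
  rw [htop, Subgroup.card_top, h] at hH
  omega

theorem isCoatom_of_card (h : Nat.card G = 168) (H : Subgroup G) (hH : Nat.card H = 24) :
    IsCoatom H := by
  refine ⟨ne_top_of_card_lt h H (by rw [hH]; norm_num), ?_⟩
  intro L hL
  have h1 : Nat.card H ∣ Nat.card L := Subgroup.card_dvd_of_le hL.le
  have h2 : Nat.card L ∣ 168 := by
    rw [← h]
    exact Subgroup.card_subgroup_dvd_card L
  rw [hH] at h1
  obtain ⟨k, hk⟩ := h1
  have hk7 : k ∣ 7 := by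
    rw [hk] at h2
    exact (Nat.mul_dvd_mul_iff_left (by norm_num : 0 < 24)).mp h2
  rcases (Nat.dvd_prime (by norm_num : Nat.Prime 7)).mp hk7 with h1 | h7
  · exfalso
    exact hL.ne (Subgroup.eq_of_le_of_card_ge hL.le (by rw [hH]; omega))
  · rw [← Subgroup.card_eq_iff_eq_top, hk, h7, h]

theorem eq_top_of_84 [IsSimpleGroup G] (h : Nat.card G = 168) (M : Subgroup G)
    (h84 : 84 ∣ Nat.card M) : M = ⊤ := by
  have hi := M.card_mul_index
  rw [h] at hi
  obtain ⟨k, hk⟩ := h84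
  rw [hk] at hi
  have h2 : k * M.index = 2 := by
    have h3 : 84 * (k * M.index) = 84 * 2 := by rw [← mul_assoc]; exact hi
    exact Nat.eq_of_mul_eq_mul_left (by norm_num) h3
  have hd : M.index ∣ 2 := Dvd.intro_left k h2
  rcases (Nat.dvd_prime Nat.prime_two).mp hd with h1 | h1
  · exact Subgroup.index_eq_one.mp h1
  · have hn : M.Normal := Subgroup.normal_of_index_eq_two h1
    rcases hn.eq_bot_or_eq_top with hb | ht
    · rw [hb, Subgroup.card_bot] at hk
      omega
    · exact ht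

end G168

section KU2

variable {G : Type*} [Group G] (e : G ≃* SL32)

theorem kU_norm_range [Finite G] [IsSimpleGroup G] (h : Nat.card G = 168) (X : SL32)
    (h2 : X * X = 1) (hc : r2 * X = X * r2) (hX1 : X ≠ 1) (hXr : X ≠ r2)
    (f : Equiv.Perm (Fin 4) →* SL32) (hf : Function.Injective f)
    (hn : ∀ σ, cjV (X.1 : M9) ((f σ).1 : M9) R2 ∧ cjV (X.1 : M9) ((f σ).1 : M9) (X.1 : M9)) :
    Nat.card (Subgroup.normalizer ((kU e X h2 hc : Subgroup G) : Set G)) = 24 ∧
      ∀ g : G, g ∈ Subgroup.normalizer ((kU e X h2 hc : Subgroup G) : Set G) ↔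
        ∃ σ, e g = f σ := by
  obtain ⟨ψ, hψe⟩ : ∃ ψ : Equiv.Perm (Fin 4) →* G, ∀ σ, e (ψ σ) = f σ :=
    ⟨e.symm.toMonoidHom.comp f, fun σ => e.apply_symm_apply _⟩
  have hψ : Function.Injective ψ := by
    intro a b hab
    apply hf
    rw [← hψe, ← hψe, hab]
  have hgen : ∀ σ, ∀ x ∈ kU e X h2 hc, ψ σ * x * (ψ σ)⁻¹ ∈ kU e X h2 hc := by
    intro σ x hx
    have hz : ψ σ * e.symm r2 * (ψ σ)⁻¹ ∈ kU e X h2 hc := by
      rw [mem_kU, map_mul, map_mul, map_inv, e.apply_symm_apply, hψe]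
      exact Or.inr (of_cj r2 (hn σ).1)
    have hx' : ψ σ * e.symm X * (ψ σ)⁻¹ ∈ kU e X h2 hc := by
      rw [mem_kU, map_mul, map_mul, map_inv, e.apply_symm_apply, hψe]
      exact Or.inr (of_cj X (hn σ).2)
    unfold kU at hx
    rcases mem_four.mp hx with h | h | h | h
    · rw [h, mul_one, mul_inv_cancel]
      exact one_mem _
    · rw [h]; exact hz
    · rw [h]; exact hx'
    · have h3 : ψ σ * (e.symm r2 * e.symm X) * (ψ σ)⁻¹ =
          (ψ σ * e.symm r2 * (ψ σ)⁻¹) * (ψ σ * e.symm X * (ψ σ)⁻¹) := by group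
      rw [h, h3]
      exact mul_mem hz hx'
  have hle : ψ.range ≤ Subgroup.normalizer ((kU e X h2 hc : Subgroup G) : Set G) := by
    apply le_normalizer_of_conj_mem
    rintro _ ⟨σ, rfl⟩ k hk
    exact hgen σ k hk
  have h24 : Nat.card ψ.range = 24 := by
    rw [← Nat.card_congr (MonoidHom.ofInjective hψ).toEquiv, Nat.card_perm, Nat.card_fin]
    rfl
  have hd1 : 24 ∣ Nat.card (Subgroup.normalizer ((kU e X h2 hc : Subgroup G) : Set G)) := by
    rw [← h24]
    exact Subgroup.card_dvd_of_le hle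
  have hd2 : Nat.card (Subgroup.normalizer ((kU e X h2 hc : Subgroup G) : Set G)) ∣ 168 := by
    rw [← h]
    exact Subgroup.card_subgroup_dvd_card _
  have hne : Nat.card (Subgroup.normalizer ((kU e X h2 hc : Subgroup G) : Set G)) ≠ 168 := by
    intro h168
    have htop : Subgroup.normalizer ((kU e X h2 hc : Subgroup G) : Set G) = ⊤ := by
      rw [← Subgroup.card_eq_iff_eq_top, h168, h]
    have hnorm : (kU e X h2 hc).Normal := Subgroup.normalizer_eq_top_iff.mp htop
    have hcard4 := (kU_klein e X h2 hc hX1 hXr).card_four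
    rcases hnorm.eq_bot_or_eq_top with hb | ht
    · rw [hb, Subgroup.card_bot] at hcard4
      omega
    · rw [ht, Subgroup.card_top, h] at hcard4
      omega
  have hc24 : Nat.card (Subgroup.normalizer ((kU e X h2 hc : Subgroup G) : Set G)) = 24 := by
    obtain ⟨k, hk⟩ := hd1
    rw [hk] at hd2 hne ⊢
    have hk7 : k ∣ 7 := (Nat.mul_dvd_mul_iff_left (by norm_num : 0 < 24)).mp hd2
    rcases (Nat.dvd_prime (by norm_num : Nat.Prime 7)).mp hk7 with h1 | h7
    · rw [h1]
    · rw [h7] at hne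
      exact absurd rfl hne
  have hr : ψ.range = Subgroup.normalizer ((kU e X h2 hc : Subgroup G) : Set G) :=
    Subgroup.eq_of_le_of_card_ge hle (by rw [h24, hc24])
  refine ⟨hc24, fun g => ?_⟩
  rw [← hr]
  constructor
  · rintro ⟨σ, rfl⟩
    exact ⟨σ, hψe σ⟩
  · rintro ⟨σ, hσ⟩
    exact ⟨σ, e.injective ((hψe σ).trans hσ.symm)⟩

theorem kU_range1 [Finite G] [IsSimpleGroup G] (h : Nat.card G = 168) :
    Nat.card (Subgroup.normalizer ((kU e ka1 ka1_sq ka1_comm : Subgroup G) : Set G)) = 24 ∧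
      ∀ g : G, g ∈ Subgroup.normalizer ((kU e ka1 ka1_sq ka1_comm : Subgroup G) : Set G) ↔
        ∃ σ, e g = fS1 σ :=
  kU_norm_range e h ka1 ka1_sq ka1_comm ka1_ne_one ka1_ne_r2 fS1 fS1_injective
    (fun σ => FS1_norm σ)

theorem kU_range2 [Finite G] [IsSimpleGroup G] (h : Nat.card G = 168) :
    Nat.card (Subgroup.normalizer ((kU e ka2 ka2_sq ka2_comm : Subgroup G) : Set G)) = 24 ∧
      ∀ g : G, g ∈ Subgroup.normalizer ((kU e ka2 ka2_sq ka2_comm : Subgroup G) : Set G) ↔
        ∃ σ, e g = fS2 σ :=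
  kU_norm_range e h ka2 ka2_sq ka2_comm ka2_ne_one ka2_ne_r2 fS2 fS2_injective
    (fun σ => FS2_norm σ)

theorem normalizer_adapted [Finite G] [IsSimpleGroup G] (h : Nat.card G = 168) (C : SL32)
    (X : SL32) (h2 : X * X = 1) (hc : r2 * X = X * r2) (hX1 : X ≠ 1) (hXr : X ≠ r2)
    (f : Equiv.Perm (Fin 4) →* SL32) (hf : Function.Injective f)
    (hn : ∀ σ, cjV (X.1 : M9) ((f σ).1 : M9) R2 ∧ cjV (X.1 : M9) ((f σ).1 : M9) (X.1 : M9)) :
    Subgroup.normalizer ((kU (e.trans (MulAut.conj C)) X h2 hc : Subgroup G) : Set G) =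
      (Subgroup.normalizer ((kU e X h2 hc : Subgroup G) : Set G)).map
        (MulAut.conj (e.symm C)⁻¹).toMonoidHom := by
  have h1 := (kU_norm_range (e.trans (MulAut.conj C)) h X h2 hc hX1 hXr f hf hn).2
  have h0 := (kU_norm_range e h X h2 hc hX1 hXr f hf hn).2
  ext g
  rw [h1, Subgroup.mem_map]
  constructor
  · rintro ⟨σ, hσ⟩
    refine ⟨e.symm C * g * (e.symm C)⁻¹, (h0 _).mpr ⟨σ, ?_⟩, ?_⟩
    · rw [map_mul, map_mul, map_inv, e.apply_symm_apply]
      exact hσ
    · show (e.symm C)⁻¹ * (e.symm C * g * (e.symm C)⁻¹) * (e.symm C)⁻¹⁻¹ = g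
      group
  · rintro ⟨m, hm, rfl⟩
    obtain ⟨σ, hσ⟩ := (h0 m).mp hm
    refine ⟨σ, ?_⟩
    show C * e ((e.symm C)⁻¹ * m * (e.symm C)⁻¹⁻¹) * C⁻¹ = f σ
    have h5 : e ((e.symm C)⁻¹ * m * (e.symm C)⁻¹⁻¹) = C⁻¹ * e m * C := by
      rw [inv_inv, map_mul, map_mul, map_inv, e.apply_symm_apply]
    rw [h5, ← hσ]
    group

include e in
theorem exists_adapted_conj {z : G} (hz : orderOf z = 2) :
    ∃ C : SL32, (e.trans (MulAut.conj C)).symm r2 = z := by
  obtain ⟨C, hC⟩ := isConj_iff.mp (conj_two (t_ord e hz))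
  refine ⟨C, ?_⟩
  rw [MulEquiv.symm_apply_eq]
  exact hC.symm

include e in
theorem exists_adapted3 {a : G} (ha : orderOf a = 3) : ∃ e' : G ≃* SL32, e' a = r3 := by
  obtain ⟨C, hC⟩ := isConj_iff.mp (conj_three (t_ord e ha))
  exact ⟨e.trans (MulAut.conj C), hC⟩

include e in
theorem exists_adapted7 {x : G} (hx : orderOf x = 7) :
    ∃ e' : G ≃* SL32, e' x = r7 ∨ e' x = r7i := by
  rcases conj_seven (t_ord e hx) with hc | hc
  · obtain ⟨C, hC⟩ := isConj_iff.mp hc
    exact ⟨e.trans (MulAut.conj C), Or.inl hC⟩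
  · obtain ⟨C, hC⟩ := isConj_iff.mp hc
    exact ⟨e.trans (MulAut.conj C), Or.inr hC⟩

include e in
theorem card_centralizer_two [Finite G] (h : Nat.card G = 168) {z : G} (hz : orderOf z = 2) :
    Nat.card (Subgroup.centralizer ({z} : Set G)) = 8 := by
  have hcl := Cfsg.Agent.Lib.Helper2.L27Abs.card_conj_mul z
  rw [← Cfsg.Agent.Lib.Helper2.L27Abs.card_order_eq_class hz
    (fun t ht => t_conj2 e hz ht), (t_counts e h).1, h] at hcl
  omega

/-! ### The two classes of subgroups of order 24 -/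

theorem max_not_conj [Finite G] [IsSimpleGroup G] (h : Nat.card G = 168) (g : G) :
    Subgroup.normalizer ((kU e ka2 ka2_sq ka2_comm : Subgroup G) : Set G) ≠
      (Subgroup.normalizer ((kU e ka1 ka1_sq ka1_comm : Subgroup G) : Set G)).map
        (MulAut.conj g).toMonoidHom := by
  intro heq
  have h1 := (kU_range1 e h).2
  have h2 := (kU_range2 e h).2
  apply all9_elim max_nc (e g)
  show ∀ σ : Equiv.Perm (Fin 4), ∃ τ : Equiv.Perm (Fin 4),
    m2 ((e g).1 : M9) (FS1 σ) = m2 (FS2 τ) ((e g).1 : M9)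
  intro σ
  have hm : e.symm (fS1 σ) ∈
      Subgroup.normalizer ((kU e ka1 ka1_sq ka1_comm : Subgroup G) : Set G) :=
    (h1 _).mpr ⟨σ, e.apply_symm_apply _⟩
  have hm2 : g * e.symm (fS1 σ) * g⁻¹ ∈
      Subgroup.normalizer ((kU e ka2 ka2_sq ka2_comm : Subgroup G) : Set G) := by
    rw [heq]
    exact ⟨_, hm, rfl⟩
  obtain ⟨τ, hτ⟩ := (h2 _).mp hm2
  rw [map_mul, map_mul, map_inv, e.apply_symm_apply] at hτ
  refine ⟨τ, ?_⟩
  have h3 : e g * fS1 σ = fS2 τ * e g := by rw [← hτ, inv_mul_cancel_right]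
  have h4 : ((e g * fS1 σ : SL32).1 : M9) = ((fS2 τ * e g : SL32).1 : M9) :=
    congrArg (fun W : SL32 => (W.1 : M9)) h3
  rw [coe_mul, coe_mul] at h4
  exact h4

theorem conj_of_klein_normal [Finite G] [IsSimpleGroup G] (h : Nat.card G = 168)
    (M : Subgroup G) (hM : IsCoatom M) (V : Subgroup G) (hVk : IsKleinFour V)
    (hMV : M ≤ Subgroup.normalizer ((V : Subgroup G) : Set G)) :
    ∃ g : G,
      M = (Subgroup.normalizer ((kU e ka1 ka1_sq ka1_comm : Subgroup G) : Set G)).map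
        (MulAut.conj g).toMonoidHom ∨
      M = (Subgroup.normalizer ((kU e ka2 ka2_sq ka2_comm : Subgroup G) : Set G)).map
        (MulAut.conj g).toMonoidHom := by
  have hp : IsPGroup 2 V := IsPGroup.of_card (n := 2) (by rw [hVk.card_four]; norm_num)
  obtain ⟨T', hT'⟩ := hp.exists_le_sylow
  obtain ⟨z, hz2, hCz⟩ := exists_central e h T'
  obtain ⟨C, hC⟩ := exists_adapted_conj e hz2
  have hle : V ≤ Subgroup.centralizer ({(e.trans (MulAut.conj C)).symm r2} : Set G) := by
    rw [hC, hCz]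
    exact hT'
  refine ⟨(e.symm C)⁻¹, ?_⟩
  rcases kl_classify (e.trans (MulAut.conj C)) V hle hVk with h1 | h1
  · left
    rw [← normalizer_adapted e h C ka1 ka1_sq ka1_comm ka1_ne_one ka1_ne_r2 fS1 fS1_injective
      (fun σ => FS1_norm σ), ← h1]
    refine eq_of_coatom_le hM hMV (ne_top_of_card_lt h _ ?_)
    rw [h1, (kU_range1 (e.trans (MulAut.conj C)) h).1]
    norm_num
  · right
    rw [← normalizer_adapted e h C ka2 ka2_sq ka2_comm ka2_ne_one ka2_ne_r2 fS2 fS2_injective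
      (fun σ => FS2_norm σ), ← h1]
    refine eq_of_coatom_le hM hMV (ne_top_of_card_lt h _ ?_)
    rw [h1, (kU_range2 (e.trans (MulAut.conj C)) h).1]
    norm_num

theorem s4_conj [Finite G] [IsSimpleGroup G] (h : Nat.card G = 168) (M : Subgroup G)
    (hM : IsCoatom M) (φ : ↥M ≃* Equiv.Perm (Fin 4)) :
    ∃ g : G,
      M = (Subgroup.normalizer ((kU e ka1 ka1_sq ka1_comm : Subgroup G) : Set G)).map
        (MulAut.conj g).toMonoidHom ∨
      M = (Subgroup.normalizer ((kU e ka2 ka2_sq ka2_comm : Subgroup G) : Set G)).map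
        (MulAut.conj g).toMonoidHom := by
  obtain ⟨hp1, hp2, hp3, hp4, hp5, hp6, hp7⟩ := perm_v4
  have ha2 : ((φ.symm pa : ↥M) : G) ^ 2 = 1 := by
    rw [← Subgroup.coe_pow, pow_two, ← map_mul, hp4, map_one, Subgroup.coe_one]
  have hb2 : ((φ.symm pb : ↥M) : G) ^ 2 = 1 := by
    rw [← Subgroup.coe_pow, pow_two, ← map_mul, hp5, map_one, Subgroup.coe_one]
  have hab : ((φ.symm pa : ↥M) : G) * ((φ.symm pb : ↥M) : G) =
      ((φ.symm pb : ↥M) : G) * ((φ.symm pa : ↥M) : G) := by
    rw [← Subgroup.coe_mul, ← Subgroup.coe_mul, ← map_mul, ← map_mul, hp6]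
  have hinj : ∀ p q : Equiv.Perm (Fin 4), ((φ.symm p : ↥M) : G) = ((φ.symm q : ↥M) : G) →
      p = q := fun p q hpq => φ.symm.injective (Subtype.ext hpq)
  have ha1 : ((φ.symm pa : ↥M) : G) ≠ 1 := by
    intro h0
    apply hp1
    apply hinj
    rw [h0, map_one, Subgroup.coe_one]
  have hb1 : ((φ.symm pb : ↥M) : G) ≠ 1 := by
    intro h0
    apply hp2
    apply hinj
    rw [h0, map_one, Subgroup.coe_one]
  have hne : ((φ.symm pa : ↥M) : G) ≠ ((φ.symm pb : ↥M) : G) := fun h0 => hp3 (hinj _ _ h0)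
  have hVk : IsKleinFour (four ((φ.symm pa : ↥M) : G) ((φ.symm pb : ↥M) : G) ha2 hb2 hab) :=
    four_isKleinFour ha2 hb2 hab ha1 hb1 hne
  have hMV : M ≤ Subgroup.normalizer
      ((four ((φ.symm pa : ↥M) : G) ((φ.symm pb : ↥M) : G) ha2 hb2 hab : Subgroup G) :
        Set G) := by
    apply le_normalizer_four
    intro m hm
    have key : ∀ p : Equiv.Perm (Fin 4),
        (φ ⟨m, hm⟩ * p * (φ ⟨m, hm⟩)⁻¹ = pa ∨ φ ⟨m, hm⟩ * p * (φ ⟨m, hm⟩)⁻¹ = pb ∨
          φ ⟨m, hm⟩ * p * (φ ⟨m, hm⟩)⁻¹ = pa * pb) →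
        m * ((φ.symm p : ↥M) : G) * m⁻¹ ∈
          four ((φ.symm pa : ↥M) : G) ((φ.symm pb : ↥M) : G) ha2 hb2 hab := by
      intro p hp
      have h1 : m * ((φ.symm p : ↥M) : G) * m⁻¹ =
          ((φ.symm (φ ⟨m, hm⟩ * p * (φ ⟨m, hm⟩)⁻¹) : ↥M) : G) := by
        rw [map_mul, map_mul, map_inv, φ.symm_apply_apply]
        rfl
      rw [h1, mem_four]
      rcases hp with hp | hp | hp
      · rw [hp]
        exact Or.inr (Or.inl rfl)
      · rw [hp]
        exact Or.inr (Or.inr (Or.inl rfl))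
      · rw [hp, map_mul]
        exact Or.inr (Or.inr (Or.inr rfl))
    exact ⟨key pa (hp7 _).1, key pb (hp7 _).2⟩
  exact conj_of_klein_normal e h M hM _ hVk hMV

/-! ### Subgroups containing an element of order seven -/

theorem gen7_r7 {Y : SL32} (hY : orderOf Y = 7) (hn : Y ∉ Subgroup.zpowers r7) :
    (∃ j : ℕ, orderOf (r7 * Y ^ j) = 3) ∧ (∃ j : ℕ, orderOf (r7 * Y ^ j) = 4) := by
  have h1 : ¬ inPow7 R7 (Y.1 : M9) := by
    intro hin
    apply hn
    unfold inPow7 at hin
    rcases hin with h | h | h | h | h | h | h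
    · exact mem_of_pw (A := r7) 0 h
    · exact mem_of_eq (A := r7) h
    · exact mem_of_pw (A := r7) 2 h
    · exact mem_of_pw (A := r7) 3 h
    · exact mem_of_pw (A := r7) 4 h
    · exact mem_of_pw (A := r7) 5 h
    · exact mem_of_pw (A := r7) 6 h
  have h2 : gen7 R7 (Y.1 : M9) :=
    all9_elim max_g7 Y (ne_of_orderOf hY (by decide)) (pw_of_orderOf hY) h1
  unfold gen7 at h2
  obtain ⟨⟨j, hj1, hj2⟩, ⟨j', hj1', hj2'⟩⟩ := h2
  refine ⟨⟨j.val, orderOf_three ?_ ?_⟩, ⟨j'.val, orderOf_four ?_ ?_⟩⟩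
  · rw [coe_mul, coe_pow]
    exact hj1
  · rw [coe_mul, coe_pow]
    exact hj2
  · rw [coe_mul, coe_pow]
    exact hj1'
  · rw [coe_mul, coe_pow]
    exact hj2'

theorem gen7_r7i {Y : SL32} (hY : orderOf Y = 7) (hn : Y ∉ Subgroup.zpowers r7i) :
    (∃ j : ℕ, orderOf (r7i * Y ^ j) = 3) ∧ (∃ j : ℕ, orderOf (r7i * Y ^ j) = 4) := by
  have h1 : ¬ inPow7 R7i (Y.1 : M9) := by
    intro hin
    apply hn
    unfold inPow7 at hin
    rcases hin with h | h | h | h | h | h | h
    · exact mem_of_pw (A := r7i) 0 h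
    · exact mem_of_eq (A := r7i) h
    · exact mem_of_pw (A := r7i) 2 h
    · exact mem_of_pw (A := r7i) 3 h
    · exact mem_of_pw (A := r7i) 4 h
    · exact mem_of_pw (A := r7i) 5 h
    · exact mem_of_pw (A := r7i) 6 h
  have h2 : gen7 R7i (Y.1 : M9) :=
    all9_elim max_g7i Y (ne_of_orderOf hY (by decide)) (pw_of_orderOf hY) h1
  unfold gen7 at h2
  obtain ⟨⟨j, hj1, hj2⟩, ⟨j', hj1', hj2'⟩⟩ := h2
  refine ⟨⟨j.val, orderOf_three ?_ ?_⟩, ⟨j'.val, orderOf_four ?_ ?_⟩⟩
  · rw [coe_mul, coe_pow]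
    exact hj1
  · rw [coe_mul, coe_pow]
    exact hj2
  · rw [coe_mul, coe_pow]
    exact hj1'
  · rw [coe_mul, coe_pow]
    exact hj2'

include e in
/-- Two elements of order seven in a proper subgroup generate the same subgroup. -/
theorem seven_unique [Finite G] [IsSimpleGroup G] (h : Nat.card G = 168) (M : Subgroup G)
    (hM : M ≠ ⊤) {x y : G} (hxM : x ∈ M) (hyM : y ∈ M) (hx : orderOf x = 7)
    (hy : orderOf y = 7) : y ∈ Subgroup.zpowers x := by
  by_contra hcon
  obtain ⟨e', he'⟩ := exists_adapted7 e hx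
  have hY : orderOf (e' y) = 7 := t_ord e' hy
  have key : ∀ X : SL32, e' x = X →
      ((∃ j : ℕ, orderOf (X * e' y ^ j) = 3) ∧ (∃ j : ℕ, orderOf (X * e' y ^ j) = 4)) →
      False := by
    intro X hX ⟨⟨j, hj⟩, ⟨j', hj'⟩⟩
    have h3 : orderOf (x * y ^ j) = 3 := by
      rw [← MulEquiv.orderOf_eq e', map_mul, map_pow, hX]
      exact hj
    have h4 : orderOf (x * y ^ j') = 4 := by
      rw [← MulEquiv.orderOf_eq e', map_mul, map_pow, hX]
      exact hj'
    have hd3 : 3 ∣ Nat.card M := by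
      rw [← h3]
      exact Subgroup.orderOf_dvd_natCard M (M.mul_mem hxM (M.pow_mem hyM j))
    have hd4 : 4 ∣ Nat.card M := by
      rw [← h4]
      exact Subgroup.orderOf_dvd_natCard M (M.mul_mem hxM (M.pow_mem hyM j'))
    have hd7 : 7 ∣ Nat.card M := by
      rw [← hx]
      exact Subgroup.orderOf_dvd_natCard M hxM
    have hd12 : 12 ∣ Nat.card M :=
      Nat.Coprime.mul_dvd_of_dvd_of_dvd (by norm_num : Nat.Coprime 3 4) hd3 hd4
    have hd84 : 84 ∣ Nat.card M :=
      Nat.Coprime.mul_dvd_of_dvd_of_dvd (by norm_num : Nat.Coprime 12 7) hd12 hd7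
    exact hM (eq_top_of_84 h M hd84)
  rcases he' with he' | he'
  · refine key r7 he' (gen7_r7 hY ?_)
    intro hmem
    apply hcon
    apply t_mem_zpowers e'
    rw [he']
    exact hmem
  · refine key r7i he' (gen7_r7i hY ?_)
    intro hmem
    apply hcon
    apply t_mem_zpowers e'
    rw [he']
    exact hmem

theorem card_normalizer_zpowers7 [Finite G] [IsSimpleGroup G] (h : Nat.card G = 168) {x : G}
    (hx : orderOf x = 7) :
    Nat.card (Subgroup.normalizer ((Subgroup.zpowers x : Subgroup G) : Set G)) = 21 := by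
  haveI : Fact (Nat.Prime 7) := ⟨by norm_num⟩
  have hp : IsPGroup 7 (Subgroup.zpowers x) :=
    IsPGroup.of_card (n := 1) (by rw [Nat.card_zpowers, hx]; norm_num)
  obtain ⟨Q, hQ⟩ := hp.exists_le_sylow
  have hQc : Nat.card (Q : Subgroup G) = 7 :=
    (Cfsg.Agent.Lib.Helper2.SimpleIndex.sylow_card_of 1 24 (by rw [h]; norm_num)
      (by decide) Q).trans (by norm_num)
  have hQe : Subgroup.zpowers x = (Q : Subgroup G) :=
    Subgroup.eq_of_le_of_card_ge hQ (by rw [hQc, Nat.card_zpowers, hx])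
  rw [hQe]
  have h1 := Cfsg.Agent.Lib.Helper13.SmallSimple.card_normalizer_mul Q
  rw [(Cfsg.Agent.S1003.result h).2.2, h] at h1
  omega

include e in
theorem coatom_seven [Finite G] [IsSimpleGroup G] (h : Nat.card G = 168) (M : Subgroup G)
    (hM : IsCoatom M) {x : G} (hxM : x ∈ M) (hx : orderOf x = 7) :
    M = Subgroup.normalizer ((Subgroup.zpowers x : Subgroup G) : Set G) := by
  refine eq_of_coatom_le hM ?_ (ne_top_of_card_lt h _ ?_)
  · apply le_normalizer_of_conj_mem
    intro m hm k hk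
    have hy : orderOf (m * x * m⁻¹) = 7 :=
      (Cfsg.Agent.Lib.Helper2.L27Abs.orderOf_of_isConj (isConj_iff.mpr ⟨m, rfl⟩)).trans hx
    have key : m * x * m⁻¹ ∈ Subgroup.zpowers x :=
      seven_unique e h M hM.1 hxM (M.mul_mem (M.mul_mem hm hxM) (M.inv_mem hm)) hx hy
    obtain ⟨i, rfl⟩ := Subgroup.mem_zpowers_iff.mp hk
    rw [← conj_zpow]
    exact Subgroup.zpow_mem _ key i
  · rw [card_normalizer_zpowers7 h hx]
    norm_num

include e in
theorem coatom_seven_facts [Finite G] [IsSimpleGroup G] (h : Nat.card G = 168)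
    (M : Subgroup G) (hM : IsCoatom M) {x : G} (hxM : x ∈ M) (hx : orderOf x = 7) :
    Nat.card ↥M = 21 ∧ ¬ IsMulCommutative ↥M := by
  have hMN := coatom_seven e h M hM hxM hx
  have hc : Nat.card ↥M = 21 := by
    rw [hMN]
    exact card_normalizer_zpowers7 h hx
  refine ⟨hc, ?_⟩
  intro hcomm
  have hle : M ≤ Subgroup.zpowers x := by
    intro m hm
    have h1 : (⟨m, hm⟩ : ↥M) * ⟨x, hxM⟩ = ⟨x, hxM⟩ * ⟨m, hm⟩ := hcomm.is_comm.comm _ _
    exact t_cent e (Or.inr (Or.inr hx)) (congrArg Subtype.val h1)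
  have h2 := Subgroup.card_le_of_le hle
  rw [hc, Nat.card_zpowers, hx] at h2
  omega

include e in
theorem conj_21 [Finite G] [IsSimpleGroup G] (h : Nat.card G = 168) (M M' : Subgroup G)
    (hM : IsCoatom M) (hM' : IsCoatom M') (hc : Nat.card ↥M = 21) (hc' : Nat.card ↥M' = 21) :
    ∃ g : G, M' = M.map (MulAut.conj g).toMonoidHom := by
  haveI : Fact (Nat.Prime 7) := ⟨by norm_num⟩
  obtain ⟨⟨x, hxM⟩, hx⟩ := exists_prime_orderOf_dvd_card' (G := ↥M) 7 (by rw [hc]; decide)
  obtain ⟨⟨x', hxM'⟩, hx'⟩ := exists_prime_orderOf_dvd_card' (G := ↥M') 7 (by rw [hc']; decide)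
  rw [Subgroup.orderOf_mk] at hx hx'
  have hMN := coatom_seven e h M hM hxM hx
  have hMN' := coatom_seven e h M' hM' hxM' hx'
  obtain ⟨g, hg⟩ : ∃ g : G, g * x * g⁻¹ = x' ∨ g * x⁻¹ * g⁻¹ = x' := by
    rcases t_conj7 e hx hx' with hcj | hcj
    · obtain ⟨g, hg⟩ := isConj_iff.mp hcj
      exact ⟨g, Or.inl hg⟩
    · obtain ⟨g, hg⟩ := isConj_iff.mp hcj
      exact ⟨g, Or.inr hg⟩
  refine ⟨g, ?_⟩
  have hz : Subgroup.zpowers x' = Subgroup.zpowers ((MulAut.conj g).toMonoidHom x) := by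
    rcases hg with hg | hg
    · rw [← hg]
      rfl
    · rw [← hg, ← Subgroup.zpowers_inv]
      congr 1
      show (g * x⁻¹ * g⁻¹)⁻¹ = g * x * g⁻¹
      group
  rw [hMN', hMN, Subgroup.map_equiv_normalizer_eq, MonoidHom.map_zpowers, hz]

/-! ### Subgroups of order prime to seven -/

include e in
theorem coatom_two_group [Finite G] [IsSimpleGroup G] (h : Nat.card G = 168) (M : Subgroup G)
    (hM : IsCoatom M) (hp : IsPGroup 2 M) : False := by
  obtain ⟨T, hT⟩ := hp.exists_le_sylow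
  obtain ⟨z, hz2, hCz⟩ := exists_central e h T
  obtain ⟨e', he'⟩ := exists_adapted e hz2
  have hr := kU_range1 e' h
  have hTN : (T : Subgroup G) ≤
      Subgroup.normalizer ((kU e' ka1 ka1_sq ka1_comm : Subgroup G) : Set G) := by
    intro t ht
    rw [hr.2]
    have h1 : t * z = z * t := by
      rw [← hCz] at ht
      exact Subgroup.mem_centralizer_singleton_iff.mp ht
    have h2 : e' t * r2 = r2 * e' t := by
      have h3 := congrArg e' h1
      rw [map_mul, map_mul, ← he', e'.apply_symm_apply] at h3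
      exact h3
    have h4 : inS1 ((e' t).1 : M9) := all9_elim max_c2 (e' t) (comm_coe h2)
    unfold inS1 at h4
    obtain ⟨σ, hσ⟩ := h4
    exact ⟨σ, (eq_iff _ _).mpr hσ⟩
  have hMN := eq_of_coatom_le hM (hT.trans hTN) (ne_top_of_card_lt h _ (by rw [hr.1]; norm_num))
  have h8 : Nat.card (T : Subgroup G) = 8 :=
    Cfsg.Agent.Lib.Helper2.SimpleIndex.sylow_card_of 3 21 (by rw [h]; norm_num) (by decide) T
  have h9 := Subgroup.card_le_of_le hT
  rw [hMN, hr.1, h8] at h9
  omega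

include e in
theorem coatom_norm3 [Finite G] [IsSimpleGroup G] (h : Nat.card G = 168) (M : Subgroup G)
    (hM : IsCoatom M) {a : G} (ha : orderOf a = 3)
    (hn : ∀ m ∈ M, m * a * m⁻¹ ∈ Subgroup.zpowers a) :
    Nonempty (↥M ≃* Equiv.Perm (Fin 4)) := by
  obtain ⟨e', he'⟩ := exists_adapted3 e ha
  obtain ⟨C0, hC0⟩ := ex9_elim max_n3
  have hr := kU_range1 (e'.trans (MulAut.conj C0)) h
  have ha1 : a ≠ 1 := by
    intro h0
    rw [h0, orderOf_one] at ha
    omega
  have hMN : M ≤ Subgroup.normalizer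
      ((kU (e'.trans (MulAut.conj C0)) ka1 ka1_sq ka1_comm : Subgroup G) : Set G) := by
    intro m hm
    rw [hr.2]
    have hB : m2 ((e' m).1 : M9) R3 = m2 R3 ((e' m).1 : M9) ∨
        m2 ((e' m).1 : M9) R3 = m2 (m2 R3 R3) ((e' m).1 : M9) := by
      obtain ⟨k, hk⟩ := Subgroup.mem_zpowers_iff.mp (hn m hm)
      rcases zpow_cases3 ha k with h1 | h1 | h1
      · exfalso
        apply ha1
        rw [h1] at hk
        have h5 : m * a = m := by
          rw [← mul_inv_eq_one]
          exact hk.symm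
        exact mul_left_cancel (h5.trans (mul_one m).symm)
      · left
        rw [h1] at hk
        have h5 : m * a = a * m := by
          have h55 : m * a = (m * a * m⁻¹) * m := by group
          rw [h55, ← hk]
        have h6 : e' m * r3 = r3 * e' m := by
          rw [← he', ← map_mul, ← map_mul, h5]
        exact comm_coe h6
      · right
        rw [h1] at hk
        have h5 : m * a = a * a * m := by
          have h55 : m * a = (m * a * m⁻¹) * m := by group
          rw [h55, ← hk]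
        have h6 : e' m * r3 = r3 * r3 * e' m := by
          rw [← he', ← map_mul, ← map_mul, ← map_mul, h5]
        have h7 : ((e' m * r3 : SL32).1 : M9) = ((r3 * r3 * e' m : SL32).1 : M9) :=
          congrArg (fun W : SL32 => (W.1 : M9)) h6
        rw [coe_mul, coe_mul, coe_mul] at h7
        exact h7
    have h8 : inS (C0.1 : M9) ((e' m).1 : M9) := all9_elim hC0 (e' m) hB
    unfold inS at h8
    obtain ⟨σ, hσ⟩ := h8
    refine ⟨σ, ?_⟩
    have h9 : C0 * e' m = fS1 σ * C0 :=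
      (eq_iff _ _).mpr ((coe_mul _ _).trans (hσ.trans (coe_mul (fS1 σ) C0).symm))
    show C0 * e' m * C0⁻¹ = fS1 σ
    rw [h9, mul_inv_cancel_right]
  have hMeq := eq_of_coatom_le hM hMN (ne_top_of_card_lt h _ (by rw [hr.1]; norm_num))
  rw [hMeq]
  exact kU_norm1 (e'.trans (MulAut.conj C0)) h

theorem coatom_twelve [Finite G] [IsSimpleGroup G] (h : Nat.card G = 168) (M : Subgroup G)
    (hM : IsCoatom M) (hc : Nat.card ↥M = 12) (hn3 : Nat.card (Sylow 3 ↥M) = 4) : False := by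
  haveI : Fact (Nat.Prime 3) := ⟨by norm_num⟩
  obtain ⟨R⟩ : Nonempty (Sylow 3 ↥M) := inferInstance
  have hR3 : Nat.card (R : Subgroup ↥M) = 3 :=
    (Cfsg.Agent.Lib.Helper2.SimpleIndex.sylow_card_of 1 4 (by rw [hc]; norm_num)
      (by decide) R).trans (by norm_num)
  have hNR : Nat.card (Subgroup.normalizer ((R : Subgroup ↥M) : Set ↥M)) = 3 := by
    have h1 := Cfsg.Agent.Lib.Helper13.SmallSimple.card_normalizer_mul R
    rw [hn3, hc] at h1
    omega
  have hNeq : Subgroup.normalizer ((R : Subgroup ↥M) : Set ↥M) = R :=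
    (Subgroup.eq_of_le_of_card_ge Subgroup.le_normalizer (by rw [hNR, hR3])).symm
  haveI : IsCyclic (R : Subgroup ↥M) := isCyclic_of_prime_card hR3
  have hNC : Subgroup.normalizer ((R : Subgroup ↥M) : Set ↥M) ≤
      Subgroup.centralizer ((R : Subgroup ↥M) : Set ↥M) := by
    rw [hNeq]
    intro x hx
    rw [Subgroup.mem_centralizer_iff]
    intro y hy
    have h1 : (⟨y, hy⟩ : (R : Subgroup ↥M)) * ⟨x, hx⟩ = ⟨x, hx⟩ * ⟨y, hy⟩ :=
      (IsCyclic.isMulCommutative (α := (R : Subgroup ↥M))).is_comm.comm _ _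
    exact congrArg Subtype.val h1
  have hcomp := MonoidHom.ker_transferSylow_isComplement' R hNC
  have hK4 : Nat.card (MonoidHom.transferSylow R hNC).ker = 4 := by
    have h1 := hcomp.card_mul_card
    rw [hR3, hc] at h1
    omega
  have hKn : (MonoidHom.transferSylow R hNC).ker.Normal := inferInstance
  obtain ⟨K, hKdef⟩ : ∃ K : Subgroup ↥M, K = (MonoidHom.transferSylow R hNC).ker := ⟨_, rfl⟩
  rw [← hKdef] at hK4 hKn
  have hKG4 : Nat.card (K.map M.subtype) = 4 := by
    rw [Subgroup.card_map_of_injective M.subtype_injective, hK4]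
  have hMN : M ≤ Subgroup.normalizer ((K.map M.subtype : Subgroup G) : Set G) := by
    apply le_normalizer_of_conj_mem
    rintro m hm _ ⟨k, hk, rfl⟩
    exact ⟨⟨m, hm⟩ * k * ⟨m, hm⟩⁻¹, hKn.conj_mem k hk ⟨m, hm⟩, rfl⟩
  have hNtop : Subgroup.normalizer ((K.map M.subtype : Subgroup G) : Set G) ≠ ⊤ := by
    intro htop
    have hnorm : (K.map M.subtype).Normal := Subgroup.normalizer_eq_top_iff.mp htop
    rcases hnorm.eq_bot_or_eq_top with hb | ht
    · rw [hb, Subgroup.card_bot] at hKG4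
      omega
    · rw [ht, Subgroup.card_top, h] at hKG4
      omega
  have hMeq := eq_of_coatom_le hM hMN hNtop
  have hp : IsPGroup 2 (K.map M.subtype) := IsPGroup.of_card (n := 2) (by rw [hKG4]; norm_num)
  obtain ⟨T, hT⟩ := hp.exists_le_sylow
  have h8 : Nat.card (T : Subgroup G) = 8 :=
    Cfsg.Agent.Lib.Helper2.SimpleIndex.sylow_card_of 3 21 (by rw [h]; norm_num) (by decide) T
  have hidx : ((K.map M.subtype).subgroupOf (T : Subgroup G)).index = 2 := by
    have h1 := ((K.map M.subtype).subgroupOf (T : Subgroup G)).card_mul_index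
    rw [Nat.card_congr (Subgroup.subgroupOfEquivOfLe hT).toEquiv, hKG4, h8] at h1
    omega
  have hnormT : ((K.map M.subtype).subgroupOf (T : Subgroup G)).Normal :=
    Subgroup.normal_of_index_eq_two hidx
  have hTN : (T : Subgroup G) ≤
      Subgroup.normalizer ((K.map M.subtype : Subgroup G) : Set G) := by
    apply le_normalizer_of_conj_mem
    intro t ht k hk
    have h1 := hnormT.conj_mem ⟨k, hT hk⟩ (Subgroup.mem_subgroupOf.mpr hk) ⟨t, ht⟩
    exact Subgroup.mem_subgroupOf.mp h1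
  rw [← hMeq] at hTN
  have h9 := Subgroup.card_dvd_of_le hTN
  rw [h8, hc] at h9
  omega

include e in
theorem s4_of_card24 [Finite G] [IsSimpleGroup G] (h : Nat.card G = 168) (M : Subgroup G)
    (hc : Nat.card ↥M = 24) (hn3 : Nat.card (Sylow 3 ↥M) = 4) :
    Nonempty (↥M ≃* Equiv.Perm (Fin 4)) := by
  classical
  haveI : Fact (Nat.Prime 3) := ⟨by norm_num⟩
  obtain ⟨R0⟩ : Nonempty (Sylow 3 ↥M) := inferInstance
  have hR3 : ∀ R : Sylow 3 ↥M, Nat.card (R : Subgroup ↥M) = 3 := fun R =>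
    (Cfsg.Agent.Lib.Helper2.SimpleIndex.sylow_card_of 1 8 (by rw [hc]; norm_num)
      (by decide) R).trans (by norm_num)
  have hNR : ∀ R : Sylow 3 ↥M,
      Nat.card (Subgroup.normalizer ((R : Subgroup ↥M) : Set ↥M)) = 6 := by
    intro R
    have h1 := Cfsg.Agent.Lib.Helper13.SmallSimple.card_normalizer_mul R
    rw [hn3, hc] at h1
    omega
  -- elements fixing every Sylow 3-subgroup
  have hno3 : ∀ k : ↥M, (∀ R : Sylow 3 ↥M, k • R = R) → orderOf k ≠ 3 := by
    intro k hk h3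
    have hmem : ∀ R : Sylow 3 ↥M, k ∈ (R : Subgroup ↥M) := by
      intro R
      apply Cfsg.Agent.Lib.Helper2.Klein.mem_of_mem_normalizer R k
        (Sylow.smul_eq_iff_mem_normalizer.mp (hk R)) 1
      rw [pow_one, ← h3]
      exact pow_orderOf_eq_one k
    haveI : Nontrivial (Sylow 3 ↥M) := by
      rw [← Finite.one_lt_card_iff_nontrivial, hn3]
      norm_num
    obtain ⟨R₁, R₂, hne⟩ := exists_pair_ne (Sylow 3 ↥M)
    have hR : ∀ R : Sylow 3 ↥M, Subgroup.zpowers k = (R : Subgroup ↥M) := by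
      intro R
      apply Subgroup.eq_of_le_of_card_ge
      · rw [Subgroup.zpowers_le]
        exact hmem R
      · rw [Nat.card_zpowers, h3, hR3 R]
    exact hne (Sylow.ext ((hR R₁).symm.trans (hR R₂)))
  have hord : ∀ k : ↥M, (∀ R : Sylow 3 ↥M, k • R = R) → k ≠ 1 → orderOf k = 2 := by
    intro k hk hk1
    have hk6 : orderOf k ∣ 6 := by
      have h1 : orderOf k ∣ Nat.card (Subgroup.normalizer ((R0 : Subgroup ↥M) : Set ↥M)) :=
        Subgroup.orderOf_dvd_natCard _ (Sylow.smul_eq_iff_mem_normalizer.mp (hk R0))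
      rwa [hNR R0] at h1
    have hG := t_orders e (k : G)
    rw [Subgroup.orderOf_coe] at hG
    rcases hG with h1 | h1 | h1 | h1 | h1
    · exact absurd (orderOf_eq_one_iff.mp h1) hk1
    · exact h1
    · exact absurd h1 (hno3 k hk)
    · rw [h1] at hk6
      exact absurd hk6 (by decide)
    · rw [h1] at hk6
      exact absurd hk6 (by decide)
  have hker : ∀ k : ↥M, (∀ R : Sylow 3 ↥M, k • R = R) → k = 1 := by
    intro k hk
    by_contra hk1
    have hk2 := hord k hk hk1
    have hkk : k * k = 1 := by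
      rw [← pow_two, ← hk2]
      exact pow_orderOf_eq_one k
    -- conjugates of `k` equal `k`
    have hcent : ∀ m : ↥M, m * k * m⁻¹ = k := by
      intro m
      by_contra hne
      have hk' : ∀ R : Sylow 3 ↥M, (m * k * m⁻¹) • R = R := by
        intro R
        rw [mul_smul, mul_smul, hk (m⁻¹ • R), smul_inv_smul]
      have hk'1 : m * k * m⁻¹ ≠ 1 := by
        intro h0
        apply hk1
        have h5 : m * k = m := by
          rw [← mul_inv_eq_one]
          exact h0
        exact mul_left_cancel (h5.trans (mul_one m).symm)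
      have hk'k' : (m * k * m⁻¹) * (m * k * m⁻¹) = 1 := by
        rw [← pow_two, ← hord _ hk' hk'1]
        exact pow_orderOf_eq_one _
      have hprod : ∀ R : Sylow 3 ↥M, (k * (m * k * m⁻¹)) • R = R := by
        intro R
        rw [mul_smul, hk' R, hk R]
      have hcomm : k * (m * k * m⁻¹) = (m * k * m⁻¹) * k := by
        by_cases h1 : k * (m * k * m⁻¹) = 1
        · have h6 : k = m * k * m⁻¹ := by
            have h7 : k * (m * k * m⁻¹) = k * k := by rw [h1, hkk]
            exact (mul_left_cancel h7).symm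
          exact absurd h6.symm hne
        · have h2 := hord _ hprod h1
          have h3 : (k * (m * k * m⁻¹)) * (k * (m * k * m⁻¹)) = 1 := by
            rw [← pow_two, ← h2]
            exact pow_orderOf_eq_one _
          calc k * (m * k * m⁻¹)
              = (m * k * m⁻¹) * ((m * k * m⁻¹) * (k * (m * k * m⁻¹))) := by
                rw [← mul_assoc (m * k * m⁻¹), hk'k', one_mul]
            _ = (m * k * m⁻¹) * (k * (k * (m * k * m⁻¹) * (k * (m * k * m⁻¹)))) := by
                rw [← mul_assoc k (k * (m * k * m⁻¹)), ← mul_assoc k k, hkk, one_mul]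
            _ = (m * k * m⁻¹) * k := by rw [h3, mul_one]
      have hle : four k (m * k * m⁻¹) (by rw [pow_two]; exact hkk)
          (by rw [pow_two]; exact hk'k') hcomm ≤
          Subgroup.normalizer ((R0 : Subgroup ↥M) : Set ↥M) :=
        four_le _ _ _ _ (Sylow.smul_eq_iff_mem_normalizer.mp (hk R0))
          (Sylow.smul_eq_iff_mem_normalizer.mp (hk' R0))
      have h4 := Subgroup.card_dvd_of_le hle
      rw [card_four_eq _ _ _ hk1 hk'1 (fun h0 => hne h0.symm), hNR R0] at h4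
      omega
    have hk2G : orderOf (k : G) = 2 := by
      rw [Subgroup.orderOf_coe]
      exact hk2
    have hMC : M ≤ Subgroup.centralizer ({(k : G)} : Set G) := by
      intro m hm
      rw [Subgroup.mem_centralizer_singleton_iff]
      have h1 := hcent ⟨m, hm⟩
      have h2 : (⟨m, hm⟩ : ↥M) * k = k * ⟨m, hm⟩ := by
        rw [← h1, inv_mul_cancel_right, h1]
      exact congrArg Subtype.val h2
    have h9 := Subgroup.card_le_of_le hMC
    rw [hc, card_centralizer_two e h hk2G] at h9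
    omega
  have hinj : Function.Injective (MulAction.toPermHom ↥M (Sylow 3 ↥M)) := by
    rw [injective_iff_map_eq_one]
    intro k hk
    apply hker
    intro R
    have h1 := DFunLike.congr_fun hk R
    simpa using h1
  have hbij : Function.Bijective (MulAction.toPermHom ↥M (Sylow 3 ↥M)) :=
    hinj.bijective_of_nat_card_le (by rw [Nat.card_perm, hn3, hc]; decide)
  exact ⟨(MulEquiv.ofBijective _ hbij).trans
    (Equiv.permCongrHom ((Nat.equivFinOfCardPos (by rw [hn3]; norm_num)).trans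
      (finCongr hn3)))⟩

include e in
/-- A maximal subgroup is a symmetric group of degree four or non-abelian of order 21. -/
theorem coatom_cases [Finite G] [IsSimpleGroup G] (h : Nat.card G = 168) (M : Subgroup G)
    (hM : IsCoatom M) :
    Nonempty (↥M ≃* Equiv.Perm (Fin 4)) ∨ (Nat.card ↥M = 21 ∧ ¬ IsMulCommutative ↥M) := by
  have hdvd : Nat.card ↥M ∣ 168 := by
    rw [← h]
    exact Subgroup.card_subgroup_dvd_card M
  by_cases h7 : 7 ∣ Nat.card ↥M
  · right
    haveI : Fact (Nat.Prime 7) := ⟨by norm_num⟩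
    obtain ⟨⟨x, hxM⟩, hx⟩ := exists_prime_orderOf_dvd_card' (G := ↥M) 7 h7
    rw [Subgroup.orderOf_mk] at hx
    exact coatom_seven_facts e h M hM hxM hx
  have h24 : Nat.card ↥M ∣ 24 := by
    have hcop : Nat.Coprime (Nat.card ↥M) 7 :=
      Nat.Coprime.symm ((Nat.Prime.coprime_iff_not_dvd (by norm_num)).mpr h7)
    exact hcop.dvd_of_dvd_mul_right hdvd
  by_cases h3 : 3 ∣ Nat.card ↥M
  · left
    haveI : Fact (Nat.Prime 3) := ⟨by norm_num⟩
    obtain ⟨q, hq⟩ := h3
    have hq8 : q ∣ 8 := by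
      rw [hq] at h24
      exact (Nat.mul_dvd_mul_iff_left (by norm_num : 0 < 3)).mp h24
    have hq3 : ¬ 3 ∣ q := by
      intro h0
      have h1 := h0.trans hq8
      omega
    obtain ⟨R⟩ : Nonempty (Sylow 3 ↥M) := inferInstance
    have hR3 : Nat.card (R : Subgroup ↥M) = 3 :=
      (Cfsg.Agent.Lib.Helper2.SimpleIndex.sylow_card_of 1 q (by rw [hq]; norm_num) hq3
        R).trans (by norm_num)
    have hidx : (R : Subgroup ↥M).index = q := by
      have h1 := (R : Subgroup ↥M).card_mul_index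
      rw [hR3, hq] at h1
      exact Nat.eq_of_mul_eq_mul_left (by norm_num) h1
    have hmod : Nat.card (Sylow 3 ↥M) ≡ 1 [MOD 3] := card_sylow_modEq_one 3 ↥M
    have hdiv : Nat.card (Sylow 3 ↥M) ∣ q := by
      rw [← hidx]
      exact Sylow.card_dvd_index R
    have hn : Nat.card (Sylow 3 ↥M) = 1 ∨ Nat.card (Sylow 3 ↥M) = 4 := by
      have h8 : Nat.card (Sylow 3 ↥M) ∣ 8 := hdiv.trans hq8
      have hle : Nat.card (Sylow 3 ↥M) ≤ 8 := Nat.le_of_dvd (by norm_num) h8
      unfold Nat.ModEq at hmod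
      generalize Nat.card (Sylow 3 ↥M) = n at h8 hle hmod
      interval_cases n <;> omega
    rcases hn with hn | hn
    · -- the Sylow 3-subgroup is normal
      haveI : Subsingleton (Sylow 3 ↥M) := by
        rw [← Finite.card_le_one_iff_subsingleton, hn]
      obtain ⟨⟨a', ha'R⟩, ha'⟩ :=
        exists_prime_orderOf_dvd_card' (G := ↥(R : Subgroup ↥M)) 3 (by rw [hR3])
      rw [Subgroup.orderOf_mk] at ha'
      have ha : orderOf (a' : G) = 3 := by
        rw [Subgroup.orderOf_coe]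
        exact ha'
      have hRz : Subgroup.zpowers a' = (R : Subgroup ↥M) := by
        apply Subgroup.eq_of_le_of_card_ge
        · rw [Subgroup.zpowers_le]
          exact ha'R
        · rw [Nat.card_zpowers, ha', hR3]
      refine coatom_norm3 e h M hM ha ?_
      intro m hm
      have h1 : (⟨m, hm⟩ : ↥M) ∈ Subgroup.normalizer ((R : Subgroup ↥M) : Set ↥M) :=
        Sylow.smul_eq_iff_mem_normalizer.mp (Subsingleton.elim _ _)
      have h2 : (⟨m, hm⟩ : ↥M) * a' * (⟨m, hm⟩ : ↥M)⁻¹ ∈ (R : Subgroup ↥M) :=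
        (Subgroup.mem_normalizer_iff.mp h1 a').mp ha'R
      rw [← hRz] at h2
      obtain ⟨k, hk⟩ := Subgroup.mem_zpowers_iff.mp h2
      refine Subgroup.mem_zpowers_iff.mpr ⟨k, ?_⟩
      have h3 := congrArg Subtype.val hk
      rw [Subgroup.coe_zpow] at h3
      exact h3
    · -- four Sylow 3-subgroups
      have h4q : 4 ∣ q := by
        rw [← hn]
        exact hdiv
      have hq48 : q = 4 ∨ q = 8 := by
        have hle : q ≤ 8 := Nat.le_of_dvd (by norm_num) hq8
        interval_cases q <;> omega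
      rcases hq48 with hq4 | hq8'
      · exact (coatom_twelve h M hM (by rw [hq, hq4]) hn).elim
      · exact s4_of_card24 e h M (by rw [hq, hq8']) hn
  · exfalso
    have h8 : Nat.card ↥M ∣ 8 := by
      have hcop : Nat.Coprime (Nat.card ↥M) 3 :=
        Nat.Coprime.symm ((Nat.Prime.coprime_iff_not_dvd (by norm_num)).mpr h3)
      exact hcop.dvd_of_dvd_mul_right h24
    obtain ⟨k, -, hk⟩ := (Nat.dvd_prime_pow Nat.prime_two (m := 3)).mp h8
    exact coatom_two_group e h M hM (IsPGroup.of_card hk)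

end KU2

end Cfsg.Agent.Lib.Helper2.L27Cls
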