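import Mathlib
import Cfsg.Prelude.Def_Classical
import Cfsg.Agent.Lib.Helper2.WeightForm
import Cfsg.Agent.S0287

set_option autoImplicit false

namespace Cfsg.Agent.Lib.Helper2.O4Plus

open scoped Matrix
open Cfsg.Agent.Lib.Helper2.HeartEmb Cfsg.Agent.Lib.Helper2.WeightForm

/-- The index type of the four-dimensional plus-type form. -/
abbrev J4 : Type := Fin 2 ⊕ Fin 2

/-- The quadratic form. -/
abbrev Q4 : (J4 → ZMod 2) → ZMod 2 := Cfsg.quadFormPlus 2 (ZMod 2)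

/-- The orthogonal group. -/
abbrev O4 : Subgroup (Matrix.GeneralLinearGroup J4 (ZMod 2)) := Cfsg.isometryGroup (ZMod 2) Q4

/-- A basis of the even-weight vectors on three points. -/
def B3 : Matrix (Fin 3) (Fin 2) (ZMod 2) := !![1,0;1,1;0,1]

/-- Dual coordinates. -/
def C3 : Matrix (Fin 2) (Fin 3) (ZMod 2) := !![1,0,0;0,0,1]

/-- The two-dimensional representation of `S₃`. -/
def rho (σ : Equiv.Perm (Fin 3)) : Matrix (Fin 2) (Fin 2) (ZMod 2) := C3 * Pm σ * B3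

/-- Left multiplication on two-by-two matrices `[[x₁, x₂], [y₂, y₁]]`. -/
def Lm (P : Matrix (Fin 2) (Fin 2) (ZMod 2)) : Matrix J4 J4 (ZMod 2) :=
  Matrix.fromBlocks !![P 0 0, 0; 0, P 0 0] !![0, P 0 1; P 0 1, 0]
    !![0, P 1 0; P 1 0, 0] !![P 1 1, 0; 0, P 1 1]

/-- Right multiplication by the transpose. -/
def Rm (P : Matrix (Fin 2) (Fin 2) (ZMod 2)) : Matrix J4 J4 (ZMod 2) :=
  Matrix.fromBlocks !![P 0 0, P 0 1; P 1 0, P 1 1] 0 0 !![P 1 1, P 1 0; P 0 1, P 0 0]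

/-- Transposition of two-by-two matrices. -/
def Tm : Matrix J4 J4 (ZMod 2) :=
  Matrix.fromBlocks !![1, 0; 0, 0] !![0, 0; 0, 1] !![0, 0; 0, 1] !![1, 0; 0, 0]

/-- The first copy of `S₃`. -/
def al (σ : Equiv.Perm (Fin 3)) : Matrix J4 J4 (ZMod 2) := Lm (rho σ)

/-- The second copy of `S₃`. -/
def be (σ : Equiv.Perm (Fin 3)) : Matrix J4 J4 (ZMod 2) := Rm (rho σ)

theorem al_one : al 1 = 1 := by decide
theorem be_one : be 1 = 1 := by decide
theorem al_mul : ∀ σ τ : Equiv.Perm (Fin 3), al (σ * τ) = al σ * al τ := by decide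
theorem be_mul : ∀ σ τ : Equiv.Perm (Fin 3), be (σ * τ) = be σ * be τ := by decide
theorem al_Q : ∀ (σ : Equiv.Perm (Fin 3)) (v : J4 → ZMod 2), Q4 (al σ *ᵥ v) = Q4 v := by decide
theorem be_Q : ∀ (σ : Equiv.Perm (Fin 3)) (v : J4 → ZMod 2), Q4 (be σ *ᵥ v) = Q4 v := by decide
theorem al_inj : ∀ σ : Equiv.Perm (Fin 3), al σ = 1 → σ = 1 := by decide
theorem be_inj : ∀ σ : Equiv.Perm (Fin 3), be σ = 1 → σ = 1 := by decide
theorem al_be_comm : ∀ σ τ : Equiv.Perm (Fin 3), al σ * be τ = be τ * al σ := by decide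
theorem al_eq_be : ∀ σ τ : Equiv.Perm (Fin 3), al σ = be τ → σ = 1 := by decide
theorem Tm_sq : Tm * Tm = 1 := by decide
theorem Tm_Q : ∀ v : J4 → ZMod 2, Q4 (Tm *ᵥ v) = Q4 v := by decide
theorem Tm_conj : ∀ σ : Equiv.Perm (Fin 3), Tm * al σ * Tm = be σ := by decide

/-- A homomorphism into the orthogonal group from matrix data. -/
def mkHom (f : Equiv.Perm (Fin 3) → Matrix J4 J4 (ZMod 2)) (h1 : f 1 = 1)
    (hm : ∀ σ τ, f (σ * τ) = f σ * f τ) (hQ : ∀ σ v, Q4 (f σ *ᵥ v) = Q4 v) :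
    Equiv.Perm (Fin 3) →* ↥O4 :=
  (MonoidHom.toHomUnits { toFun := f, map_one' := h1, map_mul' := hm }).codRestrict _
    (fun σ u _ => hQ σ u)

theorem mkHom_val (f : Equiv.Perm (Fin 3) → Matrix J4 J4 (ZMod 2)) (h1 : f 1 = 1)
    (hm : ∀ σ τ, f (σ * τ) = f σ * f τ) (hQ : ∀ σ v, Q4 (f σ *ᵥ v) = Q4 v)
    (σ : Equiv.Perm (Fin 3)) :
    (((mkHom f h1 hm hQ σ : ↥O4) : Matrix.GeneralLinearGroup J4 (ZMod 2)) :
      Matrix J4 J4 (ZMod 2)) = f σ := rfl

theorem ext_O4 {x y : ↥O4}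
    (h : ((x : Matrix.GeneralLinearGroup J4 (ZMod 2)) : Matrix J4 J4 (ZMod 2))
      = ((y : Matrix.GeneralLinearGroup J4 (ZMod 2)) : Matrix J4 J4 (ZMod 2))) : x = y :=
  Subtype.ext (Units.ext h)

/-- The first copy of `S₃` in the orthogonal group. -/
def alG : Equiv.Perm (Fin 3) →* ↥O4 := mkHom al al_one al_mul al_Q

/-- The second copy of `S₃` in the orthogonal group. -/
def beG : Equiv.Perm (Fin 3) →* ↥O4 := mkHom be be_one be_mul be_Q

theorem alG_injective : Function.Injective alG := by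
  rw [injective_iff_map_eq_one]
  intro σ h
  apply al_inj
  have h1 := congrArg (fun x : ↥O4 =>
    ((x : Matrix.GeneralLinearGroup J4 (ZMod 2)) : Matrix J4 J4 (ZMod 2))) h
  exact h1

theorem beG_injective : Function.Injective beG := by
  rw [injective_iff_map_eq_one]
  intro σ h
  apply be_inj
  have h1 := congrArg (fun x : ↥O4 =>
    ((x : Matrix.GeneralLinearGroup J4 (ZMod 2)) : Matrix J4 J4 (ZMod 2))) h
  exact h1

theorem comm_G (σ τ : Equiv.Perm (Fin 3)) : Commute (alG σ) (beG τ) := by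
  apply ext_O4
  exact al_be_comm σ τ

theorem disjoint_G : Disjoint alG.range beG.range := by
  rw [Subgroup.disjoint_def]
  rintro x ⟨σ, rfl⟩ ⟨τ, hτ⟩
  have h1 := congrArg (fun x : ↥O4 =>
    ((x : Matrix.GeneralLinearGroup J4 (ZMod 2)) : Matrix J4 J4 (ZMod 2))) hτ
  have h2 : be τ = al σ := h1
  rw [al_eq_be σ τ h2.symm, map_one]

/-- The transposition element. -/
def TmG : ↥O4 := ⟨⟨Tm, Tm, Tm_sq, Tm_sq⟩, fun u _ => Tm_Q u⟩

theorem TmG_conj (σ : Equiv.Perm (Fin 3)) : TmG * alG σ * TmG⁻¹ = beG σ := by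
  have h1 : TmG⁻¹ = TmG := by
    rw [inv_eq_iff_mul_eq_one]
    apply ext_O4
    exact Tm_sq
  rw [h1]
  apply ext_O4
  exact Tm_conj σ

theorem card_O4 : Nat.card ↥O4 = 72 := by
  have h := Cfsg.Agent.S0287.result (ZMod.card 2) 2 (by norm_num)
  rw [h]
  decide

theorem main :
    Nat.card ↥O4 = 72 ∧
    ∃ (A B : Subgroup ↥O4),
      Nonempty (↥A ≃* Equiv.Perm (Fin 3)) ∧ Nonempty (↥B ≃* Equiv.Perm (Fin 3)) ∧ A ⊓ B = ⊥ ∧
      (∀ a ∈ A, ∀ b ∈ B, a * b = b * a) ∧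
      (A ⊔ B).index = 2 ∧ ∃ g : ↥O4, A.map (MulAut.conj g).toMonoidHom = B := by
  refine ⟨card_O4, alG.range, beG.range, ⟨(MonoidHom.ofInjective alG_injective).symm⟩,
    ⟨(MonoidHom.ofInjective beG_injective).symm⟩, disjoint_G.eq_bot, ?_, ?_, TmG, ?_⟩
  · rintro a ⟨σ, rfl⟩ b ⟨τ, rfl⟩
    exact (comm_G σ τ).eq
  · have hinj : Function.Injective (MonoidHom.noncommCoprod alG beG comm_G) :=
      (MonoidHom.noncommCoprod_injective alG beG comm_G).mpr
        ⟨alG_injective, beG_injective, disjoint_G⟩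
    have hr := MonoidHom.noncommCoprod_range alG beG comm_G
    have hc : Nat.card ↥(alG.range ⊔ beG.range) = 36 := by
      rw [← hr, ← Nat.card_congr (MonoidHom.ofInjective hinj).toEquiv, Nat.card_prod, Nat.card_perm,
        Nat.card_eq_fintype_card, Fintype.card_fin]
      decide
    have h2 := Subgroup.card_mul_index (alG.range ⊔ beG.range)
    rw [hc, card_O4] at h2
    omega
  · ext x
    constructor
    · rintro ⟨y, ⟨σ, rfl⟩, rfl⟩
      exact ⟨σ, (TmG_conj σ).symm⟩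
    · rintro ⟨σ, rfl⟩
      exact ⟨alG σ, ⟨σ, rfl⟩, TmG_conj σ⟩

end Cfsg.Agent.Lib.Helper2.O4Plus
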