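import Mathlib
import Cfsg.Prelude.Def_SporadicB
import Cfsg.Agent.Lib.Helper15.OrthGen
import Cfsg.Agent.Lib.Helper15.Witt

set_option autoImplicit false

namespace Cfsg.Agent.Lib.Helper2.OrthTransp

open Module Cfsg.Agent.Lib.Helper15.Spinor Cfsg.Agent.Lib.Helper15.CD2
open scoped Matrix

variable {ι : Type} [Fintype ι] [DecidableEq ι]

theorem zmod2 (c : ZMod 2) : c = 0 ∨ c = 1 := by
  fin_cases c
  · left; rfl
  · right; rfl

theorem one_of_ne {c : ZMod 2} (h : c ≠ 0) : c = 1 := (zmod2 c).resolve_left h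

omit [DecidableEq ι] in
/-- A matrix all of whose values lie on a line, and which is not zero, has rank one. -/
theorem rank_one_of {K : Type*} [Field K] (M : Matrix ι ι K) (a : ι → K) (lam : (ι → K) → K)
    (h : ∀ x, M *ᵥ x = lam x • a) (x0 : ι → K) (hx0 : M *ᵥ x0 ≠ 0) : M.rank = 1 := by
  have h1 : LinearMap.range M.mulVecLin ≤ Submodule.span K {a} := by
    rintro _ ⟨x, rfl⟩
    rw [Matrix.mulVecLin_apply, h]
    exact Submodule.smul_mem _ _ (Submodule.mem_span_singleton_self a)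
  have h2 : M.rank ≤ 1 := by
    have h3 : finrank K (LinearMap.range M.mulVecLin) ≤ finrank K (Submodule.span K {a}) :=
      Submodule.finrank_mono h1
    refine h3.trans ?_
    have h4 := finrank_span_le_card (R := K) ({a} : Set (ι → K))
    simpa using h4
  have h3 : M.rank ≠ 0 := by
    intro h0
    have h4 : LinearMap.range M.mulVecLin = ⊥ := Submodule.finrank_eq_zero.mp h0
    rw [LinearMap.range_eq_bot] at h4
    apply hx0
    have h5 := LinearMap.congr_fun h4 x0
    rw [Matrix.mulVecLin_apply] at h5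
    rw [h5]
    rfl
  omega

variable (Q : QuadraticForm (ZMod 2) (ι → ZMod 2))

/-- The action of an orthogonal transvection over the field of two elements. -/
theorem act_R (v : ι → ZMod 2) (hv : Q v ≠ 0) (x : ι → ZMod 2) :
    act Q (reflO Q v) x = x + QuadraticMap.polar ⇑Q v x • v := by
  rw [act_reflO Q v hv, one_of_ne hv, inv_one, one_mul, vec_sub]

omit [Fintype ι] [DecidableEq ι] in
theorem ne_zero_of_Q {v : ι → ZMod 2} (hv : Q v ≠ 0) : v ≠ 0 := by
  rintro rfl
  exact hv (map_zero Q)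

theorem R_ne_one (hnd : ∀ x, (∀ y, QuadraticMap.polar ⇑Q x y = 0) → x = 0)
    (v : ι → ZMod 2) (hv : Q v ≠ 0) : reflO Q v ≠ 1 := by
  intro h
  have hv0 : v ≠ 0 := ne_zero_of_Q Q hv
  obtain ⟨x, hx⟩ := exists_polar_ne Q hnd v hv0
  have h1 := act_R Q v hv x
  rw [h, act_one, one_of_ne hx, one_smul] at h1
  exact hv0 (by simpa using h1)

theorem R_rank (hnd : ∀ x, (∀ y, QuadraticMap.polar ⇑Q x y = 0) → x = 0)
    (v : ι → ZMod 2) (hv : Q v ≠ 0) :
    (((reflO Q v : Matrix.GeneralLinearGroup ι (ZMod 2)) : Matrix ι ι (ZMod 2)) - 1).rank = 1 := by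
  have hv0 : v ≠ 0 := ne_zero_of_Q Q hv
  obtain ⟨x0, hx0⟩ := exists_polar_ne Q hnd v hv0
  have hform : ∀ x, (((reflO Q v : Matrix.GeneralLinearGroup ι (ZMod 2)) : Matrix ι ι (ZMod 2))
      - 1) *ᵥ x = QuadraticMap.polar ⇑Q v x • v := by
    intro x
    rw [Matrix.sub_mulVec, Matrix.one_mulVec, ← act_apply, act_R Q v hv, add_sub_cancel_left]
  apply rank_one_of _ v (fun x => QuadraticMap.polar ⇑Q v x) hform x0
  rw [hform, one_of_ne hx0, one_smul]
  exact hv0

/-- An isometry `g` with `g - 1` of rank one is an orthogonal transvection. -/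
theorem eq_R_of_rank (hnd : ∀ x, (∀ y, QuadraticMap.polar ⇑Q x y = 0) → x = 0)
    (g : ↥(Cfsg.isometryGroup (ZMod 2) ⇑Q))
    (h : (((g : Matrix.GeneralLinearGroup ι (ZMod 2)) : Matrix ι ι (ZMod 2)) - 1).rank = 1) :
    ∃ a : ι → ZMod 2, Q a ≠ 0 ∧ g = reflO Q a := by
  have h1 : Module.finrank (ZMod 2) (LinearMap.range
      (((g : Matrix.GeneralLinearGroup ι (ZMod 2)) : Matrix ι ι (ZMod 2)) - 1).mulVecLin) = 1 := h
  obtain ⟨⟨a, ha_mem⟩, ha0, hspan⟩ := finrank_eq_one_iff'.mp h1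
  have ha : a ≠ 0 := fun h => ha0 (Subtype.ext h)
  have hlam : ∀ x, ∃ c : ZMod 2,
      (((g : Matrix.GeneralLinearGroup ι (ZMod 2)) : Matrix ι ι (ZMod 2)) - 1) *ᵥ x = c • a := by
    intro x
    obtain ⟨c, hc⟩ := hspan ⟨(((g : Matrix.GeneralLinearGroup ι (ZMod 2)) :
      Matrix ι ι (ZMod 2)) - 1) *ᵥ x, ⟨x, rfl⟩⟩
    exact ⟨c, (congrArg Subtype.val hc).symm⟩
  choose lam hlam using hlam
  have hg : ∀ x, act Q g x = x + lam x • a := by
    intro x
    have h2 := hlam x
    rw [Matrix.sub_mulVec, Matrix.one_mulVec] at h2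
    rw [act_apply, ← h2]
    abel
  have hsym : ∀ x y, lam y * QuadraticMap.polar ⇑Q x a = lam x * QuadraticMap.polar ⇑Q y a := by
    intro x y
    have h3 := act_polar Q g x y
    rw [hg, hg] at h3
    simp only [QuadraticMap.polar_add_left, QuadraticMap.polar_add_right,
      QuadraticMap.polar_smul_left, QuadraticMap.polar_smul_right, polar_self0, smul_eq_mul,
      mul_zero, add_zero] at h3
    rw [QuadraticMap.polar_comm ⇑Q a y] at h3
    have h4 : lam y * QuadraticMap.polar ⇑Q x a + lam x * QuadraticMap.polar ⇑Q y a = 0 := by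
      linear_combination h3
    exact CharTwo.add_eq_zero.mp h4
  have hQ : ∀ x, lam x * (lam x * Q a + QuadraticMap.polar ⇑Q x a) = 0 := by
    intro x
    have h3 := act_Q Q g x
    rw [hg, QuadraticMap.map_add ⇑Q, QuadraticMap.map_smul, QuadraticMap.polar_smul_right,
      smul_eq_mul, smul_eq_mul] at h3
    linear_combination h3
  obtain ⟨y0, hy0⟩ : ∃ y0, lam y0 = 1 := by
    by_contra hcon
    push Not at hcon
    have h6 : ∀ x, lam x = 0 := fun x => (zmod2 (lam x)).resolve_right (hcon x)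
    obtain ⟨x₀, hx₀⟩ := ha_mem
    apply ha
    rw [← hx₀]
    show (((g : Matrix.GeneralLinearGroup ι (ZMod 2)) : Matrix ι ι (ZMod 2)) - 1) *ᵥ x₀ = 0
    rw [hlam, h6, zero_smul]
  have hfa : QuadraticMap.polar ⇑Q y0 a = 1 := by
    rcases zmod2 (QuadraticMap.polar ⇑Q y0 a) with h0 | h1
    · exfalso
      apply ha
      apply hnd a
      intro b
      have h7 := hsym b y0
      rw [hy0, h0, one_mul, mul_zero] at h7
      rw [QuadraticMap.polar_comm, h7]
    · exact h1
  have hlam' : ∀ x, lam x = QuadraticMap.polar ⇑Q a x := by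
    intro x
    have h8 := hsym x y0
    rw [hy0, hfa, one_mul, mul_one] at h8
    rw [QuadraticMap.polar_comm, h8]
  have hQa : Q a ≠ 0 := by
    intro h0
    have h9 := hQ y0
    rw [hy0, hfa, h0, mul_zero, zero_add, mul_one] at h9
    exact one_ne_zero h9
  refine ⟨a, hQa, ?_⟩
  apply act_ext
  intro x
  rw [hg, act_R Q a hQa, hlam']

theorem R_comm {u v : ι → ZMod 2} (hu : Q u ≠ 0) (hv : Q v ≠ 0)
    (huv : QuadraticMap.polar ⇑Q u v = 0) : reflO Q u * reflO Q v = reflO Q v * reflO Q u := by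
  have hvu : QuadraticMap.polar ⇑Q v u = 0 := by rw [QuadraticMap.polar_comm, huv]
  apply act_ext
  intro x
  simp only [act_mul, act_R Q u hu, act_R Q v hv, QuadraticMap.polar_add_right,
    QuadraticMap.polar_smul_right, huv, hvu, smul_zero, add_zero]
  abel

theorem R_inv (v : ι → ZMod 2) : (reflO Q v)⁻¹ = reflO Q v :=
  inv_eq_of_mul_eq_one_right (reflO_mul_self Q v)

theorem R_braid {u v : ι → ZMod 2} (hu : Q u ≠ 0) (hv : Q v ≠ 0)
    (huv : QuadraticMap.polar ⇑Q u v = 1) :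
    reflO Q u * reflO Q v * reflO Q u = reflO Q (v + u) := by
  have h := conj_reflO Q (reflO Q u) v hv
  rw [R_inv, ← act_apply, act_R Q u hu, huv, one_smul] at h
  exact h

theorem three (u v : ι → ZMod 2) (hu : Q u ≠ 0) (hv : Q v ≠ 0) :
    (reflO Q u * reflO Q v) ^ 2 = 1 ∨ (reflO Q u * reflO Q v) ^ 3 = 1 := by
  rcases zmod2 (QuadraticMap.polar ⇑Q u v) with h0 | h1
  · left
    rw [pow_two]
    calc reflO Q u * reflO Q v * (reflO Q u * reflO Q v)
        = reflO Q u * (reflO Q v * reflO Q u) * reflO Q v := by group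
      _ = reflO Q u * (reflO Q u * reflO Q v) * reflO Q v := by rw [R_comm Q hu hv h0]
      _ = (reflO Q u * reflO Q u) * (reflO Q v * reflO Q v) := by group
      _ = 1 := by rw [reflO_mul_self, reflO_mul_self, one_mul]
  · right
    have h2 : QuadraticMap.polar ⇑Q v u = 1 := by rw [QuadraticMap.polar_comm, h1]
    calc (reflO Q u * reflO Q v) ^ 3
        = (reflO Q u * reflO Q v * reflO Q u) * (reflO Q v * reflO Q u * reflO Q v) := by
          rw [pow_succ, pow_two]
          simp only [mul_assoc]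
      _ = reflO Q (v + u) * reflO Q (u + v) := by rw [R_braid Q hu hv h1, R_braid Q hv hu h2]
      _ = 1 := by rw [add_comm v u, reflO_mul_self]

/-- The isometry group is transitive on the non-singular vectors. -/
theorem exists_move (hnd : ∀ x, (∀ y, QuadraticMap.polar ⇑Q x y = 0) → x = 0)
    (hcard : Fintype.card ι ≠ 4) (u w : ι → ZMod 2) (hu : Q u ≠ 0) (hw : Q w ≠ 0) :
    ∃ A : ↥(Cfsg.isometryGroup (ZMod 2) ⇑Q), act Q A u = w := by
  have huw : Q u = Q w := by rw [one_of_ne hu, one_of_ne hw]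
  by_cases hne : u = w
  · exact ⟨1, by rw [act_one, hne]⟩
  by_cases hB : QuadraticMap.polar ⇑Q u w ≠ 0
  · exact ⟨reflO Q (u + w), (move_b Q u w huw hB).2.1⟩
  rw [not_not] at hB
  obtain ⟨z0, -, hz0u, hz0w⟩ := exists_z0 Q hnd ⊥ (splits_bot Q) u w
    (Cfsg.Agent.Lib.Helper15.Witt.mem_perp_bot Q u) (Cfsg.Agent.Lib.Helper15.Witt.mem_perp_bot Q w)
    (ne_zero_of_Q Q hu) (ne_zero_of_Q Q hw)
  obtain ⟨z, hz, hzu, hzw⟩ : ∃ z, Q z ≠ 0 ∧ QuadraticMap.polar ⇑Q z u ≠ 0 ∧
      QuadraticMap.polar ⇑Q z w ≠ 0 := by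
    by_cases hz0 : Q z0 ≠ 0
    · exact ⟨z0, hz0, hz0u, hz0w⟩
    · rw [not_not] at hz0
      exact exists_z_bot Q hnd hcard u w z0 hne huw hu hB hz0u hz0w hz0
  obtain ⟨d, -, hd, -⟩ := move_c Q u w z huw hB hz hzu hzw
  exact ⟨reflO Q d * reflO Q z, by rw [act_mul]; exact hd⟩

/-- Over the field of two elements, in dimension other than four, the orthogonal transvections
of a quadratic form with non-degenerate polar form are a class of 3-transpositions. -/
theorem main (hnd : ∀ x, (∀ y, QuadraticMap.polar ⇑Q x y = 0) → x = 0)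
    (hcard : Fintype.card ι ≠ 4) (v0 : ι → ZMod 2) (hv0 : Q v0 ≠ 0) :
    Cfsg.IsThreeTranspositionClass {g : ↥(Cfsg.isometryGroup (ZMod 2) ⇑Q) |
      (((g : Matrix.GeneralLinearGroup ι (ZMod 2)) : Matrix ι ι (ZMod 2)) - 1).rank = 1} := by
  refine ⟨⟨?_, ?_⟩, ⟨reflO Q v0, R_rank Q hnd v0 hv0, ?_⟩, ?_⟩
  · intro d hd
    obtain ⟨a, ha, rfl⟩ := eq_R_of_rank Q hnd d hd
    exact orderOf_eq_prime (by rw [pow_two]; exact reflO_mul_self Q a) (R_ne_one Q hnd a ha)
  · intro d hd e he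
    obtain ⟨u, hu, rfl⟩ := eq_R_of_rank Q hnd d hd
    obtain ⟨v, hv, rfl⟩ := eq_R_of_rank Q hnd e he
    exact three Q u v hu hv
  · ext g
    show _ ↔ IsConj _ g
    rw [isConj_iff]
    constructor
    · intro hg
      obtain ⟨w, hw, rfl⟩ := eq_R_of_rank Q hnd g hg
      obtain ⟨A, hA⟩ := exists_move Q hnd hcard v0 w hv0 hw
      exact ⟨A, by rw [conj_reflO Q A v0 hv0, ← act_apply, hA]⟩
    · rintro ⟨c, rfl⟩
      rw [conj_reflO Q c v0 hv0]
      exact R_rank Q hnd _ (by rw [iso_apply]; exact hv0)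
  · rw [eq_top_iff]
    intro g _
    obtain ⟨vs, hvs, rfl⟩ := Cfsg.Agent.Lib.Helper15.OrthGen.cd_all Q hnd (Or.inr hcard) g
    induction vs with
    | nil =>
      rw [prodRefl_nil]
      exact one_mem _
    | cons v vs ih =>
      rw [prodRefl_cons]
      exact mul_mem (Subgroup.subset_closure (R_rank Q hnd v (hvs v (List.mem_cons_self ..))))
        (ih (fun w hw => hvs w (List.mem_cons_of_mem _ hw)) (Subgroup.mem_top _))

end Cfsg.Agent.Lib.Helper2.OrthTransp
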