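import Mathlib
import Cfsg.Prelude.Def_SporadicB
import Cfsg.Prelude.Def_FischerSpaces
import Cfsg.Agent.Lib.Helper15.OrthGen
import Cfsg.Agent.Lib.Helper15.Witt

set_option autoImplicit false

namespace Cfsg.Agent.Lib.Helper2.Refl3

open Module Cfsg.Agent.Lib.Helper15.Spinor Cfsg.Agent.Lib.Helper15.CD2
  Cfsg.Agent.Lib.Helper15.CartanD Cfsg.Agent.Lib.Helper15.Witt
open scoped Matrix

variable {ι : Type} [Fintype ι] [DecidableEq ι]

theorem two_ne : (2 : ZMod 3) ≠ 0 := by decide

theorem three_eq : (3 : ZMod 3) = 0 := by decide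

theorem mul_self_of_ne {a : ZMod 3} (h : a ≠ 0) : a * a = 1 := by
  revert a; decide

theorem inv_of_ne {a : ZMod 3} (h : a ≠ 0) : a⁻¹ = a :=
  inv_eq_of_mul_eq_one_right (mul_self_of_ne h)

theorem eq_or_neg {a d : ZMod 3} (ha : a ≠ 0) (hd : d ≠ 0) : a = d ∨ a = -d := by
  revert a d; decide

theorem not_sq_two : ¬ IsSquare (2 : ZMod 3) := by
  rintro ⟨r, hr⟩
  revert r; decide

variable (Q : QuadraticForm (ZMod 3) (ι → ZMod 3))

omit [Fintype ι] [DecidableEq ι] in
theorem ne_zero_of_Q {v : ι → ZMod 3} (hv : Q v ≠ 0) : v ≠ 0 := by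
  rintro rfl
  exact hv (map_zero Q)

omit [Fintype ι] [DecidableEq ι] in
/-- Orthogonality to a span from orthogonality to its generators. -/
theorem mem_perp_span (S : Set (ι → ZMod 3)) (x : ι → ZMod 3)
    (h : ∀ s ∈ S, QuadraticMap.polar ⇑Q x s = 0) : x ∈ perp Q (Submodule.span (ZMod 3) S) := by
  intro s hs
  induction hs using Submodule.span_induction with
  | mem y hy => exact h y hy
  | zero => rw [QuadraticMap.polar_comm, polar_zero_left]
  | add y z _ _ hy hz => rw [QuadraticMap.polar_add_right, hy, hz, add_zero]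
  | smul a y _ hy => rw [QuadraticMap.polar_smul_right, hy, smul_zero]

/-- A second non-singular vector orthogonal to `u`, `w` and a first one. -/
theorem exists_second (hQ : (QuadraticMap.polarBilin Q).Nondegenerate)
    (hn : 5 ≤ Fintype.card ι) (u w y : ι → ZMod 3) (hu : Q u ≠ 0) (hy : Q y ≠ 0)
    (hyu : QuadraticMap.polar ⇑Q y u = 0) (hyw : QuadraticMap.polar ⇑Q y w = 0) :
    ∃ z, Q z ≠ 0 ∧ QuadraticMap.polar ⇑Q z u = 0 ∧ QuadraticMap.polar ⇑Q z w = 0 ∧
      QuadraticMap.polar ⇑Q z y = 0 := by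
  classical
  have hWr : finrank (ZMod 3) (Submodule.span (ZMod 3) ({u, w, y} : Set (ι → ZMod 3))) ≤ 3 := by
    have h1 := finrank_span_finset_le_card (R := ZMod 3) ({u, w, y} : Finset (ι → ZMod 3))
    have h3 : (({u, w, y} : Finset (ι → ZMod 3)) : Set (ι → ZMod 3)) = {u, w, y} := by
      push_cast
      rfl
    rw [h3] at h1
    exact h1.trans Finset.card_le_three
  by_contra hno
  have hall : ∀ x ∈ perp Q (Submodule.span (ZMod 3) ({u, w, y} : Set (ι → ZMod 3))),
      Q x = 0 := by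
    intro x hx
    by_contra h
    exact hno ⟨x, h, hx u (Submodule.subset_span (by simp)),
      hx w (Submodule.subset_span (by simp)), hx y (Submodule.subset_span (by simp))⟩
  have hle : perp Q (Submodule.span (ZMod 3) ({u, w, y} : Set (ι → ZMod 3))) ≤
      Submodule.span (ZMod 3) ({u, w, y} : Set (ι → ZMod 3)) := by
    have h1 : perp Q (Submodule.span (ZMod 3) ({u, w, y} : Set (ι → ZMod 3))) ≤
        perp Q (perp Q (Submodule.span (ZMod 3) ({u, w, y} : Set (ι → ZMod 3)))) :=
      fun x hx s hs => polar_of_sing Q _ hall x s hx hs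
    rwa [perp_perp Q hQ] at h1
  have hsub : perp Q (Submodule.span (ZMod 3) ({u, w, y} : Set (ι → ZMod 3))) ≤
      Submodule.span (ZMod 3)
        {w - (QuadraticMap.polar ⇑Q w u * (2 * Q u)⁻¹) • u} := by
    intro x hx
    obtain ⟨α, β, γ, rfl⟩ := Submodule.mem_span_triple.mp (hle hx)
    have hxu := hx u (Submodule.subset_span (by simp))
    have hxy := hx y (Submodule.subset_span (by simp))
    simp only [QuadraticMap.polar_add_left, QuadraticMap.polar_smul_left, smul_eq_mul] at hxu hxy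
    rw [QuadraticMap.polar_comm ⇑Q u y, QuadraticMap.polar_comm ⇑Q w y, hyu, hyw,
      QuadraticMap.polar_self, mul_zero, mul_zero, zero_add, zero_add] at hxy
    have hγ : γ = 0 := by
      have h5 : γ * (2 * Q y) = 0 := by
        rw [← hxy, two_nsmul, two_mul]
      rcases mul_eq_zero.mp h5 with h6 | h6
      · exact h6
      · exact absurd h6 (mul_ne_zero two_ne hy)
    rw [hyu, mul_zero, add_zero, QuadraticMap.polar_self] at hxu
    have hα : α = -(β * (QuadraticMap.polar ⇑Q w u * (2 * Q u)⁻¹)) := by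
      have h7 : (2 * Q u) ≠ 0 := mul_ne_zero two_ne hu
      have h8 : α * (2 * Q u) = -(β * QuadraticMap.polar ⇑Q w u) := by
        rw [two_nsmul, ← two_mul] at hxu
        linear_combination hxu
      have h9 := eq_div_of_mul_eq h7 h8
      rw [h9, div_eq_mul_inv]
      ring
    rw [Submodule.mem_span_singleton]
    refine ⟨β, ?_⟩
    rw [hγ, hα, zero_smul, add_zero, smul_sub, smul_smul, neg_smul]
    abel
  have h1 := Submodule.finrank_mono hsub
  have h2 := finrank_perp Q hQ (Submodule.span (ZMod 3) ({u, w, y} : Set (ι → ZMod 3)))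
  have h3 : finrank (ZMod 3) (Submodule.span (ZMod 3)
      ({w - (QuadraticMap.polar ⇑Q w u * (2 * Q u)⁻¹) • u} : Set (ι → ZMod 3))) ≤ 1 := by
    have h4 := finrank_span_le_card (R := ZMod 3)
      ({w - (QuadraticMap.polar ⇑Q w u * (2 * Q u)⁻¹) • u} : Set (ι → ZMod 3))
    simpa using h4
  omega

/-- In dimension at least five, a vector of any prescribed non-zero norm orthogonal to two given
vectors, the first of which is non-singular. -/
theorem exists_t (hQ : (QuadraticMap.polarBilin Q).Nondegenerate)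
    (hn : 5 ≤ Fintype.card ι) (u w : ι → ZMod 3) (hu : Q u ≠ 0) (d : ZMod 3) (hd : d ≠ 0) :
    ∃ t, Q t = d ∧ QuadraticMap.polar ⇑Q t u = 0 ∧ QuadraticMap.polar ⇑Q t w = 0 := by
  classical
  have hWr : finrank (ZMod 3) (Submodule.span (ZMod 3) ({u, w} : Set (ι → ZMod 3))) ≤ 2 := by
    have h1 := finrank_span_finset_le_card (R := ZMod 3) ({u, w} : Finset (ι → ZMod 3))
    have h3 : (({u, w} : Finset (ι → ZMod 3)) : Set (ι → ZMod 3)) = {u, w} := by
      push_cast
      rfl
    rw [h3] at h1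
    exact h1.trans Finset.card_le_two
  obtain ⟨y, hyW, hy⟩ := exists_nonsing_perp Q hQ
    (Submodule.span (ZMod 3) ({u, w} : Set (ι → ZMod 3))) (by omega)
  have hyu : QuadraticMap.polar ⇑Q y u = 0 := hyW u (Submodule.subset_span (by simp))
  have hyw : QuadraticMap.polar ⇑Q y w = 0 := hyW w (Submodule.subset_span (by simp))
  rcases eq_or_neg hy hd with h1 | h1
  · exact ⟨y, h1, hyu, hyw⟩
  obtain ⟨z, hz, hzu, hzw, hzy⟩ := exists_second Q hQ hn u w y hu hy hyu hyw
  rcases eq_or_neg hz hd with h2 | h2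
  · exact ⟨z, h2, hzu, hzw⟩
  refine ⟨y + z, ?_, ?_, ?_⟩
  · rw [QuadraticMap.map_add ⇑Q, h1, h2, QuadraticMap.polar_comm, hzy]
    linear_combination (-d) * three_eq
  · rw [QuadraticMap.polar_add_left, hyu, hzu, add_zero]
  · rw [QuadraticMap.polar_add_left, hyw, hzw, add_zero]

/-! ### Reflections -/

theorem R_inv (v : ι → ZMod 3) : (reflO Q v)⁻¹ = reflO Q v :=
  inv_eq_of_mul_eq_one_right (reflO_mul_self Q v)

theorem R_ne_one (v : ι → ZMod 3) (hv : Q v ≠ 0) : reflO Q v ≠ 1 := by
  intro h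
  have h1 := refl_self Q v hv
  rw [← coe_reflO Q v hv, h, coe_one, Matrix.one_mulVec] at h1
  exact ne_zero_of_Q Q hv (vec_eq_zero_of_neg_eq two_ne v h1.symm)

theorem R_comm {u w : ι → ZMod 3} (hu : Q u ≠ 0) (hw : Q w ≠ 0)
    (h : QuadraticMap.polar ⇑Q u w = 0) : reflO Q u * reflO Q w = reflO Q w * reflO Q u := by
  have h' : QuadraticMap.polar ⇑Q w u = 0 := by rw [QuadraticMap.polar_comm, h]
  apply act_ext
  intro x
  simp only [act_mul, act_reflO Q u hu, act_reflO Q w hw, QuadraticMap.polar_sub_right,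
    QuadraticMap.polar_smul_right, h, h', smul_eq_mul, mul_zero, sub_zero]
  abel

/-- The braid relation for reflections in non-orthogonal vectors of the same norm. -/
theorem braid {u w : ι → ZMod 3} (hu : Q u ≠ 0) (huw : Q u = Q w)
    (h : QuadraticMap.polar ⇑Q u w ≠ 0) :
    reflO Q u * reflO Q w * reflO Q u = reflO Q w * reflO Q u * reflO Q w := by
  have hw : Q w ≠ 0 := huw ▸ hu
  have e1 := conj_reflO Q (reflO Q u) w hw
  have e2 := conj_reflO Q (reflO Q w) u hu
  have hQ1 : Q (act Q (reflO Q u) w) ≠ 0 := by rw [act_Q]; exact hw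
  have hQ2 : Q (act Q (reflO Q w) u) ≠ 0 := by rw [act_Q]; exact hu
  rw [R_inv, ← act_apply] at e1 e2
  rw [e1, e2]
  have hk : (Q u)⁻¹ * QuadraticMap.polar ⇑Q u w ≠ 0 := mul_ne_zero (inv_ne_zero hu) h
  have e3 : act Q (reflO Q u) w
      = (-((Q u)⁻¹ * QuadraticMap.polar ⇑Q u w)) • act Q (reflO Q w) u := by
    rw [act_reflO Q u hu, act_reflO Q w hw, ← huw, QuadraticMap.polar_comm ⇑Q w u, smul_sub,
      smul_smul, neg_mul, mul_self_of_ne hk]
    module
  apply reflO_eq_of_mat Q _ _ hQ1 hQ2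
  rw [e3, refl_smul Q _ _ (neg_ne_zero.mpr hk)]

theorem three {u w : ι → ZMod 3} (hu : Q u ≠ 0) (huw : Q u = Q w) :
    (reflO Q u * reflO Q w) ^ 2 = 1 ∨ (reflO Q u * reflO Q w) ^ 3 = 1 := by
  have hw : Q w ≠ 0 := huw ▸ hu
  by_cases h0 : QuadraticMap.polar ⇑Q u w = 0
  · left
    rw [pow_two]
    calc reflO Q u * reflO Q w * (reflO Q u * reflO Q w)
        = reflO Q u * (reflO Q w * reflO Q u) * reflO Q w := by group
      _ = reflO Q u * (reflO Q u * reflO Q w) * reflO Q w := by rw [R_comm Q hu hw h0]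
      _ = (reflO Q u * reflO Q u) * (reflO Q w * reflO Q w) := by group
      _ = 1 := by rw [reflO_mul_self, reflO_mul_self, one_mul]
  · right
    calc (reflO Q u * reflO Q w) ^ 3
        = (reflO Q u * reflO Q w * reflO Q u) * (reflO Q w * reflO Q u * reflO Q w) := by
          rw [pow_succ, pow_two]
          simp only [mul_assoc]
      _ = (reflO Q u * reflO Q w * reflO Q u) * (reflO Q u * reflO Q w * reflO Q u) := by
          rw [braid Q hu huw h0]
      _ = reflO Q u * reflO Q w * (reflO Q u * reflO Q u) * reflO Q w * reflO Q u := by group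
      _ = reflO Q u * (reflO Q w * reflO Q w) * reflO Q u := by
          rw [reflO_mul_self, mul_one]; group
      _ = 1 := by rw [reflO_mul_self, mul_one, reflO_mul_self]

theorem conj_of_polar {u w : ι → ZMod 3} (hu : Q u ≠ 0) (huw : Q u = Q w)
    (h : QuadraticMap.polar ⇑Q u w ≠ 0) :
    (reflO Q u * reflO Q w) * reflO Q u * (reflO Q u * reflO Q w)⁻¹ = reflO Q w := by
  rw [mul_inv_rev, R_inv, R_inv]
  calc reflO Q u * reflO Q w * reflO Q u * (reflO Q w * reflO Q u)
      = (reflO Q u * reflO Q w * reflO Q u) * reflO Q w * reflO Q u := by group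
    _ = (reflO Q w * reflO Q u * reflO Q w) * reflO Q w * reflO Q u := by
        rw [braid Q hu huw h]
    _ = reflO Q w * reflO Q u * (reflO Q w * reflO Q w) * reflO Q u := by group
    _ = reflO Q w * (reflO Q u * reflO Q u) := by rw [reflO_mul_self, mul_one]; group
    _ = reflO Q w := by rw [reflO_mul_self, mul_one]

/-- The product of the reflections in two orthogonal vectors of norm `d` is the product of two
reflections in vectors of norm `-d`. -/
theorem pair {a b : ι → ZMod 3} {d : ZMod 3} (hd : d ≠ 0) (ha : Q a = d) (hb : Q b = d)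
    (hab : QuadraticMap.polar ⇑Q a b = 0) :
    Q (a + b) = -d ∧ Q (a - b) = -d ∧
      reflO Q a * reflO Q b = reflO Q (a + b) * reflO Q (a - b) := by
  have hba : QuadraticMap.polar ⇑Q b a = 0 := by rw [QuadraticMap.polar_comm, hab]
  have h1 : Q (a + b) = -d := by
    rw [QuadraticMap.map_add ⇑Q, ha, hb, hab]
    linear_combination d * three_eq
  have h2 : Q (a - b) = -d := by
    rw [sub_eq_add_neg, QuadraticMap.map_add ⇑Q, QuadraticMap.map_neg, ha, hb,
      QuadraticMap.polar_neg_right, hab]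
    linear_combination d * three_eq
  refine ⟨h1, h2, ?_⟩
  have ha0 : Q a ≠ 0 := by rw [ha]; exact hd
  have hb0 : Q b ≠ 0 := by rw [hb]; exact hd
  have h10 : Q (a + b) ≠ 0 := by rw [h1]; exact neg_ne_zero.mpr hd
  have h20 : Q (a - b) ≠ 0 := by rw [h2]; exact neg_ne_zero.mpr hd
  apply act_ext
  intro x
  simp only [act_mul, act_reflO Q a ha0, act_reflO Q b hb0, act_reflO Q (a + b) h10,
    act_reflO Q (a - b) h20, ha, hb, h1, h2, QuadraticMap.polar_sub_right,
    QuadraticMap.polar_smul_right, QuadraticMap.polar_add_left, QuadraticMap.polar_sub_left,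
    QuadraticMap.polar_self, hab, hba, smul_eq_mul, mul_zero, sub_zero, zero_add, add_zero,
    inv_neg]
  funext i
  simp only [Pi.sub_apply, Pi.add_apply, Pi.smul_apply, smul_eq_mul, two_nsmul]
  linear_combination (-(d⁻¹ * QuadraticMap.polar ⇑Q a x * a i)
    - d⁻¹ * QuadraticMap.polar ⇑Q b x * b i) * three_eq

/-! ### The reflection subgroup of one norm class -/

theorem mem_refl_iff {c : ZMod 3} (hc : c ≠ 0) (g : ↥(Cfsg.isometryGroup (ZMod 3) ⇑Q)) :
    g ∈ Cfsg.reflectionsOfNorm (⇑Q) c ↔ ∃ v, Q v = c ∧ g = reflO Q v := by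
  constructor
  · rintro ⟨v, hv, hg⟩
    refine ⟨v, hv, ?_⟩
    apply iso_ext
    rw [hg, coe_reflO Q v (by rw [hv]; exact hc)]
  · rintro ⟨v, hv, rfl⟩
    exact ⟨v, hv, coe_reflO Q v (by rw [hv]; exact hc)⟩

theorem R_mem {c : ZMod 3} (hc : c ≠ 0) {v : ι → ZMod 3} (hv : Q v = c) :
    reflO Q v ∈ Cfsg.reflectionSubgroup (⇑Q) c :=
  Subgroup.subset_closure ((mem_refl_iff Q hc _).mpr ⟨v, hv, rfl⟩)

omit [Fintype ι] [DecidableEq ι] in
theorem conj_trans {G : Type*} [Group G] (a b x y z : G) (h1 : a * x * a⁻¹ = y)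
    (h2 : b * y * b⁻¹ = z) : (b * a) * x * (b * a)⁻¹ = z := by
  rw [← h2, ← h1]
  group

/-- Any two reflections of the norm class are conjugate under the reflection subgroup. -/
theorem conj_in (hQ : (QuadraticMap.polarBilin Q).Nondegenerate) (hn : 5 ≤ Fintype.card ι)
    {c : ZMod 3} (hc : c ≠ 0) {u w : ι → ZMod 3} (hu : Q u = c) (hw : Q w = c) :
    ∃ g ∈ Cfsg.reflectionSubgroup (⇑Q) c, g * reflO Q u * g⁻¹ = reflO Q w := by
  have hu0 : Q u ≠ 0 := by rw [hu]; exact hc
  have huw : Q u = Q w := by rw [hu, hw]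
  by_cases h : QuadraticMap.polar ⇑Q u w ≠ 0
  · exact ⟨reflO Q u * reflO Q w, mul_mem (R_mem Q hc hu) (R_mem Q hc hw),
      conj_of_polar Q hu0 huw h⟩
  rw [not_not] at h
  obtain ⟨t, ht, htu, htw⟩ := exists_t Q hQ hn u w hu0 (-c) (neg_ne_zero.mpr hc)
  have hut : QuadraticMap.polar ⇑Q u t = 0 := by rw [QuadraticMap.polar_comm, htu]
  have hwt : QuadraticMap.polar ⇑Q w t = 0 := by rw [QuadraticMap.polar_comm, htw]
  have hz : Q (u + w + t) = c := by
    rw [QuadraticMap.map_add ⇑Q, QuadraticMap.map_add ⇑Q, hu, hw, ht, h,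
      QuadraticMap.polar_add_left, hut, hwt]
    ring
  have hz0 : Q (u + w + t) ≠ 0 := by rw [hz]; exact hc
  have h2c : (2 : ZMod 3) * c ≠ 0 := mul_ne_zero two_ne hc
  have huz : QuadraticMap.polar ⇑Q u (u + w + t) ≠ 0 := by
    rw [QuadraticMap.polar_add_right, QuadraticMap.polar_add_right, QuadraticMap.polar_self, h,
      hut, hu, add_zero, add_zero, two_nsmul, ← two_mul]
    exact h2c
  have hzw : QuadraticMap.polar ⇑Q (u + w + t) w ≠ 0 := by
    rw [QuadraticMap.polar_add_left, QuadraticMap.polar_add_left, QuadraticMap.polar_self, h,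
      htw, hw, add_zero, zero_add, two_nsmul, ← two_mul]
    exact h2c
  have e1 := conj_of_polar Q hu0 (hu.trans hz.symm) huz
  have e2 := conj_of_polar Q hz0 (hz.trans hw.symm) hzw
  exact ⟨(reflO Q (u + w + t) * reflO Q w) * (reflO Q u * reflO Q (u + w + t)),
    mul_mem (mul_mem (R_mem Q hc hz) (R_mem Q hc hw)) (mul_mem (R_mem Q hc hu) (R_mem Q hc hz)),
    conj_trans _ _ _ _ _ e1 e2⟩

/-- Over the field of three elements, in dimension at least five, the reflections of one norm
class are a class of 3-transpositions of the group they generate. -/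
theorem class3 (hQ : (QuadraticMap.polarBilin Q).Nondegenerate) (hn : 5 ≤ Fintype.card ι)
    (c : ZMod 3) (hc : c ≠ 0) :
    Cfsg.IsThreeTranspositionClass {g : ↥(Cfsg.reflectionSubgroup (⇑Q) c) |
      (g : ↥(Cfsg.isometryGroup (ZMod 3) (⇑Q))) ∈ Cfsg.reflectionsOfNorm (⇑Q) c} := by
  obtain ⟨v0, hv0⟩ := universal two_ne Q hQ (by omega) c
  refine ⟨⟨?_, ?_⟩, ⟨⟨reflO Q v0, R_mem Q hc hv0⟩, (mem_refl_iff Q hc _).mpr ⟨v0, hv0, rfl⟩, ?_⟩,
    ?_⟩
  · intro d hd
    obtain ⟨v, hv, hdv⟩ := (mem_refl_iff Q hc _).mp hd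
    rw [← Subgroup.orderOf_coe, hdv]
    exact orderOf_eq_prime (by rw [pow_two]; exact reflO_mul_self Q v)
      (R_ne_one Q v (by rw [hv]; exact hc))
  · intro d hd e he
    obtain ⟨u, hu, hdu⟩ := (mem_refl_iff Q hc _).mp hd
    obtain ⟨w, hw, hew⟩ := (mem_refl_iff Q hc _).mp he
    rcases three Q (by rw [hu]; exact hc : Q u ≠ 0) (hu.trans hw.symm) with h | h
    · left
      apply Subtype.ext
      rw [Subgroup.coe_pow, Subgroup.coe_mul, hdu, hew, h]
      rfl
    · right
      apply Subtype.ext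
      rw [Subgroup.coe_pow, Subgroup.coe_mul, hdu, hew, h]
      rfl
  · ext g
    show _ ↔ IsConj _ g
    rw [isConj_iff]
    constructor
    · intro hg
      obtain ⟨w, hw, hgw⟩ := (mem_refl_iff Q hc _).mp hg
      obtain ⟨k, hkN, hk⟩ := conj_in Q hQ hn hc hv0 hw
      refine ⟨⟨k, hkN⟩, Subtype.ext ?_⟩
      rw [Subgroup.coe_mul, Subgroup.coe_mul, Subgroup.coe_inv, hgw]
      exact hk
    · rintro ⟨k, rfl⟩
      rw [Set.mem_ofPred_eq, Subgroup.coe_mul, Subgroup.coe_mul, Subgroup.coe_inv]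
      have h5 := conj_reflO Q (k : ↥(Cfsg.isometryGroup (ZMod 3) (⇑Q))) v0
        (by rw [hv0]; exact hc)
      exact (mem_refl_iff Q hc _).mpr ⟨_, by rw [iso_apply]; exact hv0, h5⟩
  · exact Subgroup.closure_closure_coe_preimage

/-! ### The index of the reflection subgroup -/

theorem normal_refl {c : ZMod 3} (hc : c ≠ 0) :
    (Cfsg.reflectionSubgroup (⇑Q) c).Normal := by
  constructor
  intro n hn g
  induction hn using Subgroup.closure_induction with
  | mem x hx =>
    obtain ⟨v, hv, rfl⟩ := (mem_refl_iff Q hc _).mp hx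
    rw [conj_reflO Q g v (by rw [hv]; exact hc)]
    exact R_mem Q hc (by rw [iso_apply]; exact hv)
  | one => rw [mul_one, mul_inv_cancel]; exact one_mem _
  | mul x y _ _ hx hy =>
    have e : g * (x * y) * g⁻¹ = (g * x * g⁻¹) * (g * y * g⁻¹) := by group
    rw [e]
    exact mul_mem hx hy
  | inv x _ hx =>
    have e : g * x⁻¹ * g⁻¹ = (g * x * g⁻¹)⁻¹ := by group
    rw [e]
    exact inv_mem hx

/-- The product of two reflections in vectors of the other norm lies in the reflection subgroup. -/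
theorem mul_mem_refl (hQ : (QuadraticMap.polarBilin Q).Nondegenerate) (hn : 5 ≤ Fintype.card ι)
    {c : ZMod 3} (hc : c ≠ 0) {w w' : ι → ZMod 3} (hw : Q w = -c) (hw' : Q w' = -c) :
    reflO Q w * reflO Q w' ∈ Cfsg.reflectionSubgroup (⇑Q) c := by
  have hnc : -c ≠ 0 := neg_ne_zero.mpr hc
  obtain ⟨t, ht, htw, htw'⟩ := exists_t Q hQ hn w w' (by rw [hw]; exact hnc) (-c) hnc
  have hwt : QuadraticMap.polar ⇑Q w t = 0 := by rw [QuadraticMap.polar_comm, htw]
  obtain ⟨a1, a2, a3⟩ := pair Q hnc hw ht hwt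
  obtain ⟨b1, b2, b3⟩ := pair Q hnc ht hw' htw'
  rw [neg_neg] at a1 a2 b1 b2
  have e : reflO Q w * reflO Q w' = (reflO Q w * reflO Q t) * (reflO Q t * reflO Q w') := by
    calc reflO Q w * reflO Q w' = reflO Q w * 1 * reflO Q w' := by rw [mul_one]
      _ = reflO Q w * (reflO Q t * reflO Q t) * reflO Q w' := by rw [reflO_mul_self]
      _ = (reflO Q w * reflO Q t) * (reflO Q t * reflO Q w') := by group
  rw [e, a3, b3]
  exact mul_mem (mul_mem (R_mem Q hc a1) (R_mem Q hc a2)) (mul_mem (R_mem Q hc b1) (R_mem Q hc b2))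

open Classical in
theorem chi_same {c : ZMod 3} (hc : c ≠ 0) {v : ι → ZMod 3} (hv : Q v = c) :
    chi Q (-c) (reflO Q v) = 1 := by
  rw [chi_refl two_ne Q (-c) (neg_ne_zero.mpr hc) v (by rw [hv]; exact hc), hv]
  have h1 : -c * c = 2 := by
    rw [neg_mul, mul_self_of_ne hc]
    decide
  rw [h1]
  unfold kap
  rw [if_neg not_sq_two, neg_neg]

open Classical in
theorem chi_other {c : ZMod 3} (hc : c ≠ 0) {v : ι → ZMod 3} (hv : Q v = -c) :
    chi Q (-c) (reflO Q v) = -1 := by
  rw [chi_refl two_ne Q (-c) (neg_ne_zero.mpr hc) v (by rw [hv]; exact neg_ne_zero.mpr hc), hv]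
  have h1 : -c * -c = 1 := by
    rw [neg_mul_neg, mul_self_of_ne hc]
  rw [h1, kap_one]

/-- Over the field of three elements, in dimension at least five, the reflections of one norm
class generate a subgroup of index two of the isometry group. -/
theorem index_two (hQ : (QuadraticMap.polarBilin Q).Nondegenerate) (hn : 5 ≤ Fintype.card ι)
    (c : ZMod 3) (hc : c ≠ 0) : (Cfsg.reflectionSubgroup (⇑Q) c).index = 2 := by
  classical
  have hnorm : (Cfsg.reflectionSubgroup (⇑Q) c).Normal := normal_refl Q hc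
  obtain ⟨w0, hw0⟩ := universal two_ne Q hQ (by omega) (-c)
  have hnc : -c ≠ 0 := neg_ne_zero.mpr hc
  have key : ∀ vs : List (ι → ZMod 3), (∀ v ∈ vs, Q v ≠ 0) →
      (prodRefl Q vs ∈ Cfsg.reflectionSubgroup (⇑Q) c ∧ chi Q (-c) (prodRefl Q vs) = 1) ∨
      (prodRefl Q vs * reflO Q w0 ∈ Cfsg.reflectionSubgroup (⇑Q) c ∧
        chi Q (-c) (prodRefl Q vs) = -1) := by
    intro vs
    induction vs with
    | nil =>
      intro _
      left
      exact ⟨by rw [prodRefl_nil]; exact one_mem _, by rw [prodRefl_nil, map_one]⟩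
    | cons v vs ih =>
      intro hvs
      have hv : Q v ≠ 0 := hvs v (List.mem_cons_self ..)
      have ih' := ih (fun w hw => hvs w (List.mem_cons_of_mem _ hw))
      rw [prodRefl_cons, map_mul]
      rcases eq_or_neg hv hc with h1 | h1
      · rw [chi_same Q hc h1, one_mul]
        rcases ih' with ⟨i1, i2⟩ | ⟨i1, i2⟩
        · left
          exact ⟨mul_mem (R_mem Q hc h1) i1, i2⟩
        · right
          refine ⟨?_, i2⟩
          rw [mul_assoc]
          exact mul_mem (R_mem Q hc h1) i1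
      · rw [chi_other Q hc h1]
        rcases ih' with ⟨i1, i2⟩ | ⟨i1, i2⟩
        · right
          refine ⟨?_, by rw [i2, mul_one]⟩
          have e : reflO Q v * prodRefl Q vs * reflO Q w0
              = (reflO Q v * prodRefl Q vs * (reflO Q v)⁻¹) * (reflO Q v * reflO Q w0) := by
            group
          rw [e]
          exact mul_mem (hnorm.conj_mem _ i1 _) (mul_mem_refl Q hQ hn hc h1 hw0)
        · left
          refine ⟨?_, by rw [i2]; rfl⟩
          have e : reflO Q v * prodRefl Q vs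
              = (reflO Q v * (prodRefl Q vs * reflO Q w0) * (reflO Q v)⁻¹)
                * (reflO Q v * reflO Q w0) := by
            rw [R_inv]
            symm
            calc reflO Q v * (prodRefl Q vs * reflO Q w0) * reflO Q v * (reflO Q v * reflO Q w0)
                = reflO Q v * prodRefl Q vs * reflO Q w0 * (reflO Q v * reflO Q v)
                  * reflO Q w0 := by group
              _ = reflO Q v * prodRefl Q vs * (reflO Q w0 * reflO Q w0) := by
                  rw [reflO_mul_self, mul_one]; group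
              _ = reflO Q v * prodRefl Q vs := by rw [reflO_mul_self, mul_one]
          rw [e]
          exact mul_mem (hnorm.conj_mem _ i1 _) (mul_mem_refl Q hQ hn hc h1 hw0)
  have hker : Cfsg.reflectionSubgroup (⇑Q) c = (chi Q (-c)).ker := by
    apply le_antisymm
    · unfold Cfsg.reflectionSubgroup
      rw [Subgroup.closure_le]
      intro g hg
      obtain ⟨v, hv, rfl⟩ := (mem_refl_iff Q hc _).mp hg
      exact MonoidHom.mem_ker.mpr (chi_same Q hc hv)
    · intro g hg
      obtain ⟨vs, hvs, rfl⟩ := cartan_dieudonne two_ne Q hQ g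
      rcases key vs hvs with ⟨i1, _⟩ | ⟨_, i2⟩
      · exact i1
      · rw [MonoidHom.mem_ker, i2] at hg
        exact absurd hg (by decide)
  have hsurj : Function.Surjective (chi Q (-c)) := by
    intro a
    rcases Int.units_eq_one_or a with rfl | rfl
    · exact ⟨1, map_one _⟩
    · exact ⟨reflO Q w0, chi_other Q hc hw0⟩
  rw [hker, Subgroup.index_ker, MonoidHom.range_eq_top.2 hsurj,
    Nat.card_congr Subgroup.topEquiv.toEquiv, Nat.card_eq_fintype_card, Fintype.card_units_int]

end Cfsg.Agent.Lib.Helper2.Refl3
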