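import Mathlib
import Cfsg.Agent.Lib.Helper15.AutOmega
import Cfsg.Agent.Lib.Helper15.OrthOrder
import Cfsg.Agent.Lib.Helper15.StdForms
import Cfsg.Agent.Lib.Helper15.Spinor2
import Cfsg.Agent.Lib.Helper15.Spinor3
import Cfsg.Agent.Lib.Helper2.WeightForm
import Cfsg.Agent.S0286

set_option autoImplicit false

namespace Cfsg.Agent.Lib.Helper2.SO3S4

open scoped Matrix

open Cfsg.Agent.Lib.Helper15.Spinor3

/-- The index type of the three-dimensional space. -/
abbrev T3 : Type := Unit ⊕ (Fin 1 ⊕ Fin 1)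

/-- The table of labels of the singular points. -/
def lt : Fin 3 → Fin 3 → Fin 3 → Fin 4 :=
  ![![![0, 1, 1], ![0, 0, 0], ![0, 0, 0]], ![![0, 0, 0], ![0, 0, 2], ![0, 3, 0]],
    ![![0, 0, 0], ![0, 0, 3], ![0, 2, 0]]]

/-- The label of a vector. -/
def lam (u : T3 → ZMod 3) : Fin 4 :=
  lt (u (Sum.inl ())) (u (Sum.inr (Sum.inl 0))) (u (Sum.inr (Sum.inr 0)))

/-- Representatives of the singular points. -/
def sv : Fin 4 → T3 → ZMod 3 :=
  ![Sum.elim (fun _ => 0) (Sum.elim (fun _ => 1) (fun _ => 0)),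
    Sum.elim (fun _ => 0) (Sum.elim (fun _ => 0) (fun _ => 1)),
    Sum.elim (fun _ => 1) (Sum.elim (fun _ => 1) (fun _ => 2)),
    Sum.elim (fun _ => 1) (Sum.elim (fun _ => 2) (fun _ => 1))]

/-- The quadratic form in coordinates. -/
def Qc3 (a b c : ZMod 3) : ZMod 3 := a * a + b * c

/-- The quadratic form of a vector. -/
def Qv3 (u : T3 → ZMod 3) : ZMod 3 :=
  Qc3 (u (Sum.inl ())) (u (Sum.inr (Sum.inl 0))) (u (Sum.inr (Sum.inr 0)))

/-- The polar form of two vectors. -/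
def pv3 (u w : T3 → ZMod 3) : ZMod 3 :=
  2 * u (Sum.inl ()) * w (Sum.inl ())
    + (u (Sum.inr (Sum.inl 0)) * w (Sum.inr (Sum.inr 0))
      + w (Sum.inr (Sum.inl 0)) * u (Sum.inr (Sum.inr 0)))

/-- The matrix of three representatives. -/
def SB : Matrix T3 (Fin 3) (ZMod 3) := Matrix.of fun i j => sv (Fin.castSucc j) i

/-- Its inverse. -/
def SR : Matrix (Fin 3) T3 (ZMod 3) :=
  Matrix.of ![Sum.elim (fun _ => 2) (Sum.elim (fun _ => 1) (fun _ => 0)),
    Sum.elim (fun _ => 1) (Sum.elim (fun _ => 0) (fun _ => 1)),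
    Sum.elim (fun _ => 1) (Sum.elim (fun _ => 0) (fun _ => 0))]

/-- The induced map on labels. -/
def act (g : Matrix T3 T3 (ZMod 3)) (i : Fin 4) : Fin 4 := lam (g *ᵥ sv i)

/-- Non-zero singular vectors. -/
def Sing (w : T3 → ZMod 3) : Prop := Qv3 w = 0 ∧ w ≠ 0

theorem f1 : ∀ i : Fin 4, lam (sv i) = i := by decide

theorem f2c : ∀ a b c : ZMod 3, Qc3 a b c = 0 → ¬ (a = 0 ∧ b = 0 ∧ c = 0) →
    (sv (lt a b c) (Sum.inl ()) = a ∧ sv (lt a b c) (Sum.inr (Sum.inl 0)) = b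
        ∧ sv (lt a b c) (Sum.inr (Sum.inr 0)) = c)
      ∨ (sv (lt a b c) (Sum.inl ()) = -a ∧ sv (lt a b c) (Sum.inr (Sum.inl 0)) = -b
        ∧ sv (lt a b c) (Sum.inr (Sum.inr 0)) = -c) := by decide

/-- The table as a function on the field. -/
def ltz (a b c : ZMod 3) : Fin 4 := lt a b c

theorem f3c : ∀ a b c : ZMod 3, ltz (-a) (-b) (-c) = ltz a b c := by decide

theorem f4 : ∀ i : Fin 4, Qv3 (sv i) = 0 ∧
    (sv i (Sum.inr (Sum.inl 0)) ≠ 0 ∨ sv i (Sum.inr (Sum.inr 0)) ≠ 0) := by decide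

theorem f5 : pv3 (sv 0) (sv 1) ≠ 0 ∧ pv3 (sv 1) (sv 2) ≠ 0 := by decide

theorem f6 : SB * SR = 1 := by decide

theorem z3_pm : ∀ s : ZMod 3, (s = 1 ∨ s = -1) → s * s = 1 := by decide

theorem t3_ext (u w : T3 → ZMod 3) (h0 : u (Sum.inl ()) = w (Sum.inl ()))
    (h1 : u (Sum.inr (Sum.inl 0)) = w (Sum.inr (Sum.inl 0)))
    (h2 : u (Sum.inr (Sum.inr 0)) = w (Sum.inr (Sum.inr 0))) : u = w := by
  funext i
  rcases i with ⟨⟩ | i | i
  · exact h0
  · fin_cases i
    exact h1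
  · fin_cases i
    exact h2

theorem q3_eq (u : T3 → ZMod 3) : Cfsg.quadFormOdd 1 (ZMod 3) u = Qv3 u := by
  unfold Cfsg.quadFormOdd Qv3 Qc3
  rw [Fin.sum_univ_one]
  ring

theorem pv3_eq (u w : T3 → ZMod 3) : pv3 u w = Qv3 (u + w) - Qv3 u - Qv3 w := by
  unfold pv3 Qv3 Qc3
  simp only [Pi.add_apply]
  ring

theorem pv3_smul (s s' : ZMod 3) (u w : T3 → ZMod 3) :
    pv3 (s • u) (s' • w) = s * s' * pv3 u w := by
  unfold pv3
  simp only [Pi.smul_apply, smul_eq_mul]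
  ring

theorem lam_neg (w : T3 → ZMod 3) : lam (-w) = lam w := f3c _ _ _

theorem sing_sv (i : Fin 4) : Sing (sv i) := by
  refine ⟨(f4 i).1, fun h => ?_⟩
  rcases (f4 i).2 with h1 | h1
  · apply h1
    rw [h]
    rfl
  · apply h1
    rw [h]
    rfl

theorem sv_lam (w : T3 → ZMod 3) (hw : Sing w) : sv (lam w) = w ∨ sv (lam w) = -w := by
  have h0 : ¬ (w (Sum.inl ()) = 0 ∧ w (Sum.inr (Sum.inl 0)) = 0 ∧ w (Sum.inr (Sum.inr 0)) = 0) := by
    rintro ⟨a, b, c⟩
    exact hw.2 (t3_ext _ _ a b c)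
  rcases f2c _ _ _ hw.1 h0 with ⟨a, b, c⟩ | ⟨a, b, c⟩
  · exact Or.inl (t3_ext _ _ a b c)
  · exact Or.inr (t3_ext _ _ a b c)

/-- The three-dimensional orthogonal group over the field with three elements. -/
abbrev O3 : Type := ↥(Cfsg.isometryGroup (ZMod 3) (Cfsg.quadFormOdd 1 (ZMod 3)))

theorem q_pres (g : O3) (u : T3 → ZMod 3) : Qv3 (g.1.1 *ᵥ u) = Qv3 u := by
  have h1 : Cfsg.quadFormOdd 1 (ZMod 3) (g.1.1 *ᵥ u) = Cfsg.quadFormOdd 1 (ZMod 3) u := g.2 u u
  rw [q3_eq, q3_eq] at h1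
  exact h1

theorem inv_mulVec (g : O3) (u : T3 → ZMod 3) : (g⁻¹).1.1 *ᵥ (g.1.1 *ᵥ u) = u := by
  have h1 : (g⁻¹).1.1 * g.1.1 = 1 := by
    have h2 : ((g⁻¹ * g : O3).1.1 : Matrix T3 T3 (ZMod 3)) = 1 := by
      rw [inv_mul_cancel]
      rfl
    exact h2
  rw [Matrix.mulVec_mulVec, h1, Matrix.one_mulVec]

theorem sing_pres (g : O3) (w : T3 → ZMod 3) (hw : Sing w) : Sing (g.1.1 *ᵥ w) := by
  refine ⟨by rw [q_pres]; exact hw.1, fun h => hw.2 ?_⟩
  rw [← inv_mulVec g w, h, Matrix.mulVec_zero]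

theorem act_one (i : Fin 4) : act 1 i = i := by
  unfold act
  rw [Matrix.one_mulVec]
  exact f1 i

theorem act_mul (g h : O3) (i : Fin 4) : act (g * h).1.1 i = act g.1.1 (act h.1.1 i) := by
  have hw := sing_pres h _ (sing_sv i)
  show lam ((g.1.1 * h.1.1) *ᵥ sv i) = lam (g.1.1 *ᵥ sv (lam (h.1.1 *ᵥ sv i)))
  rcases sv_lam _ hw with e | e
  · rw [e, Matrix.mulVec_mulVec]
  · rw [e, Matrix.mulVec_neg, lam_neg, Matrix.mulVec_mulVec]

/-- The action on the four singular points. -/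
def phi : O3 →* Equiv.Perm (Fin 4) where
  toFun g :=
    { toFun := act g.1.1
      invFun := act (g⁻¹).1.1
      left_inv := fun i => by
        rw [← act_mul, inv_mul_cancel]
        exact act_one i
      right_inv := fun i => by
        rw [← act_mul, mul_inv_cancel]
        exact act_one i }
  map_one' := Equiv.ext (fun i => act_one i)
  map_mul' g h := Equiv.ext (fun i => act_mul g h i)

theorem ker_phi (g : O3) (hg : phi g = 1) : g.1.1 = 1 ∨ g.1.1 = -1 := by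
  have hi : ∀ i, lam (g.1.1 *ᵥ sv i) = i := fun i => congrArg (fun σ : Equiv.Perm (Fin 4) => σ i) hg
  have hs : ∀ i, ∃ s : ZMod 3, (s = 1 ∨ s = -1) ∧ g.1.1 *ᵥ sv i = s • sv i := by
    intro i
    have hw := sing_pres g _ (sing_sv i)
    rcases sv_lam _ hw with e | e
    · rw [hi i] at e
      exact ⟨1, Or.inl rfl, by rw [one_smul]; exact e.symm⟩
    · rw [hi i] at e
      refine ⟨-1, Or.inr rfl, ?_⟩
      rw [neg_smul, one_smul]
      exact neg_eq_iff_eq_neg.mp e.symm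
  choose s hs1 hs2 using hs
  have hpol : ∀ j k, pv3 (sv j) (sv k) ≠ 0 → s j = s k := by
    intro j k hjk
    have h5 : pv3 (g.1.1 *ᵥ sv j) (g.1.1 *ᵥ sv k) = pv3 (sv j) (sv k) := by
      rw [pv3_eq, pv3_eq, ← Matrix.mulVec_add, q_pres, q_pres, q_pres]
    rw [hs2, hs2, pv3_smul] at h5
    have h7 : s j * s k = 1 := by
      have h8 : s j * s k * pv3 (sv j) (sv k) = 1 * pv3 (sv j) (sv k) := by rw [h5, one_mul]
      exact mul_right_cancel₀ hjk h8
    have h9 : s k * s k = 1 := z3_pm _ (hs1 k)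
    calc s j = s j * (s k * s k) := by rw [h9, mul_one]
      _ = s j * s k * s k := by ring
      _ = s k := by rw [h7, one_mul]
  obtain ⟨p01, p12⟩ := f5
  have e0 := hpol 0 1 p01
  have e1 := hpol 1 2 p12
  have hall : ∀ j : Fin 3, g.1.1 *ᵥ sv (Fin.castSucc j) = s 1 • sv (Fin.castSucc j) := by
    intro j
    rw [hs2]
    congr 1
    fin_cases j
    · exact e0
    · rfl
    · exact e1.symm
  have hUB : g.1.1 * SB = s 1 • SB := by
    ext i j
    exact congrFun (hall j) i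
  have hg1 : g.1.1 = s 1 • (1 : Matrix T3 T3 (ZMod 3)) := by
    calc g.1.1 = g.1.1 * (SB * SR) := by rw [f6, Matrix.mul_one]
      _ = (g.1.1 * SB) * SR := by rw [Matrix.mul_assoc]
      _ = s 1 • (1 : Matrix T3 T3 (ZMod 3)) := by rw [hUB, Matrix.smul_mul, f6]
  rcases hs1 1 with h | h
  · left
    rw [hg1, h, one_smul]
  · right
    rw [hg1, h, neg_smul, one_smul]

theorem main {F : Type*} [Field F] [Fintype F] (hF : Fintype.card F = 3) :
    Nonempty (↥(Cfsg.specialIsometryGroup F (Cfsg.quadFormOdd 1 F)) ≃* Equiv.Perm (Fin 4)) := by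
  classical
  have hodd : Odd 3 := by decide
  have h2 : (2 : F) ≠ 0 := Cfsg.Agent.Lib.Helper15.Spinor2.two_ne_zero_of_odd_card hF hodd
  let e : ZMod 3 ≃+* F := ZMod.ringEquivOfPrime F Nat.prime_three hF
  have h : ∀ v : T3 → ZMod 3,
      Cfsg.quadFormOdd 1 F (fun i => e (v i)) = e (Cfsg.quadFormOdd 1 (ZMod 3) v) := by
    intro v
    simp [Cfsg.quadFormOdd, map_add, map_mul, map_pow]
  have hinj := Cfsg.Agent.Lib.Helper2.WeightForm.isoMap_injective e _ _ h
  have hcardZ : Nat.card O3 = 48 := by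
    rw [Cfsg.Agent.S0286.result (F := ZMod 3) (q := 3) (ZMod.card 3) hodd 1]
    norm_num [Finset.prod_range_succ]
  have hcardF : Nat.card ↥(Cfsg.isometryGroup F (Cfsg.quadFormOdd 1 F)) = 48 := by
    rw [Cfsg.Agent.S0286.result hF hodd 1]
    norm_num [Finset.prod_range_succ]
  have hb : Function.Bijective (Cfsg.Agent.Lib.Helper2.WeightForm.isoMap e _ _ h) :=
    (Nat.bijective_iff_injective_and_card _).2 ⟨hinj, by rw [hcardZ, hcardF]⟩
  let E : O3 ≃* ↥(Cfsg.isometryGroup F (Cfsg.quadFormOdd 1 F)) := MulEquiv.ofBijective _ hb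
  have hcardS : Nat.card ↥(Cfsg.specialIsometryGroup F (Cfsg.quadFormOdd 1 F)) = 24 := by
    have hQ : (QuadraticMap.polarBilin (oddQF 1 F)).Nondegenerate :=
      Cfsg.Agent.Lib.Helper15.StdForms.nondeg_of_sep _
        (fun x hx => Cfsg.Agent.Lib.Helper15.OrthOrder.odd_sep h2 1 x
          (by rw [← coe_oddQF]; exact hx))
    have h3 := Cfsg.Agent.Lib.Helper15.AutOmega.so_index h2 (oddQF 1 F) hQ (by decide)
    rw [coe_oddQF] at h3
    have h4 := Subgroup.card_mul_index (Cfsg.specialIsometryGroup F (Cfsg.quadFormOdd 1 F))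
    rw [h3, hcardF] at h4
    omega
  let ψ : ↥(Cfsg.specialIsometryGroup F (Cfsg.quadFormOdd 1 F)) →* Equiv.Perm (Fin 4) :=
    phi.comp (E.symm.toMonoidHom.comp (Subgroup.subtype _))
  have hψ : Function.Injective ψ := by
    rw [injective_iff_map_eq_one]
    intro g hg
    have h1 := ker_phi (E.symm g.1) hg
    have h5 : E (E.symm g.1) = g.1 := E.apply_symm_apply _
    have h3 : (g.1.1.1 : Matrix T3 T3 F) = ((E.symm g.1).1.1).map e :=
      congrArg (fun x : ↥(Cfsg.isometryGroup F (Cfsg.quadFormOdd 1 F)) =>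
        (x.1.1 : Matrix T3 T3 F)) h5.symm
    have hdet : (g.1.1.1 : Matrix T3 T3 F).det = 1 := by
      have h6 : Matrix.GeneralLinearGroup.det g.1.1 = 1 := MonoidHom.mem_ker.mp g.2
      have h7 : ((Matrix.GeneralLinearGroup.det g.1.1 : Fˣ) : F) = 1 := by
        rw [h6]
        rfl
      rw [Matrix.GeneralLinearGroup.val_det_apply] at h7
      exact h7
    rcases h1 with h1 | h1
    · apply Subtype.ext
      apply Subtype.ext
      apply Units.ext
      rw [h3, h1]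
      ext i j
      simp [Matrix.map_apply, Matrix.one_apply]
    · exfalso
      have h8 : (g.1.1.1 : Matrix T3 T3 F) = -1 := by
        rw [h3, h1]
        ext i j
        simp [Matrix.map_apply, Matrix.one_apply]
      rw [h8, Matrix.det_neg, Matrix.det_one] at hdet
      simp only [Fintype.card_sum, Fintype.card_unit, Fintype.card_fin] at hdet
      apply h2
      linear_combination -hdet
  have hbψ : Function.Bijective ψ :=
    (Nat.bijective_iff_injective_and_card ψ).2 ⟨hψ, by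
      rw [hcardS, Nat.card_eq_fintype_card, Fintype.card_perm, Fintype.card_fin]
      rfl⟩
  exact ⟨MulEquiv.ofBijective ψ hbψ⟩

end Cfsg.Agent.Lib.Helper2.SO3S4
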