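import Mathlib
import Cfsg.Prelude.Def_ClassicalGeometry
import Cfsg.Agent.Lib.Helper2.SympPerf

set_option autoImplicit false
open Cfsg
open scoped Matrix LinearAlgebra.Projectivization Pointwise

namespace Cfsg.Agent.Lib.Helper2.SympSimple

open Cfsg.Agent.Lib.Helper5.Symp Cfsg.Agent.Lib.Helper5.Symp2 Cfsg.Agent.Lib.Helper2.SympPerf

variable {F : Type*} [Field F] (m : ℕ)

def toGHom : Matrix.symplecticGroup (Fin m) F →* ↥(Cfsg.spGL m F) where
  toFun := Cfsg.Agent.S0768.toG m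
  map_one' := Subtype.ext (Units.ext rfl)
  map_mul' _ _ := Subtype.ext (Units.ext rfl)

theorem toGHom_surjective : Function.Surjective (toGHom (F := F) m) := by
  intro g
  have hmem : (g.1 : Matrix (Fin m ⊕ Fin m) (Fin m ⊕ Fin m) F) ∈
      Matrix.symplecticGroup (Fin m) F := mem_of_sympForm_mulVec m (fun u v => g.2 u v)
  exact ⟨⟨_, hmem⟩, Subtype.ext (Units.ext rfl)⟩

@[reducible] def act :
    MulAction (Matrix.symplecticGroup (Fin m) F) (ℙ F (Fin m ⊕ Fin m → F)) :=
  MulAction.compHom _ (toGHom m)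

attribute [local instance] act

theorem smul_mk (A : Matrix.symplecticGroup (Fin m) F) (x : Fin m ⊕ Fin m → F) (hx : x ≠ 0) :
    A • Projectivization.mk F x hx =
      Projectivization.mk F ((A : Matrix (Fin m ⊕ Fin m) (Fin m ⊕ Fin m) F) *ᵥ x)
        (Cfsg.Agent.S0768.mulVec_ne_zero m A hx) := rfl

theorem isPreprimitive [Finite F] (hm : 1 ≤ m) :
    MulAction.IsPreprimitive (Matrix.symplecticGroup (Fin m) F) (ℙ F (Fin m ⊕ Fin m → F)) := by
  have := Cfsg.Agent.S0768.result (F := F) m hm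
  let f : (ℙ F (Fin m ⊕ Fin m → F)) →ₑ[toGHom (F := F) m] (ℙ F (Fin m ⊕ Fin m → F)) :=
    ⟨id, fun _ _ => rfl⟩
  exact (MulAction.isPreprimitive_congr (f := f) (toGHom_surjective m)
    Function.bijective_id).mpr inferInstance

def rootSub (v : Fin m ⊕ Fin m → F) : Subgroup (Matrix.symplecticGroup (Fin m) F) where
  carrier := {A | ∃ c : F, A = tv m v c}
  one_mem' := ⟨0, (tv_zero m v).symm⟩
  mul_mem' := by
    rintro _ _ ⟨c, rfl⟩ ⟨d, rfl⟩
    exact ⟨c + d, tv_add m v c d⟩
  inv_mem' := by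
    rintro _ ⟨c, rfl⟩
    exact ⟨-c, tv_inv m v c⟩

theorem rootSub_smul {a : F} (ha : a ≠ 0) (v : Fin m ⊕ Fin m → F) :
    rootSub m (a • v) = rootSub m v := by
  ext A
  constructor
  · rintro ⟨c, rfl⟩
    exact ⟨a * a * c, tv_smul m a v c⟩
  · rintro ⟨c, rfl⟩
    refine ⟨c / (a * a), ?_⟩
    rw [tv_smul]
    congr 1
    field_simp

theorem rootSub_conj (g : Matrix.symplecticGroup (Fin m) F) (v : Fin m ⊕ Fin m → F) :
    rootSub m ((g : Matrix (Fin m ⊕ Fin m) (Fin m ⊕ Fin m) F) *ᵥ v) =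
      MulAut.conj g • rootSub m v := by
  ext A
  rw [Subgroup.mem_pointwise_smul_iff_inv_smul_mem]
  constructor
  · rintro ⟨c, rfl⟩
    refine ⟨c, ?_⟩
    rw [← conj_tv]
    simp [MulAut.smul_def, mul_assoc]
  · rintro ⟨c, hc⟩
    refine ⟨c, ?_⟩
    rw [← conj_tv, ← hc]
    simp [MulAut.smul_def, mul_assoc]

noncomputable def iwasawa :
    MulAction.IwasawaStructure (Matrix.symplecticGroup (Fin m) F)
      (ℙ F (Fin m ⊕ Fin m → F)) where
  T p := rootSub m p.rep
  is_comm p := by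
    refine ⟨⟨?_⟩⟩
    rintro ⟨_, c, rfl⟩ ⟨_, d, rfl⟩
    apply Subtype.ext
    show tv m p.rep c * tv m p.rep d = tv m p.rep d * tv m p.rep c
    rw [tv_add, tv_add, add_comm]
  is_conj g p := by
    have h : g • p = Projectivization.mk F
        ((g : Matrix (Fin m ⊕ Fin m) (Fin m ⊕ Fin m) F) *ᵥ p.rep)
        (Cfsg.Agent.S0768.mulVec_ne_zero m g p.rep_nonzero) := by
      conv_lhs => rw [← Projectivization.mk_rep p]
      rfl
    obtain ⟨a, ha⟩ := Projectivization.exists_smul_eq_mk_rep F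
      ((g : Matrix (Fin m ⊕ Fin m) (Fin m ⊕ Fin m) F) *ᵥ p.rep)
      (Cfsg.Agent.S0768.mulVec_ne_zero m g p.rep_nonzero)
    rw [h, ← ha, Units.smul_def, rootSub_smul m a.ne_zero, rootSub_conj]
  is_generator := by
    rw [eq_top_iff, ← Cfsg.Agent.S0765.result m, Subgroup.closure_le]
    rintro A ⟨w, c, hA⟩
    have hA' : A = tv m w c := Subtype.ext hA
    by_cases hw : w = 0
    · rw [hA', hw, tv_zero_left]
      exact one_mem _
    · apply Subgroup.mem_iSup_of_mem (Projectivization.mk F w hw)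
      obtain ⟨a, ha⟩ := Projectivization.exists_smul_eq_mk_rep F w hw
      show A ∈ rootSub m (Projectivization.mk F w hw).rep
      rw [← ha, Units.smul_def, rootSub_smul m a.ne_zero]
      exact ⟨c, hA'⟩

theorem exists_eigen (A : Matrix.symplecticGroup (Fin m) F)
    (h : ∀ p : ℙ F (Fin m ⊕ Fin m → F), A • p = p) {v : Fin m ⊕ Fin m → F} (hv : v ≠ 0) :
    ∃ a : F, (A : Matrix (Fin m ⊕ Fin m) (Fin m ⊕ Fin m) F) *ᵥ v = a • v := by
  have h1 := h (Projectivization.mk F v hv)
  rw [smul_mk, Projectivization.mk_eq_mk_iff] at h1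
  obtain ⟨a, ha⟩ := h1
  exact ⟨a, ha.symm⟩

theorem eigen_sq (A : Matrix.symplecticGroup (Fin m) F)
    (h : ∀ p : ℙ F (Fin m ⊕ Fin m → F), A • p = p) {v : Fin m ⊕ Fin m → F} (hv : v ≠ 0)
    {a : F} (ha : (A : Matrix (Fin m ⊕ Fin m) (Fin m ⊕ Fin m) F) *ᵥ v = a • v) : a * a = 1 := by
  obtain ⟨w, hvw⟩ := Cfsg.Agent.S0768.exists_partner m hv
  have hw : w ≠ 0 := by
    rintro rfl
    rw [sympForm_zero_right] at hvw
    exact zero_ne_one hvw
  have hvw0 : v + w ≠ 0 := by
    intro h0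
    have h5 : Cfsg.sympForm m F v (v + w) = 1 := by
      rw [sympForm_add_right, sympForm_self, zero_add, hvw]
    rw [h0, sympForm_zero_right] at h5
    exact zero_ne_one h5
  obtain ⟨b, hb⟩ := exists_eigen m A h hw
  obtain ⟨c, hc⟩ := exists_eigen m A h hvw0
  rw [Matrix.mulVec_add, ha, hb] at hc
  have h1 := congrArg (fun z => Cfsg.sympForm m F z w) hc
  have h2 := congrArg (fun z => Cfsg.sympForm m F v z) hc
  simp only [sympForm_add_left, sympForm_add_right, sympForm_smul_left, sympForm_smul_right,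
    sympForm_self, hvw, mul_one, mul_zero, add_zero, zero_add] at h1 h2
  have h3 := sympForm_mulVec_of_mem m A.2 v w
  rw [ha, hb, sympForm_smul_left, sympForm_smul_right, hvw, mul_one] at h3
  rw [h2, ← h1] at h3
  exact h3

theorem mem_center_of_fixes (A : Matrix.symplecticGroup (Fin m) F)
    (h : ∀ p : ℙ F (Fin m ⊕ Fin m → F), A • p = p) :
    A ∈ Subgroup.center (Matrix.symplecticGroup (Fin m) F) := by
  have hle : (⊤ : Subgroup (Matrix.symplecticGroup (Fin m) F)) ≤ Subgroup.centralizer {A} := by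
    rw [← Cfsg.Agent.S0765.result m, Subgroup.closure_le]
    rintro B ⟨w, c, hB⟩
    have hB' : B = tv m w c := Subtype.ext hB
    rw [SetLike.mem_coe, Subgroup.mem_centralizer_iff]
    intro x hx
    rw [Set.mem_singleton_iff] at hx
    subst hx
    rw [hB']
    by_cases hw : w = 0
    · rw [hw, tv_zero_left, mul_one, one_mul]
    · obtain ⟨a, ha⟩ := exists_eigen m x h hw
      have ha2 := eigen_sq m x h hw ha
      have h6 := conj_tv m x w c
      rw [ha, tv_smul, ha2, one_mul] at h6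
      exact mul_inv_eq_iff_eq_mul.mp h6
  rw [Subgroup.mem_center_iff]
  intro g
  have h7 := hle (Subgroup.mem_top g)
  rw [Subgroup.mem_centralizer_iff] at h7
  exact (h7 A rfl).symm

theorem tv_ne_one (hm : 1 ≤ m) :
    tv m (Pi.single (Sum.inl ⟨0, hm⟩) (1 : F)) 1 ≠ 1 := by
  intro h0
  have h1 := congrArg (fun B : Matrix.symplecticGroup (Fin m) F =>
    (B : Matrix (Fin m ⊕ Fin m) (Fin m ⊕ Fin m) F) *ᵥ (Pi.single (Sum.inr ⟨0, hm⟩) 1)) h0
  simp only [tv_mulVec, sympForm_single_inl] at h1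
  have h2 := congrFun h1 (Sum.inl ⟨0, hm⟩)
  simp at h2

theorem isSimple_of_perfect [Finite F] (hm : 1 ≤ m)
    (hperf : commutator (Matrix.symplecticGroup (Fin m) F) = ⊤) :
    IsSimpleGroup (Cfsg.PSp m F) := by
  have hprim := isPreprimitive (F := F) m hm
  have key : ∀ N : Subgroup (Matrix.symplecticGroup (Fin m) F), N.Normal →
      N ≤ Subgroup.center (Matrix.symplecticGroup (Fin m) F) ∨ N = ⊤ := by
    intro N hN
    by_cases hfix : MulAction.fixedPoints N (ℙ F (Fin m ⊕ Fin m → F)) = Set.univ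
    · left
      intro A hA
      apply mem_center_of_fixes
      intro p
      have h1 := Set.eq_univ_iff_forall.mp hfix p
      exact h1 ⟨A, hA⟩
    · right
      have h2 := (iwasawa (F := F) m).commutator_le N hfix
      rw [hperf] at h2
      exact top_le_iff.mp h2
  haveI : Nontrivial (Cfsg.PSp m F) := by
    rw [QuotientGroup.nontrivial_iff]
    intro htop
    have h3 := (commutator_eq_bot_iff_center_eq_top _).mpr htop
    rw [hperf] at h3
    have h4 : tv m (Pi.single (Sum.inl ⟨0, hm⟩) (1 : F)) 1 ∈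
        (⊤ : Subgroup (Matrix.symplecticGroup (Fin m) F)) := Subgroup.mem_top _
    rw [h3, Subgroup.mem_bot] at h4
    exact tv_ne_one m hm h4
  refine ⟨fun N hN => ?_⟩
  rcases key (N.comap (QuotientGroup.mk' _)) inferInstance with h1 | h1
  · left
    rw [eq_bot_iff]
    intro x hx
    obtain ⟨g, rfl⟩ := QuotientGroup.mk_surjective x
    have h5 : g ∈ Subgroup.center (Matrix.symplecticGroup (Fin m) F) := h1 hx
    rw [Subgroup.mem_bot, QuotientGroup.eq_one_iff]
    exact h5
  · right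
    rw [eq_top_iff]
    intro x _
    obtain ⟨g, rfl⟩ := QuotientGroup.mk_surjective x
    have h6 : g ∈ N.comap (QuotientGroup.mk' _) := h1 ▸ Subgroup.mem_top g
    exact h6

end Cfsg.Agent.Lib.Helper2.SympSimple
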