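import Mathlib
import Cfsg.Prelude.Def_Classical
import Cfsg.Agent.Lib.Helper2.Klein6
import Cfsg.Agent.S0245
import Cfsg.Agent.S0246
import Cfsg.Agent.S0269
import Cfsg.Agent.S0270
import Cfsg.Agent.S0292
import Cfsg.Agent.S0764

set_option autoImplicit false

namespace Cfsg.Agent.Lib.Helper2.Sp4O5

open scoped Matrix
open Cfsg.Agent.Lib.Helper2.Ext2 Cfsg.Agent.Lib.Helper2.Klein6

variable {F : Type*} [Field F]

/-- The index type of the symplectic space. -/
abbrev I4 : Type := Fin 2 ⊕ Fin 2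

/-- The index type of the five-dimensional orthogonal space. -/
abbrev I5 : Type := Unit ⊕ (Fin 2 ⊕ Fin 2)

/-- The reindexing equivalence. -/
def e4 : Fin 4 ≃ I4 := (finSumFinEquiv (m := 2) (n := 2)).symm

/-- Reindexing of four-by-four matrices. -/
def rx (A : Matrix I4 I4 F) : Matrix (Fin 4) (Fin 4) F :=
  A.submatrix e4 e4

theorem rx_mul (A B : Matrix I4 I4 F) : rx (A * B) = rx A * rx B :=
  (Matrix.submatrix_mul_equiv A B _ _ _).symm

theorem rx_one : rx (1 : Matrix I4 I4 F) = 1 := Matrix.submatrix_one_equiv _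

theorem rx_det (A : Matrix I4 I4 F) : (rx A).det = A.det :=
  Matrix.det_submatrix_equiv_self _ A

theorem rx_smul (c : F) (A : Matrix I4 I4 F) : rx (c • A) = c • rx A := rfl

theorem fs0 : e4 0 = Sum.inl 0 := rfl
theorem fs1 : e4 1 = Sum.inl 1 := rfl
theorem fs2 : e4 2 = Sum.inr 0 := rfl
theorem fs3 : e4 3 = Sum.inr 1 := rfl

omit [Field F] in
theorem rx_00 (A : Matrix I4 I4 F) (j : Fin 4) :
    rx A 0 j = A (Sum.inl 0) (e4 j) := by
  rw [rx, Matrix.submatrix_apply, fs0]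
omit [Field F] in
theorem rx_10 (A : Matrix I4 I4 F) (j : Fin 4) :
    rx A 1 j = A (Sum.inl 1) (e4 j) := by
  rw [rx, Matrix.submatrix_apply, fs1]
omit [Field F] in
theorem rx_20 (A : Matrix I4 I4 F) (j : Fin 4) :
    rx A 2 j = A (Sum.inr 0) (e4 j) := by
  rw [rx, Matrix.submatrix_apply, fs2]
omit [Field F] in
theorem rx_30 (A : Matrix I4 I4 F) (j : Fin 4) :
    rx A 3 j = A (Sum.inr 1) (e4 j) := by
  rw [rx, Matrix.submatrix_apply, fs3]

/-- The embedding of coordinates. -/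
def emb : I6 → I5 :=
  Sum.elim ![Sum.inr (Sum.inl 0), Sum.inl (), Sum.inr (Sum.inl 1)]
    ![Sum.inr (Sum.inr 0), Sum.inl (), Sum.inr (Sum.inr 1)]

/-- A section of the embedding of coordinates. -/
def sec : I5 → I6 :=
  Sum.elim (fun _ => Sum.inl 1) (Sum.elim ![Sum.inl 0, Sum.inl 2] ![Sum.inr 0, Sum.inr 2])

theorem emb_sec (i : I5) : emb (sec i) = i := by
  rcases i with u | (i | i)
  · rfl
  · fin_cases i <;> rfl
  · fin_cases i <;> rfl

theorem sec_emb (I : I6) (h : I ≠ Sum.inr 1) : sec (emb I) = I := by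
  rcases I with i | i
  · fin_cases i <;> rfl
  · fin_cases i
    · rfl
    · exact absurd rfl h
    · rfl

/-- The matrix of the embedding. -/
def E : Matrix I6 I5 F := Matrix.of fun J j => if emb J = j then 1 else 0

/-- The matrix of the projection. -/
def P : Matrix I5 I6 F := Matrix.of fun i J => if J = sec i then 1 else 0

theorem E_mulVec (v : I5 → F) : (E : Matrix I6 I5 F) *ᵥ v = v ∘ emb := by
  ext J
  simp [E, Matrix.mulVec, dotProduct]

theorem P_mulVec (w : I6 → F) : (P : Matrix I5 I6 F) *ᵥ w = w ∘ sec := by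
  ext i
  simp [P, Matrix.mulVec, dotProduct]

theorem P_mul_E : (P : Matrix I5 I6 F) * (E : Matrix I6 I5 F) = 1 := by
  apply Matrix.mulVec_injective
  funext v
  rw [← Matrix.mulVec_mulVec, E_mulVec (F := F) v, P_mulVec, Matrix.one_mulVec]
  ext i
  simp [emb_sec]

theorem q5_eq (v : I5 → F) :
    Cfsg.quadFormOdd 2 F v = Cfsg.quadFormPlus 3 F ((E : Matrix I6 I5 F) *ᵥ v) := by
  rw [E_mulVec]
  simp [Cfsg.quadFormOdd, Cfsg.quadFormPlus, Fin.sum_univ_three, Fin.sum_univ_two, emb]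
  ring

theorem sp_key {A : Matrix I4 I4 F} (hA : A ∈ Matrix.symplecticGroup (Fin 2) F) (x y : I4) :
    A (Sum.inl 0) x * A (Sum.inr 0) y - A (Sum.inl 0) y * A (Sum.inr 0) x
      + A (Sum.inl 1) x * A (Sum.inr 1) y - A (Sum.inl 1) y * A (Sum.inr 1) x
      = - Matrix.J (Fin 2) F x y := by
  rw [SymplecticGroup.mem_iff'] at hA
  have h := congrFun (congrFun hA x) y
  simp [Matrix.mul_apply, Fintype.sum_sum_type, Fin.sum_univ_two, Matrix.J,
    Matrix.one_apply] at h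
  unfold Matrix.J
  linear_combination -h

/-- The invariant linear form. -/
def om : I6 → F := fun K => if K = Sum.inl 1 ∨ K = Sum.inr 1 then 1 else 0

theorem row_inv {A : Matrix I4 I4 F} (hA : A ∈ Matrix.symplecticGroup (Fin 2) F) (K : I6) :
    Lam (rx A) (Sum.inl 1) K + Lam (rx A) (Sum.inr 1) K = om K := by
  have h := sp_key hA (e4 (pr K).1) (e4 (pr K).2)
  rcases K with k | k <;> fin_cases k <;>
    simp [Lam, pr_l0, pr_l1, pr_l2, pr_r0, pr_r1, pr_r2, rx_00, rx_10, rx_20, rx_30, fs0, fs1,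
      fs2, fs3, om, Matrix.J] at h ⊢ <;> linear_combination h

theorem E_P_of (w : I6 → F) (hw : w (Sum.inr 1) = w (Sum.inl 1)) :
    (E : Matrix I6 I5 F) *ᵥ ((P : Matrix I5 I6 F) *ᵥ w) = w := by
  rw [E_mulVec, P_mulVec]
  ext I
  by_cases h : I = Sum.inr 1
  · subst h
    exact hw.symm
  · show w (sec (emb I)) = w I
    rw [sec_emb I h]

theorem E_apply_r1 (v : I5 → F) :
    ((E : Matrix I6 I5 F) *ᵥ v) (Sum.inr 1) = ((E : Matrix I6 I5 F) *ᵥ v) (Sum.inl 1) := by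
  rw [E_mulVec]
  rfl

theorem LamS_perp {A : Matrix I4 I4 F} (hA : A ∈ Matrix.symplecticGroup (Fin 2) F)
    (w : I6 → F) (hw : w (Sum.inr 1) = w (Sum.inl 1)) :
    (LamS (rx A) *ᵥ w) (Sum.inr 1) = (LamS (rx A) *ᵥ w) (Sum.inl 1) := by
  have h0 := row_inv hA (Sum.inl 0)
  have h1 := row_inv hA (Sum.inl 1)
  have h2 := row_inv hA (Sum.inl 2)
  have h3 := row_inv hA (Sum.inr 0)
  have h4 := row_inv hA (Sum.inr 1)
  have h5 := row_inv hA (Sum.inr 2)
  simp [om] at h0 h1 h2 h3 h4 h5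
  simp only [Matrix.mulVec, dotProduct, Fintype.sum_sum_type, Fin.sum_univ_three, LamS_apply,
    sg_l, sg_r0, sg_r1, sg_r2]
  linear_combination (-w (Sum.inl 0)) * h0 + (-w (Sum.inl 1)) * h1 + (-w (Sum.inl 2)) * h2
    + (-w (Sum.inr 0)) * h3 + (w (Sum.inr 1)) * h4 + (-w (Sum.inr 2)) * h5 + hw

/-- The five-dimensional representation. -/
def M5 (A : Matrix I4 I4 F) : Matrix I5 I5 F :=
  (P : Matrix I5 I6 F) * LamS (rx A) * (E : Matrix I6 I5 F)

theorem M5_mulVec (A : Matrix I4 I4 F) (v : I5 → F) :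
    M5 A *ᵥ v = (P : Matrix I5 I6 F) *ᵥ (LamS (rx A) *ᵥ ((E : Matrix I6 I5 F) *ᵥ v)) := by
  rw [M5, ← Matrix.mulVec_mulVec, ← Matrix.mulVec_mulVec]

theorem E_M5 {A : Matrix I4 I4 F} (hA : A ∈ Matrix.symplecticGroup (Fin 2) F) (v : I5 → F) :
    (E : Matrix I6 I5 F) *ᵥ (M5 A *ᵥ v) = LamS (rx A) *ᵥ ((E : Matrix I6 I5 F) *ᵥ v) := by
  rw [M5_mulVec]
  exact E_P_of _ (LamS_perp hA _ (E_apply_r1 v))

theorem M5_mul (A : Matrix I4 I4 F) {B : Matrix I4 I4 F}
    (hB : B ∈ Matrix.symplecticGroup (Fin 2) F) : M5 (A * B) = M5 A * M5 B := by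
  apply Matrix.mulVec_injective
  funext v
  rw [← Matrix.mulVec_mulVec, M5_mulVec, M5_mulVec A, E_M5 hB, rx_mul, LamS_mul,
    ← Matrix.mulVec_mulVec]

theorem M5_one : M5 (1 : Matrix I4 I4 F) = 1 := by
  rw [M5, rx_one, LamS_one, Matrix.mul_one, P_mul_E]

theorem M5_iso {A : Matrix I4 I4 F} (hA : A ∈ Matrix.symplecticGroup (Fin 2) F) (v : I5 → F) :
    Cfsg.quadFormOdd 2 F (M5 A *ᵥ v) = Cfsg.quadFormOdd 2 F v := by
  rw [q5_eq, q5_eq, E_M5 hA]
  exact lam_isoF ⟨rx A, by rw [rx_det]; exact SymplecticGroup.det_eq_one hA⟩ _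

/-- The five-dimensional representation as a unit. -/
def spU (A : Matrix.symplecticGroup (Fin 2) F) : Matrix.GeneralLinearGroup I5 F :=
  ⟨M5 A.1, M5 (A⁻¹).1, by
    rw [← M5_mul _ (A⁻¹).2, ← Submonoid.coe_mul, mul_inv_cancel, Submonoid.coe_one, M5_one], by
    rw [← M5_mul _ A.2, ← Submonoid.coe_mul, inv_mul_cancel, Submonoid.coe_one, M5_one]⟩

theorem spU_mem (A : Matrix.symplecticGroup (Fin 2) F) :
    spU A ∈ Cfsg.isometryGroup F (Cfsg.quadFormOdd 2 F) := by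
  intro u _
  exact M5_iso A.2 u

/-- The homomorphism into the orthogonal group. -/
def spO : Matrix.symplecticGroup (Fin 2) F →*
    ↥(Cfsg.isometryGroup F (Cfsg.quadFormOdd 2 F)) where
  toFun A := ⟨spU A, spU_mem A⟩
  map_one' := Subtype.ext (Units.ext M5_one)
  map_mul' A B := Subtype.ext (Units.ext (M5_mul A.1 B.2))

theorem spO_val (A : Matrix.symplecticGroup (Fin 2) F) :
    (((spO A : ↥(Cfsg.isometryGroup F (Cfsg.quadFormOdd 2 F))) :
      Matrix.GeneralLinearGroup I5 F) : Matrix I5 I5 F) = M5 A.1 := rfl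

section fin

variable [Fintype F] (hF : 3 ≤ Fintype.card F)

include hF in
theorem spO_mem (A : Matrix.symplecticGroup (Fin 2) F) :
    spO A ∈ Cfsg.Omega F (Cfsg.quadFormOdd 2 F) := by
  have h1 : commutator (Matrix.symplecticGroup (Fin 2) F) = ⊤ :=
    Cfsg.Agent.S0269.result 2 (Or.inr (Or.inl ⟨rfl, hF⟩))
  have h3 : A ∈ commutator (Matrix.symplecticGroup (Fin 2) F) := by
    rw [h1]
    exact Subgroup.mem_top _
  have h4 : spO A ∈ (commutator (Matrix.symplecticGroup (Fin 2) F)).map spO :=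
    Subgroup.mem_map_of_mem _ h3
  unfold commutator at h4
  rw [Subgroup.map_commutator] at h4
  exact Subgroup.commutator_mono le_top le_top h4

/-- The homomorphism into `Ω`. -/
def spΩ : Matrix.symplecticGroup (Fin 2) F →* ↥(Cfsg.Omega F (Cfsg.quadFormOdd 2 F)) :=
  spO.codRestrict _ (spO_mem hF)

/-- The homomorphism into `PΩ`. -/
def spP : Matrix.symplecticGroup (Fin 2) F →* Cfsg.POmega F (Cfsg.quadFormOdd 2 F) :=
  (QuotientGroup.mk' _).comp (spΩ hF)

theorem sp_center_le_ker :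
    Subgroup.center (Matrix.symplecticGroup (Fin 2) F) ≤ (spP hF).ker := by
  intro z hz
  obtain ⟨c, hc⟩ := Cfsg.Agent.S0246.scalar_of_center 2 z hz
  have hc2 : c * c = 1 := by
    have h := z.2
    rw [SymplecticGroup.mem_iff, hc] at h
    have h' := congrFun (congrFun h (Sum.inl 0)) (Sum.inr 0)
    simp [Matrix.J, Matrix.mul_apply, Fintype.sum_sum_type, Matrix.one_apply] at h'
    exact h'
  have h1 : M5 z.1 = 1 := by
    rw [M5, hc, rx_smul (F := F), rx_one, LamS_smul_one, hc2, one_smul, Matrix.mul_one, P_mul_E]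
  have h2 : spΩ hF z = 1 := Subtype.ext (Subtype.ext (Units.ext h1))
  rw [MonoidHom.mem_ker]
  show (QuotientGroup.mk (spΩ hF z) : Cfsg.POmega F (Cfsg.quadFormOdd 2 F)) = 1
  rw [h2]
  rfl

end fin

/-- A symplectic transvection. -/
def t1 : Matrix I4 I4 F := Matrix.transvection (Sum.inl 0) (Sum.inr 0) 1

/-- A symplectic transvection. -/
def t2 : Matrix I4 I4 F := Matrix.transvection (Sum.inr 0) (Sum.inl 0) 1

theorem t1_mem : (t1 : Matrix I4 I4 F) ∈ Matrix.symplecticGroup (Fin 2) F := by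
  rw [SymplecticGroup.mem_iff]
  ext i j
  rcases i with i | i <;> rcases j with j | j <;> fin_cases i <;> fin_cases j <;>
    simp [t1, Matrix.transvection, Matrix.mul_apply, Matrix.J, Fintype.sum_sum_type,
      Matrix.single_apply, Matrix.one_apply]

theorem t2_mem : (t2 : Matrix I4 I4 F) ∈ Matrix.symplecticGroup (Fin 2) F := by
  rw [SymplecticGroup.mem_iff]
  ext i j
  rcases i with i | i <;> rcases j with j | j <;> fin_cases i <;> fin_cases j <;>
    simp [t2, Matrix.transvection, Matrix.mul_apply, Matrix.J, Fintype.sum_sum_type,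
      Matrix.single_apply, Matrix.one_apply]

theorem M5_00 (X : Matrix I4 I4 F) :
    M5 X (Sum.inr (Sum.inl 0)) (Sum.inr (Sum.inl 0))
      = X (Sum.inl 0) (Sum.inl 0) * X (Sum.inl 1) (Sum.inl 1)
        - X (Sum.inl 0) (Sum.inl 1) * X (Sum.inl 1) (Sum.inl 0) := by
  simp [M5, P, E, Matrix.mul_apply, Fintype.sum_sum_type, Fin.sum_univ_three, emb, sec,
    LamS_apply, Lam, pr_l0, sg_l, rx_00, rx_10, fs0, fs1]

section fin2

variable [Fintype F] (hF : 3 ≤ Fintype.card F)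

theorem spP_ne : ∃ A : Matrix.symplecticGroup (Fin 2) F, spP hF A ≠ 1 := by
  by_contra hcon
  push Not at hcon
  have h1 : ∀ A : Matrix.symplecticGroup (Fin 2) F, spΩ hF A ∈
      Subgroup.center ↥(Cfsg.Omega F (Cfsg.quadFormOdd 2 F)) :=
    fun A => (QuotientGroup.eq_one_iff _).mp (hcon A)
  have h2 := Subgroup.mem_center_iff.mp (h1 ⟨t1, t1_mem⟩) (spΩ hF ⟨t2, t2_mem⟩)
  rw [← map_mul, ← map_mul] at h2
  have h3 := congrArg (fun x : ↥(Cfsg.Omega F (Cfsg.quadFormOdd 2 F)) =>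
    (x.1.1.1 : Matrix I5 I5 F) (Sum.inr (Sum.inl 0)) (Sum.inr (Sum.inl 0))) h2
  have h4 : M5 ((t2 : Matrix I4 I4 F) * t1) (Sum.inr (Sum.inl 0)) (Sum.inr (Sum.inl 0))
      = M5 ((t1 : Matrix I4 I4 F) * t2) (Sum.inr (Sum.inl 0)) (Sum.inr (Sum.inl 0)) := h3
  rw [M5_00, M5_00] at h4
  simp [t1, t2, Matrix.mul_apply, Fintype.sum_sum_type, Matrix.transvection,
    Matrix.single_apply, Matrix.one_apply] at h4

/-- The induced homomorphism on `PSp₄`. -/
def spL : Cfsg.PSp 2 F →* Cfsg.POmega F (Cfsg.quadFormOdd 2 F) :=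
  QuotientGroup.lift _ (spP hF) (sp_center_le_ker hF)

theorem spL_injective : Function.Injective (spL hF) := by
  have := Cfsg.Agent.S0270.result (F := F) 2 (le_refl 2) (fun _ => hF)
  rw [← MonoidHom.ker_eq_bot_iff]
  rcases (MonoidHom.normal_ker (spL hF)).eq_bot_or_eq_top with h | h
  · exact h
  · exfalso
    obtain ⟨A, hA⟩ := spP_ne hF
    have h1 : (QuotientGroup.mk A : Cfsg.PSp 2 F) ∈ (spL hF).ker := by
      rw [h]
      exact Subgroup.mem_top _
    rw [MonoidHom.mem_ker] at h1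
    exact hA h1

end fin2

open Cfsg.Agent.Lib.Helper15.Spinor3 Cfsg.Agent.Lib.Helper15.CenterOmega
  Cfsg.Agent.Lib.Helper15.StdForms in
theorem aux2 [Fintype F] (h2 : (2 : F) ≠ 0) (m : ℕ) (hm : 2 ≤ m) (X : ℕ)
    (hO : Nat.card (Cfsg.isometryGroup F (Cfsg.quadFormOdd m F)) = 2 * X) :
    2 * Nat.card (Cfsg.POmega F (Cfsg.quadFormOdd m F)) = X := by
  classical
  have hcard : Fintype.card (Unit ⊕ (Fin m ⊕ Fin m)) = 2 * m + 1 := by
    rw [Fintype.card_sum, Fintype.card_sum, Fintype.card_fin, Fintype.card_unit]; omega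
  have hn : 5 ≤ Fintype.card (Unit ⊕ (Fin m ⊕ Fin m)) := by
    rw [hcard]; omega
  have hQ : (QuadraticMap.polarBilin (oddQF m F)).Nondegenerate :=
    nondeg_of_sep _ (fun x hx => Cfsg.Agent.Lib.Helper15.OrthOrder.odd_sep h2 m x
      (by rw [← coe_oddQF]; exact hx))
  obtain ⟨u, hu0, hQu⟩ : ∃ u : Unit ⊕ (Fin m ⊕ Fin m) → F, u ≠ 0 ∧ oddQF m F u = 0 := by
    refine ⟨Pi.single (Sum.inr (Sum.inl ⟨0, by omega⟩)) 1, ?_, ?_⟩
    · intro h
      have h' := congrFun h (Sum.inr (Sum.inl ⟨0, by omega⟩))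
      rw [Pi.single_eq_same] at h'
      exact one_ne_zero h'
    · rw [coe_oddQF]
      unfold Cfsg.quadFormOdd
      have h0 : ∑ i : Fin m,
          (Pi.single (Sum.inr (Sum.inl ⟨0, by omega⟩)) 1 :
            Unit ⊕ (Fin m ⊕ Fin m) → F) (Sum.inr (Sum.inl i))
          * (Pi.single (Sum.inr (Sum.inl ⟨0, by omega⟩)) 1 :
            Unit ⊕ (Fin m ⊕ Fin m) → F) (Sum.inr (Sum.inr i)) = 0 := by
        apply Finset.sum_eq_zero
        intro i _
        simp [Pi.single_apply]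
      rw [h0]
      simp [Pi.single_apply]
  have hneg : ¬ ∃ g : ↥(Cfsg.isometryGroup F ⇑(oddQF m F)), g ∈ Cfsg.Omega F ⇑(oddQF m F) ∧
      ((g : Matrix.GeneralLinearGroup (Unit ⊕ (Fin m ⊕ Fin m)) F) :
        Matrix (Unit ⊕ (Fin m ⊕ Fin m)) (Unit ⊕ (Fin m ⊕ Fin m)) F) = -1 := by
    rintro ⟨g, hg, hmat⟩
    have h1 : g ∈ Cfsg.specialIsometryGroup F ⇑(oddQF m F) :=
      Abelianization.commutator_subset_ker _ hg
    rw [Cfsg.Agent.Lib.Helper15.CartanD.mem_special, hmat, Matrix.det_neg, Matrix.det_one,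
      mul_one, hcard, pow_succ, pow_mul] at h1
    simp at h1
    apply h2
    have : (2 : F) = 1 - (-1) := by ring
    rw [this, h1, sub_self]
  have hP := card_pomega_odd h2 (oddQF m F) hQ hn
  have hZ := card_center_out h2 (oddQF m F) hQ hn u hu0 hQu hneg
  rw [hZ, coe_oddQF] at hP
  omega

theorem sp_card_eq [Fintype F] (hodd : Odd (Fintype.card F)) :
    Nat.card (Cfsg.PSp 2 F) = Nat.card (Cfsg.POmega F (Cfsg.quadFormOdd 2 F)) := by
  have h2F : (2 : F) ≠ 0 := Cfsg.Agent.Lib.Helper15.Spinor2.two_ne_zero_of_odd_card rfl hodd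
  have hO := Cfsg.Agent.S0286.result (F := F) rfl hodd 2
  have h1 := aux2 h2F 2 (le_refl 2)
    (Fintype.card F ^ 2 ^ 2 * ∏ i ∈ Finset.range 2, (Fintype.card F ^ (2 * (i + 1)) - 1))
    (by rw [hO]; ring)
  have h2 := Cfsg.Agent.S0245.result (F := F) rfl 2
  have h3 := Cfsg.Agent.S0246.result (F := F) rfl 2 (by norm_num)
  have h4 : Nat.card (Matrix.symplecticGroup (Fin 2) F) = Nat.card (Cfsg.PSp 2 F)
      * Nat.card (Subgroup.center (Matrix.symplecticGroup (Fin 2) F)) :=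
    Subgroup.card_eq_card_quotient_mul_card_subgroup
      (Subgroup.center (Matrix.symplecticGroup (Fin 2) F))
  have h5 : Nat.gcd 2 (Fintype.card F - 1) = 2 := by
    obtain ⟨k, hk⟩ := hodd
    rw [hk, Nat.add_sub_cancel]
    exact Nat.gcd_eq_left (dvd_mul_right 2 k)
  rw [h3, h5, h2, ← h1] at h4
  omega

theorem sp_main [Fintype F] (hodd : Odd (Fintype.card F)) :
    Nonempty (Cfsg.POmega F (Cfsg.quadFormOdd 2 F) ≃* Cfsg.PSp 2 F) := by
  classical
  have hF : 3 ≤ Fintype.card F := by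
    have h1 := Fintype.one_lt_card (α := F)
    obtain ⟨k, hk⟩ := hodd
    omega
  have : Finite (Cfsg.POmega F (Cfsg.quadFormOdd 2 F)) := by
    unfold Cfsg.POmega
    infer_instance
  have hb : Function.Bijective (spL hF) :=
    (Nat.bijective_iff_injective_and_card _).2 ⟨spL_injective hF, sp_card_eq hodd⟩
  exact ⟨(MulEquiv.ofBijective (spL hF) hb).symm⟩

end Cfsg.Agent.Lib.Helper2.Sp4O5
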