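import Mathlib
import Cfsg.Prelude.Def_ClassicalGeometry
import Cfsg.Agent.Lib.Helper2.SympPerf

set_option autoImplicit false
open Cfsg
open scoped Matrix

namespace Cfsg.Agent.Lib.Helper2.SympTv

open Cfsg.Agent.Lib.Helper5.Symp Cfsg.Agent.Lib.Helper5.Symp2 Cfsg.Agent.Lib.Helper2.SympPerf

variable {F : Type*} [Field F] (m : ℕ)

/-- A symplectic matrix `g` with `g - 1` of rank one is a symplectic transvection. -/
theorem eq_tv_of_rank (g : Matrix.symplecticGroup (Fin m) F)
    (h : ((g : Matrix (Fin m ⊕ Fin m) (Fin m ⊕ Fin m) F) - 1).rank = 1) :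
    ∃ (w : Fin m ⊕ Fin m → F) (c : F), w ≠ 0 ∧ c ≠ 0 ∧ g = tv m w c := by
  have h1 : Module.finrank F (LinearMap.range
      ((g : Matrix (Fin m ⊕ Fin m) (Fin m ⊕ Fin m) F) - 1).mulVecLin) = 1 := h
  obtain ⟨⟨a, ha_mem⟩, ha0, hspan⟩ := finrank_eq_one_iff'.mp h1
  have ha : a ≠ 0 := fun h => ha0 (Subtype.ext h)
  have hlam : ∀ x, ∃ c : F,
      ((g : Matrix (Fin m ⊕ Fin m) (Fin m ⊕ Fin m) F) - 1) *ᵥ x = c • a := by
    intro x
    obtain ⟨c, hc⟩ := hspan ⟨((g : Matrix (Fin m ⊕ Fin m) (Fin m ⊕ Fin m) F) - 1) *ᵥ x,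
      ⟨x, rfl⟩⟩
    exact ⟨c, (congrArg Subtype.val hc).symm⟩
  choose lam hlam using hlam
  have hg : ∀ x, (g : Matrix (Fin m ⊕ Fin m) (Fin m ⊕ Fin m) F) *ᵥ x = x + lam x • a := by
    intro x
    have h2 := hlam x
    rw [Matrix.sub_mulVec, Matrix.one_mulVec] at h2
    rw [← h2]
    abel
  have hsym : ∀ x y, lam y * Cfsg.sympForm m F x a = lam x * Cfsg.sympForm m F y a := by
    intro x y
    have h3 := sympForm_mulVec_of_mem m g.2 x y
    rw [hg, hg] at h3
    simp only [sympForm_add_left, sympForm_add_right, sympForm_smul_left, sympForm_smul_right,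
      sympForm_self, mul_zero, add_zero] at h3
    rw [sympForm_swap m a y] at h3
    linear_combination h3
  obtain ⟨y0, hy0⟩ : ∃ y0, lam y0 ≠ 0 := by
    by_contra hcon
    push Not at hcon
    obtain ⟨x₀, hx₀⟩ := ha_mem
    apply ha
    rw [← hx₀]
    show ((g : Matrix (Fin m ⊕ Fin m) (Fin m ⊕ Fin m) F) - 1) *ᵥ x₀ = 0
    rw [hlam, hcon, zero_smul]
  have hfa : Cfsg.sympForm m F y0 a ≠ 0 := by
    intro h0
    apply ha
    apply eq_zero_of_sympForm_eq_zero m a
    intro b
    have h7 := hsym b y0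
    rw [h0, mul_zero] at h7
    rw [sympForm_swap, (mul_eq_zero.mp h7).resolve_left hy0, neg_zero]
  refine ⟨a, lam y0 / Cfsg.sympForm m F y0 a, ha, div_ne_zero hy0 hfa, ?_⟩
  apply ext_mulVec
  intro x
  rw [hg, tv_mulVec]
  congr 2
  have h8 := hsym x y0
  field_simp
  linear_combination -h8

/-- In characteristic two the centralizer of a transvection is the stabilizer of its vector. -/
theorem mem_centralizer_tv_iff [CharP F 2] {a : Fin m ⊕ Fin m → F} {c : F} (ha : a ≠ 0)
    (hc : c ≠ 0) (g : Matrix.symplecticGroup (Fin m) F) :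
    g ∈ Subgroup.centralizer ({tv m a c} : Set (Matrix.symplecticGroup (Fin m) F)) ↔
      (g : Matrix (Fin m ⊕ Fin m) (Fin m ⊕ Fin m) F) *ᵥ a = a := by
  rw [Subgroup.mem_centralizer_iff]
  constructor
  · intro h
    have h1 := h _ rfl
    have h2 : tv m ((g : Matrix (Fin m ⊕ Fin m) (Fin m ⊕ Fin m) F) *ᵥ a) c = tv m a c := by
      rw [← conj_tv, ← h1, mul_inv_cancel_right]
    have hu0 := Cfsg.Agent.S0768.mulVec_ne_zero m g ha
    generalize (g : Matrix (Fin m ⊕ Fin m) (Fin m ⊕ Fin m) F) *ᵥ a = u at h2 hu0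
    have h3 : ∀ x, Cfsg.sympForm m F x u • u = Cfsg.sympForm m F x a • a := by
      intro x
      have h4 := congrArg (fun B : Matrix.symplecticGroup (Fin m) F =>
        (B : Matrix (Fin m ⊕ Fin m) (Fin m ⊕ Fin m) F) *ᵥ x) h2
      simp only [tv_mulVec] at h4
      have h5 := add_left_cancel h4
      rw [mul_smul, mul_smul] at h5
      exact smul_right_injective _ hc h5
    obtain ⟨x0, hx0⟩ := Cfsg.Agent.S0768.exists_partner m ha
    have hx0' : Cfsg.sympForm m F x0 a = 1 := by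
      rw [sympForm_swap, hx0, CharTwo.neg_eq]
    have h6 := h3 x0
    rw [hx0', one_smul] at h6
    obtain ⟨x1, hx1⟩ := Cfsg.Agent.S0768.exists_partner m hu0
    have hx1' : Cfsg.sympForm m F x1 u = 1 := by
      rw [sympForm_swap, hx1, CharTwo.neg_eq]
    have h7 := h3 x1
    rw [hx1', one_smul, ← h6, sympForm_smul_right, hx1', mul_one, smul_smul] at h7
    have h8 : (Cfsg.sympForm m F x0 u * Cfsg.sympForm m F x0 u - 1) • u = 0 := by
      rw [sub_smul, one_smul, ← h7, sub_self]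
    have h9 : Cfsg.sympForm m F x0 u * Cfsg.sympForm m F x0 u - 1 = 0 :=
      (smul_eq_zero.mp h8).resolve_right hu0
    have h10 : (Cfsg.sympForm m F x0 u - 1) * (Cfsg.sympForm m F x0 u - 1) = 0 := by
      have h11 : (2 : F) = 0 := CharTwo.two_eq_zero
      linear_combination h9 + (1 - Cfsg.sympForm m F x0 u) * h11
    have h12 : Cfsg.sympForm m F x0 u = 1 := by
      rcases mul_eq_zero.mp h10 with h | h <;> exact sub_eq_zero.mp h
    rw [h12, one_smul] at h6
    exact h6
  · intro h x hx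
    rw [Set.mem_singleton_iff] at hx
    subst hx
    have h1 := conj_tv m g a c
    rw [h, mul_inv_eq_iff_eq_mul] at h1
    exact h1.symm

theorem orbit_eq {a : Fin m ⊕ Fin m → F} (ha : a ≠ 0) :
    MulAction.orbit (Matrix.symplecticGroup (Fin m) F) a = {v | v ≠ 0} := by
  ext v
  constructor
  · rintro ⟨g, rfl⟩
    exact Cfsg.Agent.S0768.mulVec_ne_zero m g ha
  · intro hv
    obtain ⟨g, hg⟩ := exists_map m ha hv
    exact ⟨g, hg⟩

theorem card_ne_zero [Fintype F] {q : ℕ} (hF : Fintype.card F = q) :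
    Nat.card {v : Fin m ⊕ Fin m → F // v ≠ 0} = q ^ (2 * m) - 1 := by
  classical
  rw [Nat.card_eq_fintype_card, Fintype.card_subtype_compl, Fintype.card_subtype_eq,
    Fintype.card_fun, Fintype.card_sum, Fintype.card_fin, hF, two_mul]

/-- Order of the stabilizer of a nonzero vector. -/
theorem card_stabilizer [Fintype F] {q : ℕ} (hF : Fintype.card F = q)
    {a : Fin m ⊕ Fin m → F} (ha : a ≠ 0) :
    (q ^ (2 * m) - 1) * Nat.card (MulAction.stabilizer (Matrix.symplecticGroup (Fin m) F) a) =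
      Nat.card (Matrix.symplecticGroup (Fin m) F) := by
  have h1 := Nat.card_congr (MulAction.orbitProdStabilizerEquivGroup
    (Matrix.symplecticGroup (Fin m) F) a)
  rw [Nat.card_prod] at h1
  rw [← h1, ← card_ne_zero m hF]
  congr 1
  rw [orbit_eq m ha]
  rfl

end Cfsg.Agent.Lib.Helper2.SympTv
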