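import Mathlib
import Cfsg.Prelude.Def_ClassicalGeometry

set_option autoImplicit false

namespace Cfsg.Agent.Lib.Helper2.TvCent

open scoped Matrix

variable {F : Type*} [Field F] {k : ℕ}

/-- The elementary matrix `E₀₁`. -/
def E01 (F : Type*) [Field F] (k : ℕ) : Matrix (Fin (k + 2)) (Fin (k + 2)) F :=
  Matrix.single 0 1 1

theorem E01_eq : E01 F k = Matrix.single 0 1 1 := rfl

/-- The matrices commuting with `E₀₁`. -/
theorem comm_iff (g : Matrix (Fin (k + 2)) (Fin (k + 2)) F) :
    g * E01 F k = E01 F k * g ↔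
      (∀ i, i ≠ 0 → g i 0 = 0) ∧ (∀ j, j ≠ 1 → g 1 j = 0) ∧ g 0 0 = g 1 1 := by
  have key1 : ∀ i j, (g * E01 F k) i j = if j = 1 then g i 0 else 0 := by
    intro i j
    rw [E01_eq]
    by_cases hj : j = 1
    · rw [hj, Matrix.mul_single_apply_same, mul_one, if_pos rfl]
    · rw [Matrix.mul_single_apply_of_ne (hbj := hj), if_neg hj]
  have key2 : ∀ i j, (E01 F k * g) i j = if i = 0 then g 1 j else 0 := by
    intro i j
    rw [E01_eq]
    by_cases hi : i = 0
    · rw [hi, Matrix.single_mul_apply_same, one_mul, if_pos rfl]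
    · rw [Matrix.single_mul_apply_of_ne (h := hi), if_neg hi]
  constructor
  · intro h
    have h' : ∀ i j, (if j = 1 then g i 0 else 0) = if i = 0 then g 1 j else 0 := by
      intro i j
      rw [← key1, ← key2, h]
    refine ⟨?_, ?_, ?_⟩
    · intro i hi
      have h4 := h' i 1
      rw [if_pos rfl, if_neg hi] at h4
      exact h4
    · intro j hj
      have h4 := h' 0 j
      rw [if_neg hj, if_pos rfl] at h4
      exact h4.symm
    · have h4 := h' 0 1
      rw [if_pos rfl, if_pos rfl] at h4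
      exact h4
  · rintro ⟨h1, h2, h3⟩
    ext i j
    rw [key1, key2]
    by_cases hj : j = 1 <;> by_cases hi : i = 0
    · rw [if_pos hj, if_pos hi, hi, h3, hj]
    · rw [if_pos hj, if_neg hi, h1 i hi]
    · rw [if_neg hj, if_pos hi, h2 j hj]
    · rw [if_neg hj, if_neg hi]

theorem succ_succ_ne_one (j : Fin k) : j.succ.succ ≠ (1 : Fin (k + 2)) := by
  intro h
  have h1 := congrArg Fin.val h
  simp at h1

theorem succ_succ_ne_zero (j : Fin k) : j.succ.succ ≠ (0 : Fin (k + 2)) :=
  Fin.succ_ne_zero _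

/-- Case analysis on `Fin (k + 2)`. -/
theorem cases3 {P : Fin (k + 2) → Prop} (h0 : P 0) (h1 : P 1) (h2 : ∀ i : Fin k, P i.succ.succ) :
    ∀ i, P i := by
  intro i
  induction i using Fin.cases with
  | zero => exact h0
  | succ i =>
    induction i using Fin.cases with
    | zero => rw [Fin.succ_zero_eq_one]; exact h1
    | succ i => exact h2 i

/-- The determinant of a matrix commuting with `E₀₁`. -/
theorem det_shape (g : Matrix (Fin (k + 2)) (Fin (k + 2)) F)
    (h1 : ∀ i, i ≠ 0 → g i 0 = 0) (h2 : ∀ j, j ≠ 1 → g 1 j = 0) :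
    g.det = g 0 0 * g 1 1 *
      (g.submatrix (fun i : Fin k => i.succ.succ) (fun i : Fin k => i.succ.succ)).det := by
  rw [Matrix.det_succ_column_zero, Fin.sum_univ_succ]
  have hz : ∑ i : Fin (k + 1), (-1) ^ (i.succ : ℕ) * g i.succ 0 *
      (g.submatrix i.succ.succAbove Fin.succ).det = 0 := by
    apply Finset.sum_eq_zero
    intro i _
    rw [h1 i.succ (Fin.succ_ne_zero i), mul_zero, zero_mul]
  rw [hz, add_zero, Fin.val_zero, pow_zero, one_mul, Fin.succAbove_zero]
  rw [Matrix.det_succ_row_zero, Fin.sum_univ_succ]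
  have hz2 : ∑ j : Fin k, (-1) ^ (j.succ : ℕ) * (g.submatrix Fin.succ Fin.succ) 0 j.succ *
      ((g.submatrix Fin.succ Fin.succ).submatrix Fin.succ j.succ.succAbove).det = 0 := by
    apply Finset.sum_eq_zero
    intro j _
    have h3 : (g.submatrix Fin.succ Fin.succ) 0 j.succ = 0 := by
      rw [Matrix.submatrix_apply, Fin.succ_zero_eq_one]
      exact h2 _ (succ_succ_ne_one j)
    rw [h3, mul_zero, zero_mul]
  rw [hz2, add_zero, Fin.val_zero, pow_zero, one_mul, Fin.succAbove_zero,
    Matrix.submatrix_apply, Matrix.submatrix_submatrix, Fin.succ_zero_eq_one, mul_assoc]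
  rfl

/-- The matrix commuting with `E₀₁` built from its free entries. -/
def toMat (l a : F) (r s : Fin k → F) (A : Matrix (Fin k) (Fin k) F) :
    Matrix (Fin (k + 2)) (Fin (k + 2)) F :=
  Matrix.of fun i j =>
    Fin.cases (motive := fun _ => F)
      (Fin.cases (motive := fun _ => F) l
        (fun j' => Fin.cases (motive := fun _ => F) a r j') j)
      (fun i' => Fin.cases (motive := fun _ => F)
        (Fin.cases (motive := fun _ => F) 0
          (fun j' => Fin.cases (motive := fun _ => F) l (fun _ => 0) j') j)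
        (fun i'' => Fin.cases (motive := fun _ => F) 0
          (fun j' => Fin.cases (motive := fun _ => F) (s i'') (A i'') j') j) i') i

section entries

variable (l a : F) (r s : Fin k → F) (A : Matrix (Fin k) (Fin k) F)

theorem toMat_00 : toMat l a r s A 0 0 = l := rfl
theorem toMat_01 : toMat l a r s A 0 1 = a := by
  rw [← Fin.succ_zero_eq_one]; rfl
theorem toMat_0s (j : Fin k) : toMat l a r s A 0 j.succ.succ = r j := rfl
theorem toMat_10 : toMat l a r s A 1 0 = 0 := by
  rw [← Fin.succ_zero_eq_one]; rfl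
theorem toMat_11 : toMat l a r s A 1 1 = l := by
  rw [← Fin.succ_zero_eq_one]; rfl
theorem toMat_1s (j : Fin k) : toMat l a r s A 1 j.succ.succ = 0 := by
  rw [← Fin.succ_zero_eq_one]; rfl
theorem toMat_s0 (i : Fin k) : toMat l a r s A i.succ.succ 0 = 0 := rfl
theorem toMat_s1 (i : Fin k) : toMat l a r s A i.succ.succ 1 = s i := by
  rw [← Fin.succ_zero_eq_one]; rfl
theorem toMat_ss (i j : Fin k) : toMat l a r s A i.succ.succ j.succ.succ = A i j := rfl

theorem toMat_comm : toMat l a r s A * E01 F k = E01 F k * toMat l a r s A := by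
  rw [comm_iff]
  refine ⟨?_, ?_, ?_⟩
  · refine cases3 (fun h => absurd rfl h) (fun _ => toMat_10 l a r s A)
      (fun i _ => toMat_s0 l a r s A i)
  · refine cases3 (fun _ => toMat_10 l a r s A) (fun h => absurd rfl h)
      (fun j _ => toMat_1s l a r s A j)
  · rw [toMat_00, toMat_11]

theorem toMat_det : (toMat l a r s A).det = l * l * A.det := by
  have h := (comm_iff (toMat l a r s A)).mp (toMat_comm l a r s A)
  rw [det_shape _ h.1 h.2.1, toMat_00, toMat_11]
  congr 1

end entries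

theorem gl_det_ne_zero {n : Type*} [Fintype n] [DecidableEq n] (g : GL n F) :
    (g : Matrix n n F).det ≠ 0 :=
  ((Matrix.isUnit_iff_isUnit_det _).mp g.isUnit).ne_zero

theorem cent_ne_zero (g : GL (Fin (k + 2)) F)
    (hg : (g : Matrix (Fin (k + 2)) (Fin (k + 2)) F) * E01 F k
      = E01 F k * (g : Matrix (Fin (k + 2)) (Fin (k + 2)) F)) :
    (g : Matrix (Fin (k + 2)) (Fin (k + 2)) F) 0 0 ≠ 0 ∧
      ((g : Matrix (Fin (k + 2)) (Fin (k + 2)) F).submatrix (fun i : Fin k => i.succ.succ)
        (fun i : Fin k => i.succ.succ)).det ≠ 0 := by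
  have h := (comm_iff _).mp hg
  have hd := gl_det_ne_zero g
  rw [det_shape _ h.1 h.2.1] at hd
  exact ⟨left_ne_zero_of_mul (left_ne_zero_of_mul hd), right_ne_zero_of_mul hd⟩

/-- The centraliser of `E₀₁` in `GL`, parametrised. -/
noncomputable def centEquiv : (Fˣ × F × (Fin k → F) × (Fin k → F) × GL (Fin k) F) ≃
    {g : GL (Fin (k + 2)) F // (g : Matrix (Fin (k + 2)) (Fin (k + 2)) F) * E01 F k
      = E01 F k * (g : Matrix (Fin (k + 2)) (Fin (k + 2)) F)} where
  toFun d := ⟨Matrix.GeneralLinearGroup.mkOfDetNeZero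
      (toMat (d.1 : F) d.2.1 d.2.2.1 d.2.2.2.1 (d.2.2.2.2 : Matrix (Fin k) (Fin k) F))
      (by
        rw [toMat_det]
        exact mul_ne_zero (mul_ne_zero d.1.ne_zero d.1.ne_zero) (gl_det_ne_zero d.2.2.2.2)),
    toMat_comm _ _ _ _ _⟩
  invFun g := (Units.mk0 _ (cent_ne_zero g.1 g.2).1,
    (g.1 : Matrix (Fin (k + 2)) (Fin (k + 2)) F) 0 1,
    fun j => (g.1 : Matrix (Fin (k + 2)) (Fin (k + 2)) F) 0 j.succ.succ,
    fun i => (g.1 : Matrix (Fin (k + 2)) (Fin (k + 2)) F) i.succ.succ 1,
    Matrix.GeneralLinearGroup.mkOfDetNeZero _ (cent_ne_zero g.1 g.2).2)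
  left_inv d := by
    obtain ⟨l, a, r, s, A⟩ := d
    refine Prod.ext (Units.ext ?_) (Prod.ext ?_ (Prod.ext ?_ (Prod.ext ?_ (Units.ext ?_))))
    · exact toMat_00 _ _ _ _ _
    · exact toMat_01 _ _ _ _ _
    · funext j
      exact toMat_0s _ _ _ _ _ j
    · funext i
      exact toMat_s1 _ _ _ _ _ i
    · ext i j
      exact toMat_ss (l : F) a r s (A : Matrix (Fin k) (Fin k) F) i j
  right_inv g := by
    obtain ⟨g, hg⟩ := g
    obtain ⟨h1, h2, h3⟩ := (comm_iff _).mp hg
    apply Subtype.ext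
    apply Units.ext
    apply Matrix.ext
    refine cases3 (P := fun i => ∀ j, _ = (g : Matrix (Fin (k + 2)) (Fin (k + 2)) F) i j)
      ?_ ?_ ?_
    · refine cases3 ?_ ?_ ?_
      · exact toMat_00 _ _ _ _ _
      · exact toMat_01 _ _ _ _ _
      · intro j
        exact toMat_0s _ _ _ _ _ j
    · refine cases3 ?_ ?_ ?_
      · exact (toMat_10 _ _ _ _ _).trans (h2 0 (by simp)).symm
      · exact (toMat_11 _ _ _ _ _).trans h3
      · intro j
        exact (toMat_1s _ _ _ _ _ j).trans (h2 _ (succ_succ_ne_one j)).symm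
    · intro i
      refine cases3 ?_ ?_ ?_
      · exact (toMat_s0 _ _ _ _ _ i).trans (h1 _ (succ_succ_ne_zero i)).symm
      · exact toMat_s1 _ _ _ _ _ i
      · intro j
        exact toMat_ss _ _ _ _ _ i j

/-- The order of the centraliser of `E₀₁` in `GL_{k+2}(q)`. -/
theorem card_cent [Fintype F] :
    Nat.card {g : GL (Fin (k + 2)) F // (g : Matrix (Fin (k + 2)) (Fin (k + 2)) F) * E01 F k
      = E01 F k * (g : Matrix (Fin (k + 2)) (Fin (k + 2)) F)}
      = (Fintype.card F - 1) * (Fintype.card F * (Fintype.card F ^ k * (Fintype.card F ^ k *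
        Nat.card (GL (Fin k) F)))) := by
  rw [← Nat.card_congr (centEquiv (F := F) (k := k)), Nat.card_prod, Nat.card_prod, Nat.card_prod,
    Nat.card_prod, Nat.card_units, Nat.card_fun, Nat.card_eq_fintype_card (α := F),
    Nat.card_eq_fintype_card (α := Fin k), Fintype.card_fin]

end Cfsg.Agent.Lib.Helper2.TvCent
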