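import Mathlib
import Cfsg.Prelude.Def_ClassicalGeometry
import Cfsg.Agent.Lib.Helper2.TvCent

set_option autoImplicit false

namespace Cfsg.Agent.Lib.Helper2.TvConj

open scoped Matrix
open Cfsg.Agent.Lib.Helper2.TvCent

variable {F : Type*} [Field F]

section general

variable {n : Type*} [Fintype n] [DecidableEq n]

/-- A square-zero matrix of rank one is `a bᵀ` with `bᵀ a = 0`. -/
theorem exists_vecMulVec (N : Matrix n n F) (h : N.rank = 1) (h2 : N * N = 0) :
    ∃ a b : n → F, N = Matrix.vecMulVec a b ∧ b ⬝ᵥ a = 0 ∧ a ≠ 0 ∧ b ≠ 0 := by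
  have h1 : Module.finrank F (LinearMap.range N.mulVecLin) = 1 := h
  obtain ⟨⟨a, ha_mem⟩, ha0, hspan⟩ := finrank_eq_one_iff'.mp h1
  have ha : a ≠ 0 := fun h => ha0 (Subtype.ext h)
  have hlam : ∀ x, ∃ c : F, N *ᵥ x = c • a := by
    intro x
    obtain ⟨c, hc⟩ := hspan ⟨N *ᵥ x, ⟨x, rfl⟩⟩
    exact ⟨c, (congrArg Subtype.val hc).symm⟩
  choose lam hlam using hlam
  have hN : N = Matrix.vecMulVec a (fun j => lam (Pi.single j 1)) := by
    ext i j
    have h3 := congrFun (hlam (Pi.single j 1)) i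
    rw [Matrix.mulVec_single_one] at h3
    rw [Matrix.vecMulVec_apply, mul_comm]
    exact h3
  have hN0 : N ≠ 0 := by
    intro h0
    rw [h0, Matrix.rank_zero] at h
    exact zero_ne_one h
  have hb : (fun j => lam (Pi.single j 1)) ≠ 0 := by
    intro hb
    apply hN0
    rw [hN, hb, Matrix.vecMulVec_zero]
  refine ⟨a, _, hN, ?_, ha, hb⟩
  have h4 : N * N = ((fun j => lam (Pi.single j 1)) ⬝ᵥ a) • N := by
    conv_lhs => rw [hN, Matrix.vecMulVec_mul_vecMulVec, Matrix.vecMulVec_smul]
    rw [← hN]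
  rw [h2] at h4
  rcases smul_eq_zero.mp h4.symm with h5 | h5
  · exact h5
  · exact absurd h5 hN0

omit [DecidableEq n] in
theorem exists_indices (a b : n → F) (ha : a ≠ 0) (hb : b ≠ 0) (hab : b ⬝ᵥ a = 0) :
    ∃ l m, l ≠ m ∧ a l ≠ 0 ∧ b m ≠ 0 := by
  classical
  obtain ⟨l, hl⟩ := Function.ne_iff.mp ha
  obtain ⟨m, hm⟩ := Function.ne_iff.mp hb
  by_cases hlm : l = m
  · subst hlm
    by_contra hcon
    push Not at hcon
    have h1 : ∀ j, j ≠ l → b j = 0 := fun j hj => hcon l j (Ne.symm hj) hl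
    have h2 : b ⬝ᵥ a = b l * a l := by
      unfold dotProduct
      rw [Finset.sum_eq_single l]
      · intro j _ hj
        rw [h1 j hj, zero_mul]
      · intro h
        exact absurd (Finset.mem_univ l) h
    rw [h2] at hab
    exact mul_ne_zero hm hl hab
  · exact ⟨l, m, hlm, hl, hm⟩

/-- A square-zero matrix of rank one is conjugate to a multiple of an elementary matrix. -/
theorem exists_conj (N : Matrix n n F) (h : N.rank = 1) (h2 : N * N = 0) :
    ∃ (g : GL n F) (l m : n) (c : F), l ≠ m ∧ c ≠ 0 ∧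
      N * (g : Matrix n n F) = (g : Matrix n n F) * Matrix.single l m c := by
  obtain ⟨a, b, hN, hab, ha, hb⟩ := exists_vecMulVec N h h2
  obtain ⟨l, m, hlm, hl, hm⟩ := exists_indices a b ha hb hab
  -- the two factors
  obtain ⟨w, hw⟩ : ∃ w : n → F, w = fun j => if j = l ∨ j = m then 0 else -(b j / b m) :=
    ⟨_, rfl⟩
  have hwl : w l = 0 := by rw [hw]; simp
  have hwm : w m = 0 := by rw [hw]; simp
  obtain ⟨U, hU⟩ : ∃ U : Matrix n n F, U = Matrix.updateCol 1 l a := ⟨_, rfl⟩
  obtain ⟨T, hT⟩ : ∃ T : Matrix n n F, T = 1 + Matrix.vecMulVec (Pi.single m 1) w := ⟨_, rfl⟩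
  have hdetU : U.det = a l := by
    rw [hU, ← Matrix.cramer_apply, Matrix.cramer_one]
    rfl
  have hdetT : T.det = 1 := by
    rw [hT, Matrix.vecMulVec_eq Unit, Matrix.det_one_add_replicateCol_mul_replicateRow]
    have h3 : w ⬝ᵥ Pi.single m 1 = 0 := by
      rw [dotProduct_single, hwm, zero_mul]
    rw [h3, add_zero]
  have hdet : (U * T).det ≠ 0 := by
    rw [Matrix.det_mul, hdetU, hdetT, mul_one]
    exact hl
  -- the column `l` of the product
  have hcol : (U * T) *ᵥ Pi.single l 1 = a := by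
    rw [← Matrix.mulVec_mulVec]
    have h3 : T *ᵥ Pi.single l 1 = Pi.single l 1 := by
      rw [hT, Matrix.add_mulVec, Matrix.one_mulVec, Matrix.vecMulVec_mulVec, dotProduct_single,
        hwl, zero_mul]
      simp
    rw [h3, Matrix.mulVec_single_one, hU]
    funext i
    exact Matrix.updateCol_self
  -- the covector
  have hrow : b ᵥ* (U * T) = Pi.single m (b m) := by
    rw [← Matrix.vecMul_vecMul]
    have h3 : b ᵥ* U = Function.update b l 0 := by
      funext p
      by_cases hp : p = l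
      · subst hp
        rw [Function.update_self]
        have h4 : (fun i => U i p) = a := by
          funext i
          rw [hU]
          exact Matrix.updateCol_self
        show b ⬝ᵥ (fun i => U i p) = 0
        rw [h4, hab]
      · rw [Function.update_of_ne hp]
        have h4 : (fun i => U i p) = Pi.single p 1 := by
          funext i
          rw [hU, Matrix.updateCol_ne hp, Matrix.one_apply, Pi.single_apply]
        show b ⬝ᵥ (fun i => U i p) = b p
        rw [h4, dotProduct_single, mul_one]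
    rw [h3, hT, Matrix.vecMul_add, Matrix.vecMul_one, Matrix.vecMul_vecMulVec, dotProduct_single,
      mul_one, Function.update_of_ne (Ne.symm hlm)]
    funext j
    rw [Pi.add_apply, Pi.smul_apply, smul_eq_mul, hw]
    by_cases hjl : j = l
    · subst hjl
      rw [Function.update_self, Pi.single_apply, if_neg hlm]
      simp
    · rw [Function.update_of_ne hjl]
      by_cases hjm : j = m
      · subst hjm
        simp
      · rw [Pi.single_apply, if_neg hjm]
        simp only [hjl, hjm, or_self, if_false]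
        field_simp
        ring
  refine ⟨Matrix.GeneralLinearGroup.mkOfDetNeZero (U * T) hdet, l, m, b m, hlm, hm, ?_⟩
  show N * (U * T) = (U * T) * Matrix.single l m (b m)
  rw [hN, Matrix.vecMulVec_mul, hrow]
  ext i j
  by_cases hj : j = m
  · subst hj
    rw [Matrix.mul_single_apply_same, Matrix.vecMulVec_apply, Pi.single_eq_same]
    have h5 := congrFun hcol i
    rw [Matrix.mulVec_single_one] at h5
    rw [← h5]
    rfl
  · rw [Matrix.mul_single_apply_of_ne (hbj := hj), Matrix.vecMulVec_apply, Pi.single_apply,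
      if_neg hj, mul_zero]

end general

section fin

variable {k : ℕ}

theorem exists_perm (l m : Fin (k + 2)) (hlm : l ≠ m) :
    ∃ σ : Equiv.Perm (Fin (k + 2)), σ 0 = l ∧ σ 1 = m := by
  have hx : Equiv.swap 0 l m ≠ 0 := by
    intro h
    have h1 := congrArg (Equiv.swap 0 l) h
    rw [Equiv.swap_apply_self, Equiv.swap_apply_left] at h1
    exact hlm h1.symm
  refine ⟨Equiv.swap 0 l * Equiv.swap 1 (Equiv.swap 0 l m), ?_, ?_⟩
  · rw [Equiv.Perm.mul_apply,
      Equiv.swap_apply_of_ne_of_ne (by simp : (0 : Fin (k + 2)) ≠ 1) (Ne.symm hx),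
      Equiv.swap_apply_left]
  · rw [Equiv.Perm.mul_apply, Equiv.swap_apply_left, Equiv.swap_apply_self]

theorem permMatrix_apply' {n : Type*} [DecidableEq n] (σ : Equiv.Perm n) (i j : n) :
    (σ.permMatrix F) i j = if σ i = j then 1 else 0 := by
  simp [Equiv.Perm.permMatrix, PEquiv.toMatrix_apply, Equiv.toPEquiv_apply]

/-- A square-zero matrix of rank one is conjugate to a multiple of `E₀₁`. -/
theorem exists_conj01 (N : Matrix (Fin (k + 2)) (Fin (k + 2)) F) (h : N.rank = 1)
    (h2 : N * N = 0) :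
    ∃ (g : GL (Fin (k + 2)) F) (c : F), c ≠ 0 ∧
      N * (g : Matrix (Fin (k + 2)) (Fin (k + 2)) F)
        = (g : Matrix (Fin (k + 2)) (Fin (k + 2)) F) * Matrix.single 0 1 c := by
  obtain ⟨g0, l, m, c, hlm, hc, hg0⟩ := exists_conj N h h2
  obtain ⟨σ, hσ0, hσ1⟩ := exists_perm l m hlm
  have hQ1 : (σ⁻¹).permMatrix F * σ.permMatrix F = 1 := by
    rw [← Matrix.permMatrix_mul, mul_inv_cancel, Matrix.permMatrix_one]
  have hQ2 : σ.permMatrix F * (σ⁻¹).permMatrix F = 1 := by
    rw [← Matrix.permMatrix_mul, inv_mul_cancel, Matrix.permMatrix_one]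
  have hsw : Matrix.single l m c * (σ⁻¹).permMatrix F
      = (σ⁻¹).permMatrix F * Matrix.single 0 1 c := by
    ext i j
    by_cases hi : i = l
    · subst hi
      rw [Matrix.single_mul_apply_same, permMatrix_apply']
      by_cases hj : j = 1
      · subst hj
        rw [Matrix.mul_single_apply_same, permMatrix_apply', ← hσ1, ← hσ0]
        simp
      · rw [Matrix.mul_single_apply_of_ne (hbj := hj)]
        have h3 : σ⁻¹ m ≠ j := by
          intro h4
          apply hj
          rw [← h4, ← hσ1]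
          simp
        rw [if_neg h3, mul_zero]
    · rw [Matrix.single_mul_apply_of_ne (h := hi)]
      by_cases hj : j = 1
      · subst hj
        rw [Matrix.mul_single_apply_same, permMatrix_apply']
        have h3 : σ⁻¹ i ≠ 0 := by
          intro h4
          apply hi
          rw [← hσ0, ← h4]
          simp
        rw [if_neg h3, zero_mul]
      · rw [Matrix.mul_single_apply_of_ne (hbj := hj)]
  refine ⟨g0 * ⟨(σ⁻¹).permMatrix F, σ.permMatrix F, hQ1, hQ2⟩, c, hc, ?_⟩
  show N * ((g0 : Matrix (Fin (k + 2)) (Fin (k + 2)) F) * (σ⁻¹).permMatrix F)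
    = (g0 : Matrix (Fin (k + 2)) (Fin (k + 2)) F) * (σ⁻¹).permMatrix F * Matrix.single 0 1 c
  rw [← Matrix.mul_assoc, hg0, Matrix.mul_assoc, hsw, Matrix.mul_assoc]

theorem conj_comm {G : Type*} [Group G] (g a s : G) :
    (g * s * g⁻¹) * a = a * (g * s * g⁻¹) ↔ (g⁻¹ * a * g) * s = s * (g⁻¹ * a * g) := by
  constructor
  · intro h
    have h1 : g⁻¹ * (a * (g * s * g⁻¹)) * g = g⁻¹ * ((g * s * g⁻¹) * a) * g := by rw [h]
    simpa [mul_assoc] using h1
  · intro h
    have h1 : g * (s * (g⁻¹ * a * g)) * g⁻¹ = g * ((g⁻¹ * a * g) * s) * g⁻¹ := by rw [h]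
    simpa [mul_assoc] using h1

/-- The order of the centraliser of a transvection of `GL_{k+2}(q)`. -/
theorem card_centralizer [Fintype F] (t : GL (Fin (k + 2)) F)
    (ht : Cfsg.IsTransvection (t : Matrix (Fin (k + 2)) (Fin (k + 2)) F)) :
    Nat.card ↥(Subgroup.centralizer ({t} : Set (GL (Fin (k + 2)) F)))
      = (Fintype.card F - 1) * (Fintype.card F * (Fintype.card F ^ k * (Fintype.card F ^ k *
        Nat.card (GL (Fin k) F)))) := by
  obtain ⟨g, c, hc, hg⟩ := exists_conj01 ((t : Matrix (Fin (k + 2)) (Fin (k + 2)) F) - 1) ht.1 ht.2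
  have hdet : (1 + Matrix.single (0 : Fin (k + 2)) 1 c : Matrix (Fin (k + 2)) (Fin (k + 2)) F).det
      ≠ 0 := by
    have h1 := Matrix.det_transvection_of_ne (0 : Fin (k + 2)) 1 (by simp) c
    unfold Matrix.transvection at h1
    rw [h1]
    exact one_ne_zero
  obtain ⟨sc, hsc⟩ : ∃ sc : GL (Fin (k + 2)) F,
      (sc : Matrix (Fin (k + 2)) (Fin (k + 2)) F) = 1 + Matrix.single 0 1 c :=
    ⟨Matrix.GeneralLinearGroup.mkOfDetNeZero _ hdet, rfl⟩
  have ht' : t = g * sc * g⁻¹ := by
    rw [eq_mul_inv_iff_mul_eq]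
    apply Units.ext
    rw [Units.val_mul, Units.val_mul, hsc, Matrix.mul_add, Matrix.mul_one, ← hg, Matrix.sub_mul,
      Matrix.one_mul]
    abel
  have key : ∀ x : GL (Fin (k + 2)) F, x ∈ Subgroup.centralizer ({t} : Set (GL (Fin (k + 2)) F)) ↔
      ((MulAut.conj g⁻¹).toEquiv x : Matrix (Fin (k + 2)) (Fin (k + 2)) F) * E01 F k
        = E01 F k * ((MulAut.conj g⁻¹).toEquiv x : Matrix (Fin (k + 2)) (Fin (k + 2)) F) := by
    intro x
    rw [Subgroup.mem_centralizer_singleton_iff, ht', eq_comm, conj_comm]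
    have e1 : (MulAut.conj g⁻¹).toEquiv x = g⁻¹ * x * g := by
      show g⁻¹ * x * g⁻¹⁻¹ = g⁻¹ * x * g
      rw [inv_inv]
    rw [e1, Units.ext_iff, Units.val_mul (g⁻¹ * x * g) sc, Units.val_mul sc (g⁻¹ * x * g), hsc,
      Matrix.mul_add, Matrix.add_mul, Matrix.mul_one, Matrix.one_mul, add_right_inj]
    have e2 : Matrix.single (0 : Fin (k + 2)) 1 c = c • E01 F k := by
      rw [E01_eq, Matrix.smul_single, smul_eq_mul, mul_one]
    rw [e2, Matrix.mul_smul, Matrix.smul_mul]
    constructor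
    · intro h3
      exact smul_right_injective _ hc h3
    · intro h3
      rw [h3]
  rw [← card_cent]
  exact Nat.card_congr (Equiv.subtypeEquiv
    (p := fun x => x ∈ Subgroup.centralizer ({t} : Set (GL (Fin (k + 2)) F)))
    (q := fun y : GL (Fin (k + 2)) F =>
      (y : Matrix (Fin (k + 2)) (Fin (k + 2)) F) * E01 F k
        = E01 F k * (y : Matrix (Fin (k + 2)) (Fin (k + 2)) F))
    (MulAut.conj g⁻¹).toEquiv key)

end fin

end Cfsg.Agent.Lib.Helper2.TvConj
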