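import Mathlib

set_option autoImplicit false

namespace Cfsg.Agent.Lib.Helper2.U32Data

/-- The model of the field with four elements. -/
abbrev R4 : Type := QuadraticAlgebra (ZMod 2) 1 1

/-- Square matrices of size three over the model, as functions. -/
abbrev M3 : Type := Fin 3 → Fin 3 → R4

/-- A generator of the model. -/
def w : R4 := ⟨0, 1⟩

/-- The other root. -/
def w2 : R4 := ⟨1, 1⟩

/-- The product of two matrices, written out. -/
def mm (A B : M3) : M3 :=
  fun i j => A i 0 * B 0 j + A i 1 * B 1 j + A i 2 * B 2 j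

/-- The identity matrix. -/
def I3 : M3 := ![![1, 0, 0], ![0, 1, 0], ![0, 0, 1]]

/-- A scalar matrix of order three. -/
def mz : M3 := ![![w, 0, 0], ![0, w, 0], ![0, 0, w]]

/-- A diagonal matrix of order three. -/
def md : M3 := ![![w, 0, 0], ![0, w2, 0], ![0, 0, 1]]

/-- A permutation matrix of order three. -/
def mc : M3 := ![![0, 1, 0], ![0, 0, 1], ![1, 0, 0]]

/-- A matrix of order four. -/
def mi : M3 := ![![1, 1, 1], ![1, w, w2], ![1, w2, w]]

/-- Another matrix of order four. -/
def mj : M3 := ![![1, w, w], ![w2, w, w2], ![w2, w2, w]]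

/-- The determinant, written out. -/
def d3 (N : M3) : R4 :=
  N 0 0 * N 1 1 * N 2 2 - N 0 0 * N 1 2 * N 2 1 - N 0 1 * N 1 0 * N 2 2 + N 0 1 * N 1 2 * N 2 0
    + N 0 2 * N 1 0 * N 2 1 - N 0 2 * N 1 1 * N 2 0

/-- Orthonormality of the columns for the Hermitian form. -/
def cols (N : M3) : Prop :=
  ∀ r s : Fin 3, N 0 r * N 0 s ^ 2 + N 1 r * N 1 s ^ 2 + N 2 r * N 2 s ^ 2 = if r = s then 1 else 0

instance (N : M3) : Decidable (cols N) := by
  unfold cols
  infer_instance

/-- Being a scalar matrix. -/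
def sc (N : M3) : Prop := ∀ i j : Fin 3, N i j = if i = j then N 0 0 else 0

instance (N : M3) : Decidable (sc N) := by
  unfold sc
  infer_instance

/-- Powers of a matrix. -/
def pw (A : M3) : ℕ → M3
  | 0 => I3
  | n + 1 => mm A (pw A n)

/-- The images of the elements of the quaternion group. -/
def q8 : QuaternionGroup 2 → M3
  | .a k => pw mi (ZMod.val k)
  | .xa k => mm mj (pw mi (ZMod.val k))

theorem t_inv : ∀ a b : ZMod 2, (⟨a, b⟩ : R4) ≠ 0 → ∃ c d : ZMod 2, (⟨a, b⟩ : R4) * ⟨c, d⟩ = 1 := by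
  decide +kernel

theorem I3_apply : ∀ i j : Fin 3, I3 i j = if i = j then 1 else 0 := by
  decide +kernel

theorem md_cols : cols md := by decide +kernel
theorem mc_cols : cols mc := by decide +kernel
theorem mz_cols : cols mz := by decide +kernel
theorem md_det : d3 md = 1 := by decide +kernel
theorem mc_det : d3 mc = 1 := by decide +kernel
theorem mz_det : d3 mz = 1 := by decide +kernel

theorem mz_apply : ∀ i j : Fin 3, mz i j = if i = j then w else 0 := by
  decide +kernel

theorem rel_d : mm (mm md md) md = I3 := by decide +kernel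
theorem rel_c : mm (mm mc mc) mc = I3 := by decide +kernel
theorem rel_cd : mm mc md = mm mz (mm md mc) := by decide +kernel
theorem rel_id : mm mi md = mm (mm mz mc) mi := by decide +kernel
theorem rel_ic : mm mi mc = mm (mm mz (mm md md)) mi := by decide +kernel
theorem rel_jd : mm mj md = mm (mm (mm md md) mc) mj := by decide +kernel
theorem rel_jc : mm mj mc = mm (mm mz (mm md mc)) mj := by decide +kernel

theorem nsc_d : ¬ sc md := by decide +kernel
theorem nsc_c : ¬ sc mc := by decide +kernel
theorem nsc_dc : ¬ sc (mm md mc) := by decide +kernel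
theorem nsc_ddc : ¬ sc (mm (mm md md) mc) := by decide +kernel

theorem q8_cols_a : ∀ k : ZMod (2 * 2), cols (q8 (.a k)) := by decide +kernel
theorem q8_cols_xa : ∀ k : ZMod (2 * 2), cols (q8 (.xa k)) := by decide +kernel
theorem q8_det_a : ∀ k : ZMod (2 * 2), d3 (q8 (.a k)) = 1 := by decide +kernel
theorem q8_det_xa : ∀ k : ZMod (2 * 2), d3 (q8 (.xa k)) = 1 := by decide +kernel

theorem q8_mul_aa : ∀ k l : ZMod (2 * 2),
    q8 (QuaternionGroup.a k * QuaternionGroup.a l) = mm (q8 (.a k)) (q8 (.a l)) := by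
  decide +kernel

theorem q8_mul_ax : ∀ k l : ZMod (2 * 2),
    q8 (QuaternionGroup.a k * QuaternionGroup.xa l) = mm (q8 (.a k)) (q8 (.xa l)) := by
  decide +kernel

theorem q8_mul_xa : ∀ k l : ZMod (2 * 2),
    q8 (QuaternionGroup.xa k * QuaternionGroup.a l) = mm (q8 (.xa k)) (q8 (.a l)) := by
  decide +kernel

theorem q8_mul_xx : ∀ k l : ZMod (2 * 2),
    q8 (QuaternionGroup.xa k * QuaternionGroup.xa l) = mm (q8 (.xa k)) (q8 (.xa l)) := by
  decide +kernel

theorem q8_inj_a : ∀ k : ZMod (2 * 2), q8 (.a k) = I3 → k = 0 := by decide +kernel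
theorem q8_inj_xa : ∀ k : ZMod (2 * 2), q8 (.xa k) ≠ I3 := by decide +kernel

theorem q8_cols (x : QuaternionGroup 2) : cols (q8 x) := by
  cases x with
  | a k => exact q8_cols_a k
  | xa k => exact q8_cols_xa k

theorem q8_det (x : QuaternionGroup 2) : d3 (q8 x) = 1 := by
  cases x with
  | a k => exact q8_det_a k
  | xa k => exact q8_det_xa k

theorem q8_mul (x y : QuaternionGroup 2) : q8 (x * y) = mm (q8 x) (q8 y) := by
  cases x with
  | a k =>
    cases y with
    | a l => exact q8_mul_aa k l
    | xa l => exact q8_mul_ax k l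
  | xa k =>
    cases y with
    | a l => exact q8_mul_xa k l
    | xa l => exact q8_mul_xx k l

theorem q8_one : q8 1 = I3 := rfl

theorem q8_a1 : q8 (QuaternionGroup.a 1) = mi := by decide +kernel

theorem q8_xa0 : q8 (QuaternionGroup.xa 0) = mj := by decide +kernel

theorem q8_inj (x : QuaternionGroup 2) (h : q8 x = I3) : x = 1 := by
  cases x with
  | a k =>
    rw [q8_inj_a k h]
    rfl
  | xa k => exact absurd h (q8_inj_xa k)

/-- Every element of the quaternion group is a word in the two generators. -/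
theorem q8_word (x : QuaternionGroup 2) :
    ∃ e k : ℕ, x = (QuaternionGroup.xa 0) ^ e * (QuaternionGroup.a 1) ^ k := by
  cases x with
  | a k =>
    refine ⟨0, ZMod.val k, ?_⟩
    rw [pow_zero, one_mul, QuaternionGroup.a_one_pow, ZMod.natCast_zmod_val]
  | xa k =>
    refine ⟨1, ZMod.val k, ?_⟩
    rw [pow_one, QuaternionGroup.a_one_pow, ZMod.natCast_zmod_val, QuaternionGroup.xa_mul_a,
      zero_add]

end Cfsg.Agent.Lib.Helper2.U32Data
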