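import Mathlib
import Cfsg.Prelude.Def_Classical
import Cfsg.Agent.Lib.Helper2.Unitary3
import Cfsg.Agent.Lib.Helper2.U32Data

set_option autoImplicit false

namespace Cfsg.Agent.Lib.Helper2.U32Data

open Cfsg.Agent.Lib.Helper2.Unitary

section field

variable {F : Type*} [Field F]

/-- A ring homomorphism out of the model is injective. -/
theorem iota_injective (ι : R4 →+* F) : Function.Injective ι := by
  rw [injective_iff_map_eq_zero]
  intro x hx
  by_contra hne
  obtain ⟨c, d, hcd⟩ := t_inv x.re x.im hne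
  have h1 : ι x * ι ⟨c, d⟩ = 1 := by
    rw [← map_mul]
    exact (congrArg ι hcd).trans (map_one ι)
  rw [hx, zero_mul] at h1
  exact zero_ne_one h1

/-- The image of a matrix of the model. -/
def Em (ι : R4 →+* F) (N : M3) : Matrix (Fin 3) (Fin 3) F := fun i j => ι (N i j)

theorem Em_apply (ι : R4 →+* F) (N : M3) (i j : Fin 3) : Em ι N i j = ι (N i j) := rfl

theorem Em_mul (ι : R4 →+* F) (A B : M3) : Em ι (mm A B) = Em ι A * Em ι B := by
  funext i j
  rw [Matrix.mul_apply, Fin.sum_univ_three]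
  show ι (A i 0 * B 0 j + A i 1 * B 1 j + A i 2 * B 2 j) = _
  rw [map_add, map_add, map_mul, map_mul, map_mul]
  rfl

theorem Em_one (ι : R4 →+* F) : Em ι I3 = 1 := by
  funext i j
  rw [Em_apply, I3_apply, Matrix.one_apply]
  split_ifs
  · exact map_one ι
  · exact map_zero ι

theorem Em_det (ι : R4 →+* F) (N : M3) : (Em ι N).det = ι (d3 N) := by
  rw [Matrix.det_fin_three]
  simp only [Em_apply, d3, map_add, map_sub, map_mul]

theorem Em_injective (ι : R4 →+* F) : Function.Injective (Em ι) := by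
  intro A B h
  funext i j
  exact iota_injective ι (congrFun (congrFun h i) j)

variable [Fintype F]

/-- Matrices with orthonormal columns preserve the Hermitian form. -/
theorem isU_of_cols2 (hF : Fintype.card F = 2 ^ 2) (N : Matrix (Fin 3) (Fin 3) F)
    (h : ∀ r s : Fin 3, N 0 r * N 0 s ^ 2 + N 1 r * N 1 s ^ 2 + N 2 r * N 2 s ^ 2
      = if r = s then 1 else 0) : IsU 3 2 N := by
  intro u v
  have e : ∀ x y : F, (x + y) ^ 2 = x ^ 2 + y ^ 2 := pow_q_add hF
  have h00 := h 0 0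
  have h01 := h 0 1
  have h02 := h 0 2
  have h10 := h 1 0
  have h11 := h 1 1
  have h12 := h 1 2
  have h20 := h 2 0
  have h21 := h 2 1
  have h22 := h 2 2
  simp only [Fin.isValue, if_true] at h00 h11 h22
  rw [if_neg (by decide)] at h01 h02 h10 h12 h20 h21
  simp only [Cfsg.hermForm, Matrix.mulVec, dotProduct, Fin.sum_univ_three, e, mul_pow]
  linear_combination (u 0 * v 0 ^ 2) * h00 + (u 0 * v 1 ^ 2) * h01 + (u 0 * v 2 ^ 2) * h02
    + (u 1 * v 0 ^ 2) * h10 + (u 1 * v 1 ^ 2) * h11 + (u 1 * v 2 ^ 2) * h12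
    + (u 2 * v 0 ^ 2) * h20 + (u 2 * v 1 ^ 2) * h21 + (u 2 * v 2 ^ 2) * h22

theorem Em_isU (hF : Fintype.card F = 2 ^ 2) (ι : R4 →+* F) (N : M3) (h : cols N) :
    IsU 3 2 (Em ι N) := by
  apply isU_of_cols2 hF
  intro r s
  have h1 := congrArg ι (h r s)
  rw [map_add, map_add, map_mul, map_mul, map_mul, map_pow, map_pow, map_pow] at h1
  refine h1.trans ?_
  split_ifs
  · exact map_one ι
  · exact map_zero ι

/-- The element of the special unitary group given by a matrix of the model. -/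
def el (hF : Fintype.card F = 2 ^ 2) (ι : R4 →+* F) (N : M3) (hc : cols N) (hd : d3 N = 1) :
    ↥(Cfsg.SU 3 F 2) :=
  ⟨⟨Em ι N, by rw [Em_det, hd, map_one]⟩, (mem_SU_iff 3 2 _).2 (Em_isU hF ι N hc)⟩

/-- The underlying matrix of an element. -/
def mat (g : ↥(Cfsg.SU 3 F 2)) : Matrix (Fin 3) (Fin 3) F := g.1.1

omit [Fintype F] in
theorem mat_mul (g h : ↥(Cfsg.SU 3 F 2)) : mat (g * h) = mat g * mat h := rfl

omit [Fintype F] in
theorem mat_one : mat (1 : ↥(Cfsg.SU 3 F 2)) = 1 := rfl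

omit [Fintype F] in
theorem mat_injective : Function.Injective (mat (F := F)) :=
  fun _ _ e => Subtype.ext (Subtype.ext e)

theorem mat_el (hF : Fintype.card F = 2 ^ 2) (ι : R4 →+* F) (N : M3) (hc : cols N)
    (hd : d3 N = 1) : mat (el hF ι N hc hd) = Em ι N := rfl

/-- The diagonal element of order three. -/
def D (hF : Fintype.card F = 2 ^ 2) (ι : R4 →+* F) : ↥(Cfsg.SU 3 F 2) :=
  el hF ι md md_cols md_det

/-- The permutation element of order three. -/
def C (hF : Fintype.card F = 2 ^ 2) (ι : R4 →+* F) : ↥(Cfsg.SU 3 F 2) :=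
  el hF ι mc mc_cols mc_det

/-- The scalar element of order three. -/
def Z (hF : Fintype.card F = 2 ^ 2) (ι : R4 →+* F) : ↥(Cfsg.SU 3 F 2) :=
  el hF ι mz mz_cols mz_det

/-- The quaternion group inside the special unitary group. -/
def rho (hF : Fintype.card F = 2 ^ 2) (ι : R4 →+* F) : QuaternionGroup 2 →* ↥(Cfsg.SU 3 F 2) where
  toFun x := el hF ι (q8 x) (q8_cols x) (q8_det x)
  map_one' := mat_injective (by
    show Em ι (q8 1) = 1
    rw [q8_one, Em_one])
  map_mul' x y := mat_injective (by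
    show Em ι (q8 (x * y)) = Em ι (q8 x) * Em ι (q8 y)
    rw [q8_mul, Em_mul])

theorem mat_rho (hF : Fintype.card F = 2 ^ 2) (ι : R4 →+* F) (x : QuaternionGroup 2) :
    mat (rho hF ι x) = Em ι (q8 x) := rfl

theorem rho_injective (hF : Fintype.card F = 2 ^ 2) (ι : R4 →+* F) :
    Function.Injective (rho hF ι) := by
  rw [injective_iff_map_eq_one]
  intro x hx
  apply q8_inj
  apply Em_injective ι
  rw [Em_one, ← mat_rho hF ι x, hx]
  rfl

theorem R_d (hF : Fintype.card F = 2 ^ 2) (ι : R4 →+* F) : D hF ι * D hF ι * D hF ι = 1 :=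
  mat_injective (by
    show Em ι md * Em ι md * Em ι md = 1
    rw [← Em_mul, ← Em_mul, rel_d, Em_one])

theorem R_c (hF : Fintype.card F = 2 ^ 2) (ι : R4 →+* F) : C hF ι * C hF ι * C hF ι = 1 :=
  mat_injective (by
    show Em ι mc * Em ι mc * Em ι mc = 1
    rw [← Em_mul, ← Em_mul, rel_c, Em_one])

theorem R_cd (hF : Fintype.card F = 2 ^ 2) (ι : R4 →+* F) :
    C hF ι * D hF ι = Z hF ι * (D hF ι * C hF ι) :=
  mat_injective (by
    show Em ι mc * Em ι md = Em ι mz * (Em ι md * Em ι mc)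
    rw [← Em_mul, ← Em_mul, ← Em_mul, rel_cd])

theorem R_id (hF : Fintype.card F = 2 ^ 2) (ι : R4 →+* F) :
    rho hF ι (QuaternionGroup.a 1) * D hF ι = Z hF ι * C hF ι * rho hF ι (QuaternionGroup.a 1) :=
  mat_injective (by
    show Em ι (q8 (QuaternionGroup.a 1)) * Em ι md
      = Em ι mz * Em ι mc * Em ι (q8 (QuaternionGroup.a 1))
    rw [q8_a1, ← Em_mul, ← Em_mul, ← Em_mul, rel_id])

theorem R_ic (hF : Fintype.card F = 2 ^ 2) (ι : R4 →+* F) :
    rho hF ι (QuaternionGroup.a 1) * C hF ι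
      = Z hF ι * (D hF ι * D hF ι) * rho hF ι (QuaternionGroup.a 1) :=
  mat_injective (by
    show Em ι (q8 (QuaternionGroup.a 1)) * Em ι mc
      = Em ι mz * (Em ι md * Em ι md) * Em ι (q8 (QuaternionGroup.a 1))
    rw [q8_a1, ← Em_mul, ← Em_mul, ← Em_mul, ← Em_mul, rel_ic])

theorem R_jd (hF : Fintype.card F = 2 ^ 2) (ι : R4 →+* F) :
    rho hF ι (QuaternionGroup.xa 0) * D hF ι
      = D hF ι * D hF ι * C hF ι * rho hF ι (QuaternionGroup.xa 0) :=
  mat_injective (by
    show Em ι (q8 (QuaternionGroup.xa 0)) * Em ι md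
      = Em ι md * Em ι md * Em ι mc * Em ι (q8 (QuaternionGroup.xa 0))
    rw [q8_xa0, ← Em_mul, ← Em_mul, ← Em_mul, ← Em_mul, rel_jd])

theorem R_jc (hF : Fintype.card F = 2 ^ 2) (ι : R4 →+* F) :
    rho hF ι (QuaternionGroup.xa 0) * C hF ι
      = Z hF ι * (D hF ι * C hF ι) * rho hF ι (QuaternionGroup.xa 0) :=
  mat_injective (by
    show Em ι (q8 (QuaternionGroup.xa 0)) * Em ι mc
      = Em ι mz * (Em ι md * Em ι mc) * Em ι (q8 (QuaternionGroup.xa 0))
    rw [q8_xa0, ← Em_mul, ← Em_mul, ← Em_mul, ← Em_mul, rel_jc])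

theorem Z_central (hF : Fintype.card F = 2 ^ 2) (ι : R4 →+* F) :
    Z hF ι ∈ Subgroup.center ↥(Cfsg.SU 3 F 2) := by
  rw [Subgroup.mem_center_iff]
  intro g
  apply mat_injective
  show mat g * Em ι mz = Em ι mz * mat g
  have h : Em ι mz = ι w • (1 : Matrix (Fin 3) (Fin 3) F) := by
    funext i j
    rw [Em_apply, mz_apply, Matrix.smul_apply, Matrix.one_apply]
    split_ifs
    · rw [smul_eq_mul, mul_one]
    · rw [smul_eq_mul, mul_zero, map_zero]
  rw [h, Matrix.mul_smul, Matrix.smul_mul, mul_one, one_mul]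

theorem not_central (hF : Fintype.card F = 2 ^ 2) (ι : R4 →+* F) (N : M3) (hc : cols N)
    (hd : d3 N = 1) (h : ¬ sc N) : el hF ι N hc hd ∉ Subgroup.center ↥(Cfsg.SU 3 F 2) := by
  intro hz
  apply h
  have hs' : Em ι N = (Em ι N 0 0) • (1 : Matrix (Fin 3) (Fin 3) F) :=
    (center_SU_facts hF 3 0 ⟨el hF ι N hc hd, hz⟩).1
  intro i j
  apply iota_injective ι
  have h2 := congrFun (congrFun hs' i) j
  rw [Matrix.smul_apply, Matrix.one_apply] at h2
  refine h2.trans ?_
  split_ifs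
  · rw [smul_eq_mul, mul_one]
    rfl
  · rw [smul_eq_mul, mul_zero, map_zero]

theorem D_not_central (hF : Fintype.card F = 2 ^ 2) (ι : R4 →+* F) :
    D hF ι ∉ Subgroup.center ↥(Cfsg.SU 3 F 2) := not_central hF ι md md_cols md_det nsc_d

theorem C_not_central (hF : Fintype.card F = 2 ^ 2) (ι : R4 →+* F) :
    C hF ι ∉ Subgroup.center ↥(Cfsg.SU 3 F 2) := not_central hF ι mc mc_cols mc_det nsc_c

theorem DC_not_central (hF : Fintype.card F = 2 ^ 2) (ι : R4 →+* F) :
    D hF ι * C hF ι ∉ Subgroup.center ↥(Cfsg.SU 3 F 2) := by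
  intro hz
  have hz' : (D hF ι * C hF ι).1 ∈ Cfsg.SU 3 F 2 := (D hF ι * C hF ι).2
  have hU : IsU 3 2 (Em ι (mm md mc)) := by
    rw [Em_mul]
    exact hz'
  have hdet : (Em ι (mm md mc)).det = 1 := by
    rw [Em_mul]
    exact (D hF ι * C hF ι).1.2
  have hs' : Em ι (mm md mc) = (Em ι (mm md mc) 0 0) • (1 : Matrix (Fin 3) (Fin 3) F) := by
    have := (center_SU_facts hF 3 0 ⟨D hF ι * C hF ι, hz⟩).1
    rw [Em_mul]
    exact this
  apply nsc_dc
  intro i j
  apply iota_injective ι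
  have h2 := congrFun (congrFun hs' i) j
  rw [Matrix.smul_apply, Matrix.one_apply] at h2
  refine h2.trans ?_
  split_ifs
  · rw [smul_eq_mul, mul_one]
    rfl
  · rw [smul_eq_mul, mul_zero, map_zero]

theorem DDC_not_central (hF : Fintype.card F = 2 ^ 2) (ι : R4 →+* F) :
    D hF ι * D hF ι * C hF ι ∉ Subgroup.center ↥(Cfsg.SU 3 F 2) := by
  intro hz
  have hs' : Em ι (mm (mm md md) mc)
      = (Em ι (mm (mm md md) mc) 0 0) • (1 : Matrix (Fin 3) (Fin 3) F) := by
    have := (center_SU_facts hF 3 0 ⟨D hF ι * D hF ι * C hF ι, hz⟩).1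
    rw [Em_mul, Em_mul]
    exact this
  apply nsc_ddc
  intro i j
  apply iota_injective ι
  have h2 := congrFun (congrFun hs' i) j
  rw [Matrix.smul_apply, Matrix.one_apply] at h2
  refine h2.trans ?_
  split_ifs
  · rw [smul_eq_mul, mul_one]
    rfl
  · rw [smul_eq_mul, mul_zero, map_zero]

end field

end Cfsg.Agent.Lib.Helper2.U32Data
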